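import Cfsg.Agent.H25.J4t
import Cfsg.Agent.H10.Dc
import Cfsg.Agent.H2.Cov

/-! An upper bound for the centralizer of `je` in `J4`. -/

set_option maxRecDepth 100000
set_option autoImplicit false

namespace H25.J4u
open Cfsg Cfsg.Spor H7.J4 H29 H29.J4m Subgroup

theorem ub0 (O : Fin 20 → Set (J4 ⧸ closure {jx, jy, je})) (h1 : ∀ g : J4, ∃ i, (g : J4 ⧸ closure {jx, jy, je}) ∈ O i)
    (h2 : ∀ i, (O i).ncard ≤ H2.Cov.oL.getD i 0)
    (h3 : ∀ i (g : J4), (g : J4 ⧸ closure {jx, jy, je}) ∈ O i → ∃ k ∈ closure {jx, jy, je}, ∃ h ∈ closure {jx, jy, je},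
      g = k * H28.ev [jx, jy, jy⁻¹, jt] (H2.Cov.WL.getD i []) * h) :
    Nat.card (centralizer ({je} : Set J4)) ≤ 21799895040 := by
  obtain ⟨φ, h0⟩ := ex_phi
  obtain ⟨hi, ⟨hs, hc⟩, -⟩ := H7.JD.j_main
  have : Finite J4 := Nat.finite_of_card_ne_zero (by rw [hc]; norm_num)
  have s0 : Std ar.gM := ⟨rfl, rfl, rfl⟩
  have inj : Function.Injective φ := by
    rw [← MonoidHom.ker_eq_bot_iff]
    refine φ.normal_ker.eq_bot_or_eq_top.resolve_right fun e => ?_
    exact s0.ne h0 (.v 0) (.v 9) (by decide +kernel) (show jx ∈ φ.ker from e ▸ mem_top _)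
  obtain ⟨M, s, h⟩ : ∃ M : Model J4, Std M ∧ List.Forall₂ M.R L0 [jx, jy, jy⁻¹, jt] := by
    refine ⟨ar.gM.comap φ inj, ⟨rfl, rfl, rfl⟩, ?_⟩
    rw [← map_inv] at h0
    exact .cons (R_getD h0 0) (.cons (R_getD h0 1) (.cons (R_getD h0 2) (.cons (R_getD h0 3) .nil)))
  clear h0 inj s0 φ
  have h' : List.Forall₂ M.R L1 [jx, jy, jy⁻¹, jt, je] := f1 (φ := MonoidHom.id J4) s h
  have hK : ∀ c ∈ [cx, cy, cY, ce], M.In ⊤ c := by
    simp only [List.forall_mem_cons]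
    exact ⟨⟨_, trivial, R_getD h' 0⟩, ⟨_, trivial, R_getD h' 1⟩, ⟨_, trivial, R_getD h' 2⟩,
      ⟨_, trivial, R_getD h' 4⟩, by simp⟩
  have hv := s.map hK eK (L' := eL) (by decide +kernel)
  have ea : EA M eL := EA.of hv (by rw [s.1, s.2.1, s.2.2]; decide +kernel) (by rw [s.1, s.2.2]; decide +kernel)
  have cm : ∀ a ∈ M.cl eL, ∀ b ∈ M.cl eL, a * b = b * a := fun a ha b hb => by
    refine mem_centralizer_singleton_iff.1 (Model.cl_le' (K := centralizer {b}) (fun c hc α hα => ?_) ha)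
    refine mem_centralizer_singleton_iff.2 (mem_centralizer_singleton_iff.1
      (Model.cl_le' (K := centralizer {α}) (fun d hd β hβ => ?_) hb)).symm
    obtain ⟨γ, e1, -, e2⟩ := ea c hc
    rw [M.unique hα e1]
    exact mem_centralizer_singleton_iff.2 (e2 d hd β hβ).eq.symm
  have re : M.R ce je := R_getD h' 4
  have je0 : je ∈ M.cl eL := Model.mem_cl List.mem_cons_self re
  have x2 : jx * jx = 1 := s.eq h (.m (.v 0) (.v 0)) (.v 9) (by decide +kernel)
  have hN : closure {jx, jy, je} ≤ normalizer (M.cl eL : Set J4) := by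
    rw [closure_le]
    rintro _ (rfl | rfl | rfl)
    · exact s.norm hv (x := cx) (R_getD h 0) (y := cx) (by
        change M.R cx jx⁻¹
        rw [inv_eq_of_mul_eq_one_right x2]; exact R_getD h 0) nx (by decide +kernel)
    · exact s.norm hv (x := cy) (y := cY) (R_getD h 1) (R_getD h 2) ny (by decide +kernel)
    · exact le_normalizer je0
  have je1 : je ≠ 1 := s.ne h' (.v 4) (.v 9) (by decide +kernel)
  obtain ⟨e1, e1m, r1⟩ : ∃ e1 ∈ M.cl eL, M.R (lgetD 0 eL 1) e1 :=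
    have m : lgetD 0 eL 1 ∈ eL := List.mem_cons_of_mem _ List.mem_cons_self
    Model.In.cl m (hv _ m)
  have ob := H25.J4o.orb
  generalize je = z at *
  generalize hH : closure {jx, jy, z} = H at *
  set S := {g : J4 | ∃ h ∈ H, g = h * z * h⁻¹} with hS
  have SE : ∀ g ∈ S, g ∈ M.cl eL ∧ g ≠ 1 := by
    rintro _ ⟨k, hk, rfl⟩
    exact ⟨(mem_normalizer_iff.1 (hN hk) _).1 je0, by simpa using je1⟩
  have t2 : jt * jt = 1 := s.eq h (.m (.v 3) (.v 3)) (.v 9) (by decide +kernel)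
  have key : ∀ w n, nw w = n + 1 →
      {s | s ∈ S ∧ (H28.ev [jx, jy, jy⁻¹, jt] w)⁻¹ * s * H28.ev [jx, jy, jy⁻¹, jt] w ∈ S}.ncard ≤ n := by
    intro w n e
    have a := R_ev s h w
    have b := R_ev s h (w.map H7.J4.iv).reverse
    rw [nw, force_eq, force_eq, force_eq, force_eq] at e
    rw [ev_iv4 x2 t2] at b
    generalize H28.ev [jx, jy, jy⁻¹, jt] w = g at *
    have := le_num s (L := eL.take 5) (L' := eL.drop 5) (by rwa [List.take_append_drop])
      (M.R_mul (M.R_mul a re) b) (M.R_mul (M.R_mul a r1) b)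
    rw [s.1, List.take_append_drop, e] at this
    refine Nat.le_of_lt_succ (lt_of_lt_of_le (Set.ncard_lt_ncard ⟨?_, fun c => ?_⟩) this)
    · rintro u ⟨hu, hu'⟩
      have k : ∀ v ∈ M.cl eL, u * (g * v * g⁻¹) * u⁻¹ = g * v * g⁻¹ := fun v hv => by
        calc _ = g * (g⁻¹ * u * g * v) * g⁻¹ * u⁻¹ := by group
          _ = _ := by rw [cm _ (SE _ hu').1 v hv]; group
      exact ⟨(SE u hu).1, k z je0, k e1 e1m⟩
    · exact (SE 1 (c ⟨one_mem _, by simp, by simp⟩).1).2 rfl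
  have dc := H10.Dc.dc H z S (fun _ => Iff.rfl) O (fun i => H2.Cov.oL.getD i 0)
    (fun i => if i = 0 then S.ncard else nL.getD i 0) h1 h2 fun i g hg => by
      split_ifs with i0
      · exact Set.ncard_le_ncard fun _ h => h.1
      obtain ⟨k, hk, u, hu, rfl⟩ := h3 i g hg
      rw [H10.Dc.dc_inv H z S (fun _ => Iff.rfl) _ hk hu]
      refine key _ _ ?_
      have : (i : ℕ) ∈ [1, 2, 3, 4, 5, 6, 7] ∨ (i : ℕ) ∈ [8, 9, 10, 11] ∨ (i : ℕ) ∈ [12, 13, 14, 15] ∨
        (i : ℕ) ∈ [16, 17, 18, 19] := by clear hg; revert i; decide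
      rcases this with e | e | e | e
      exacts [k1 _ e, k2 _ e, k3 _ e, k4 _ e]
  have hH' := H.card_mul_index
  rw [hi, hc] at hH'
  rw [Fin.sum_univ_succ, show Nat.card H = 501397585920 by omega] at dc
  simp only [if_true, Fin.succ_ne_zero, if_false] at dc
  rw [show ∑ i : Fin 19, H2.Cov.oL.getD i.succ 0 * nL.getD i.succ 0 = 134596 by decide +kernel,
    show H2.Cov.oL.getD (0 : Fin 20) 0 = 1 from rfl] at dc
  generalize S.ncard = n at *
  by_contra c
  have c1 := Nat.mul_le_mul_left (n ^ 2) (not_le.1 c)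
  obtain ⟨m, rfl⟩ := Nat.exists_eq_add_of_le ob
  nlinarith

theorem ub : Nat.card (centralizer ({je} : Set Cfsg.Spor.J4)) ≤ 21799895040 := by
  have h : ∀ r ∈ J4.extra, PresentedGroup.mk (coxRelators J4.edges ∪ {r | r ∈ J4.extra}) r = 1 :=
    fun r hr => PresentedGroup.one_of_mem (Or.inr hr)
  simp only [J4.extra, List.forall_mem_cons] at h
  obtain ⟨h1, h2, h3, h4, h5, h6, h7, h8, h9, h10, h11, h12, -⟩ := h
  obtain ⟨O, a, b, c⟩ := H2.Cov.cov (x := jx) (y := jy) (t := jt) h1 h2 h3 h4 h5 h6 h7 h8 h9 h10 h11 h12 H7.JD.j_top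
    (closure {jx, jy, je}) (subset_closure (Or.inl rfl)) (subset_closure (Or.inr (Or.inl rfl)))
    (subset_closure (Or.inr (Or.inr rfl)))
  exact ub0 O a b c

end H25.J4u
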