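import Cfsg.Agent.H29.J4c2

/-! Elements of orders 31 and 23 of `J4` with their inverting and squaring elements. -/

set_option maxRecDepth 100000
set_option autoImplicit false

namespace H25.C31
open Cfsg Cfsg.Spor H7.J4 H29 H29.J4m Subgroup

def wd (l : List ℕ) : Ex := l.foldr (fun i e => .m (.v i) e) (.v 9)
def e2 : Ex := wd [0, 1, 3, 2, 3, 1, 3, 1, 0, 2, 0, 2, 0, 1, 3, 1, 3, 2, 0, 2, 0, 1, 0, 2, 0, 1, 0, 1, 3, 2, 3, 2, 0, 1, 0, 1, 0, 2, 3, 2, 3, 1, 3, 2, 0]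
def eb : Ex := wd [1, 0, 1, 0, 2, 0, 2, 0, 2, 0, 2, 0, 2, 0, 2, 0, 1, 0, 1, 0, 2, 0, 1, 0, 2, 0, 1, 0, 1, 0, 1, 0, 1, 0, 1, 0, 1, 0, 1, 0, 2, 0, 2, 0, 2, 0, 2, 0, 1, 0, 2]

theorem h2 : ∃ a t : Cfsg.Spor.J4, orderOf a = 31 ∧ t * a * t⁻¹ = a⁻¹ := by
  obtain ⟨M, s, h⟩ := j4_model'
  haveI : Fact (Nat.Prime 31) := ⟨by norm_num⟩
  have a1 := s.eq h (.p (.m (.v 0) e2) 31) (.v 9) (by decide +kernel)
  have a2 := s.ne h (.m (.v 0) e2) (.v 9) (by decide +kernel)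
  have a3 := s.eq h (.m e2 e2) (.v 9) (by decide +kernel)
  have a4 := s.eq h (.m (.v 0) (.v 0)) (.v 9) (by decide +kernel)
  simp only [Ex.g] at a1 a2 a3 a4
  generalize e2.g [jx, jy, jy⁻¹, jt, je] = u at a1 a2 a3
  change (jx * u) ^ 31 = 1 at a1
  change jx * u ≠ 1 at a2
  change u * u = 1 at a3
  change jx * jx = 1 at a4
  refine ⟨jx * u, jx, orderOf_eq_prime a1 a2, ?_⟩
  rw [← mul_assoc, a4, one_mul, mul_inv_rev, inv_eq_of_mul_eq_one_right a3]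

theorem h11 : ∃ a b : Cfsg.Spor.J4, orderOf a = 23 ∧ b * a * b⁻¹ = a ^ 2 := by
  obtain ⟨M, s, h⟩ := j4_model'
  haveI : Fact (Nat.Prime 23) := ⟨by norm_num⟩
  have a1 := s.eq h (.p (.m (.v 0) (.v 1)) 23) (.v 9) (by decide +kernel)
  have a2 := s.ne h (.m (.v 0) (.v 1)) (.v 9) (by decide +kernel)
  have a3 := s.eq h (.m eb (.m (.v 0) (.v 1))) (.m (.p (.m (.v 0) (.v 1)) 2) eb) (by decide +kernel)
  simp only [Ex.g] at a1 a2 a3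
  generalize eb.g [jx, jy, jy⁻¹, jt, je] = u at a3
  change (jx * jy) ^ 23 = 1 at a1
  change jx * jy ≠ 1 at a2
  change u * (jx * jy) = (jx * jy) ^ 2 * u at a3
  exact ⟨jx * jy, u, orderOf_eq_prime a1 a2, by rw [a3, mul_inv_cancel_right]⟩

end H25.C31
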