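import Cfsg.Agent.H25.B2f

/-! Alternating sections of linear groups, I: weights, restriction, canonical lifts. -/

set_option autoImplicit false
set_option linter.unusedSectionVars false

namespace H25.AW

open Equiv Equiv.Perm Module
open scoped commutatorElement

section lin
variable {k V : Type*} [Field k] [AddCommGroup V] [Module k V] [FiniteDimensional k V]

/-- `χ` is a weight of the family `f` on `U` -/
def Wt {J : Type*} (f : J → End k V) (U : Submodule k V) (χ : J → k) : Prop :=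
  ∃ v ∈ U, v ≠ 0 ∧ ∀ j, f j v = χ j • v

theorem exists_wt [IsAlgClosed k] {J : Type*} (f : J → End k V) (hc : ∀ i j, Commute (f i) (f j))
    (U : Submodule k V) (hU : U ≠ ⊥) (hi : ∀ j, ∀ v ∈ U, f j v ∈ U) : ∃ χ, Wt f U χ := by
  induction U using WellFoundedLT.induction with
  | ind U ih =>
  haveI := Submodule.nontrivial_iff_ne_bot.2 hU
  have h1 : ∀ j, ∃ a : k, U ⊓ (f j).eigenspace a ≠ ⊥ := fun j => by
    obtain ⟨a, ha⟩ := End.exists_eigenvalue (K := k) ((f j).restrict (hi j))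
    obtain ⟨v, hv⟩ := ha.exists_hasEigenvector
    refine ⟨a, (Submodule.ne_bot_iff _).2 ⟨v.1, ⟨v.2, End.mem_eigenspace_iff.2 ?_⟩, fun e => hv.2 (Subtype.ext e)⟩⟩
    exact congrArg Subtype.val hv.apply_eq_smul
  choose a ha using h1
  by_cases h2 : ∀ j, U ≤ (f j).eigenspace (a j)
  · obtain ⟨v, hv, h0⟩ := (Submodule.ne_bot_iff _).1 hU
    exact ⟨a, v, hv, h0, fun j => End.mem_eigenspace_iff.1 (h2 j hv)⟩
  · push Not at h2
    obtain ⟨j, hj⟩ := h2
    obtain ⟨χ, v, hv, h⟩ := ih (U ⊓ (f j).eigenspace (a j)) (inf_lt_left.2 hj) (ha j)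
      fun i v hv => ⟨hi i v hv.1, End.mem_eigenspace_iff.2 (by
        rw [← End.mul_apply, (hc j i).eq, End.mul_apply, End.mem_eigenspace_iff.1 hv.2, map_smul])⟩
    exact ⟨χ, v, hv.1, h⟩

theorem card_le_of_wt {J ι : Type*} [Fintype ι] {f : J → End k V} {U : Submodule k V}
    (χ : ι → J → k) (hχ : Function.Injective χ) (h : ∀ i, Wt f U (χ i)) :
    Fintype.card ι ≤ finrank k U := by
  choose v h1 h2 h3 using h
  have := B2.indep_of_chars f v χ h2 h3 hχ
  have h4 : LinearIndependent k (U.subtype ∘ fun i => (⟨v i, h1 i⟩ : U)) := this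
  exact (LinearIndependent.of_comp _ h4).fintype_card_le_finrank

theorem finite_wt {J : Type*} (f : J → End k V) (U : Submodule k V) :
    Finite {χ // Wt f U χ} ∧ Nat.card {χ // Wt f U χ} ≤ finrank k U := by
  have h : Finite {χ // Wt f U χ} := by
    choose v h1 h2 h3 using fun i : {χ // Wt f U χ} => i.2
    exact (B2.indep_of_chars f v _ h2 h3 Subtype.val_injective).finite
  refine ⟨h, ?_⟩
  haveI := Fintype.ofFinite {χ // Wt f U χ}
  rw [Nat.card_eq_fintype_card]
  exact card_le_of_wt _ Subtype.val_injective fun i => i.2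

theorem add_le_of_inf {A B : Submodule k V} (h : ∀ v ∈ A, v ∈ B → v = 0) :
    finrank k A + finrank k B ≤ finrank k V :=
  Submodule.finrank_add_finrank_le_of_disjoint (Submodule.disjoint_def.2 h)

/-- extension of scalars -/
theorem ext_scalars {X K : Type*} [Group X] [Field K] (ι : k →+* K) (ρ : X →* End k V) :
    ∃ ρ' : X →* End K (Fin (finrank k V) → K), ∀ x, ρ' x = 1 → ρ x = 1 := by
  let b := Module.finBasis k V
  refine ⟨(Matrix.toLinAlgEquiv' (R := K)).toRingEquiv.toMonoidHom.comp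
    ((ι.mapMatrix (m := Fin (finrank k V))).toMonoidHom.comp
      ((LinearMap.toMatrixAlgEquiv b).toRingEquiv.toMonoidHom.comp ρ)), fun x hx => ?_⟩
  have h1 : ι.mapMatrix (LinearMap.toMatrixAlgEquiv b (ρ x)) = 1 :=
    (Matrix.toLinAlgEquiv' (R := K)).injective (hx.trans (map_one _).symm)
  have h2 : LinearMap.toMatrixAlgEquiv b (ρ x) = 1 :=
    Matrix.map_injective ι.injective (h1.trans (map_one ι.mapMatrix).symm)
  exact (LinearMap.toMatrixAlgEquiv b).injective (h2.trans (map_one _).symm)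

/-- the commutator space of an element of order prime to the characteristic meets its fixed space trivially -/
theorem eq_zero_of_fix {t : End k V} {m : ℕ} (hm : (m : k) ≠ 0) (ht : t ^ m = 1) {w : V}
    (h1 : w ∈ LinearMap.range (t - 1)) (h2 : t w = w) : w = 0 := by
  obtain ⟨v, rfl⟩ := h1
  have h3 : ∀ i : ℕ, (t ^ i) ((t - 1) v) = (t - 1) v := fun i => by
    induction i with
    | zero => rfl
    | succ i ih => rw [pow_succ', End.mul_apply, ih, h2]
  have h4 : (∑ i ∈ Finset.range m, t ^ i) ((t - 1) v) = (m : k) • (t - 1) v := by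
    rw [LinearMap.sum_apply, Finset.sum_congr rfl fun i _ => h3 i, Finset.sum_const,
      Finset.card_range, Nat.cast_smul_eq_nsmul]
  rw [← End.mul_apply, geom_sum_mul, ht, sub_self, LinearMap.zero_apply] at h4
  exact (smul_eq_zero.1 h4.symm).resolve_left hm

theorem pow_apply_of {t : End k V} {v : V} {a : k} (h : t v = a • v) (i : ℕ) :
    (t ^ i) v = a ^ i • v := by
  induction i with
  | zero => simp
  | succ i ih => rw [pow_succ, End.mul_apply, h, map_smul, ih, smul_smul, pow_succ']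

theorem pow_eq_one_of {t : End k V} {v : V} {a : k} {m : ℕ} (ht : t ^ m = 1) (h0 : v ≠ 0)
    (h : t v = a • v) : a ^ m = 1 := by
  have := pow_apply_of h m
  rw [ht, End.one_apply] at this
  exact smul_left_injective k h0 (this.symm.trans (one_smul k v).symm)

theorem mem_range_of {t : End k V} {v : V} {a : k} (ha : a ≠ 1) (h : t v = a • v) :
    v ∈ LinearMap.range (t - 1) :=
  ⟨(a - 1)⁻¹ • v, by
    rw [map_smul, LinearMap.sub_apply, h, End.one_apply]
    nth_rewrite 2 [← one_smul k v]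
    rw [← sub_smul, smul_smul, inv_mul_cancel₀ (sub_ne_zero.2 ha), one_smul]⟩

end lin

variable {X Ω : Type*} [Group X] [Fintype Ω] [DecidableEq Ω]

/-- `φ` maps onto the alternating group -/
structure Hy (φ : X →* Perm Ω) : Prop where
  sg : ∀ x, sign (φ x) = 1
  sj : ∀ g, sign g = 1 → ∃ x, φ x = g

/-- pointwise stabilizer -/
def fixS (φ : X →* Perm Ω) (S : Finset Ω) : Subgroup X where
  carrier := {y | ∀ a ∈ S, φ y a = a}
  one_mem' := fun a _ => by simp
  mul_mem' := fun {x y} hx hy a ha => by rw [map_mul, mul_apply, hy a ha, hx a ha]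
  inv_mem' := fun {x} hx a ha => by rw [map_inv, inv_eq_iff_eq, hx a ha]

theorem fixS_iff {φ : X →* Perm Ω} {S : Finset Ω} (y : fixS φ S) (a : Ω) : φ y a ∉ S ↔ a ∉ S :=
  not_congr ⟨fun h => by rwa [(φ y).injective (y.2 _ h)] at h, fun h => by rwa [y.2 a h]⟩

/-- restriction to the complement -/
def resS (φ : X →* Perm Ω) (S : Finset Ω) : fixS φ S →* Perm {a // a ∉ S} where
  toFun y := (φ y).subtypePerm (fixS_iff y)
  map_one' := by ext; simp
  map_mul' x y := by
    ext a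
    show φ (x * y : X) a = φ x (φ y a)
    rw [map_mul, mul_apply]

theorem resS_eq_one {φ : X →* Perm Ω} {S : Finset Ω} {y : fixS φ S} (h : resS φ S y = 1) :
    φ y = 1 := by
  ext a
  by_cases ha : a ∈ S
  · exact y.2 a ha
  · exact congrArg Subtype.val (congrArg (fun g : Perm {a // a ∉ S} => g ⟨a, ha⟩) h)

theorem card_compl' (S : Finset Ω) : Fintype.card {a // a ∉ S} = Fintype.card Ω - S.card := by
  rw [Fintype.card_subtype_compl, Fintype.card_coe]

namespace Hy
variable {φ : X →* Perm Ω} (h : Hy φ)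
include h

theorem range : φ.range = alternatingGroup Ω := by
  ext g
  exact ⟨fun ⟨x, hx⟩ => mem_alternatingGroup.2 (hx ▸ h.sg x), fun hg => h.sj g (mem_alternatingGroup.1 hg)⟩

theorem res (S : Finset Ω) : Hy (resS φ S) where
  sg y := (sign_subtypePerm (p := fun a => a ∉ S) _ (fixS_iff y) fun a ha e => ha (y.2 a e)).trans (h.sg y)
  sj g hg := by
    obtain ⟨x, hx⟩ := h.sj (ofSubtype g) (by rw [sign_ofSubtype, hg])
    refine ⟨⟨x, fun a ha => by rw [hx, ofSubtype_apply_of_not_mem g (not_not.2 ha)]⟩, ?_⟩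
    ext a
    show φ x a = _
    rw [hx, ofSubtype_apply_coe]

theorem nd (h5 : 5 ≤ Fintype.card Ω) (K : Subgroup X) [hK : K.Normal] :
    (∀ x ∈ K, φ x = 1) ∨ ∀ g, sign g = 1 → ∃ x ∈ K, φ x = g := by
  let ψ := φ.codRestrict (alternatingGroup Ω) fun x => mem_alternatingGroup.2 (h.sg x)
  have hs : Function.Surjective ψ := fun g => by
    obtain ⟨x, hx⟩ := h.sj g.1 (mem_alternatingGroup.1 g.2)
    exact ⟨x, Subtype.ext hx⟩
  haveI := hK.map ψ hs
  rcases alternatingGroup.normal_subgroup_eq_bot_or_eq_top (N := K.map ψ)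
    (by rwa [Nat.card_eq_fintype_card]) with e | e
  · refine Or.inl fun x hx => ?_
    have : ψ x = 1 := Subgroup.mem_bot.1 (e ▸ Subgroup.mem_map_of_mem ψ hx)
    exact congrArg Subtype.val this
  · refine Or.inr fun g hg => ?_
    obtain ⟨x, hx, e'⟩ : (⟨g, mem_alternatingGroup.2 hg⟩ : alternatingGroup Ω) ∈ K.map ψ :=
      e ▸ Subgroup.mem_top _
    exact ⟨x, hx, congrArg Subtype.val e'⟩

theorem perf (h5 : 5 ≤ Fintype.card Ω) (g : Perm Ω) (hg : sign g = 1) :
    ∃ x ∈ commutator X, φ x = g := by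
  have : (commutator X).map φ = alternatingGroup Ω := by
    rw [commutator_def, Subgroup.map_commutator, ← MonoidHom.range_eq_map, h.range,
      commutator_alternatingGroup_eq_self (by rwa [Nat.card_eq_fintype_card])]
  exact (this ▸ mem_alternatingGroup.2 hg : g ∈ (commutator X).map φ)

theorem card_le {M : Type*} [Monoid M] [Finite M] (ψ : X →* M) (hψ : ∀ x, ψ x = 1 → φ x = 1) :
    Nat.card (alternatingGroup Ω) ≤ Nat.card M := by
  choose σ hσ using fun g : alternatingGroup Ω => h.sj g.1 (mem_alternatingGroup.1 g.2)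
  refine Nat.card_le_card_of_injective (fun g => ψ (σ g)) fun a b e => Subtype.ext ?_
  have := hψ ((σ b)⁻¹ * σ a) (by
    rw [map_mul, show ψ (σ a) = ψ (σ b) from e, ← map_mul, inv_mul_cancel, map_one])
  rw [map_mul, map_inv, hσ, hσ, inv_mul_eq_one] at this
  exact this.symm

end Hy

/-- canonical lift -/
structure Lf (φ : X →* Perm Ω) (m : ℕ) (t : X) (c : Perm Ω) : Prop where
  eq : φ t = c
  pw : t ^ m = 1
  iv : ∃ u, u * t * u⁻¹ = t⁻¹

/-- lifts of the centralizer centralize -/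
def St (φ : X →* Perm Ω) (c : Perm Ω) : Prop :=
  ∀ x y, φ x = c → Commute (φ y) c → Commute y x

variable {φ : X →* Perm Ω} {m : ℕ}

theorem Lf.conj {t : X} {c : Perm Ω} (h : Lf φ m t c) (u : X) :
    Lf φ m (u * t * u⁻¹) (φ u * c * (φ u)⁻¹) where
  eq := by rw [map_mul, map_mul, map_inv, h.eq]
  pw := by rw [conj_pow, h.pw]; simp
  iv := by
    obtain ⟨w, hw⟩ := h.iv
    refine ⟨u * w * u⁻¹, ?_⟩
    calc _ = u * (w * t * w⁻¹) * u⁻¹ := by group
      _ = _ := by rw [hw]; group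

theorem Lf.pow {t : X} {c : Perm Ω} (h : Lf φ m t c) (a : ℕ) : Lf φ m (t ^ a) (c ^ a) where
  eq := by rw [map_pow, h.eq]
  pw := by rw [← pow_mul, mul_comm, pow_mul, h.pw, one_pow]
  iv := by
    obtain ⟨w, hw⟩ := h.iv
    exact ⟨w, by rw [← conj_pow, hw, inv_pow]⟩

theorem Lf.inv {t : X} {c : Perm Ω} (h : Lf φ m t c) : Lf φ m t⁻¹ c⁻¹ where
  eq := by rw [map_inv, h.eq]
  pw := by rw [inv_pow, h.pw, inv_one]
  iv := by
    obtain ⟨w, hw⟩ := h.iv
    exact ⟨w, by rw [← conj_inv, hw]⟩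

theorem eq_one_of_odd {z : X} (hm : Odd m) (h1 : z ^ m = 1) (h2 : z ^ 2 = 1) : z = 1 := by
  obtain ⟨j, rfl⟩ := hm
  rwa [pow_succ, pow_mul, h2, one_pow, one_mul] at h1

section cen
variable (hc : ∀ z, φ z = 1 → ∀ x, Commute z x)
include hc

theorem Lf.unique (hm : Odd m) {t t' : X} {c : Perm Ω} (hs : St φ c) (h : Lf φ m t c)
    (h' : Lf φ m t' c) : t' = t := by
  obtain ⟨u, hu⟩ := h.iv
  obtain ⟨u', hu'⟩ := h'.iv
  obtain ⟨z, rfl⟩ : ∃ z, t' = z * t := ⟨t' * t⁻¹, by group⟩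
  have hz : φ z = 1 := by
    have := h'.eq
    rwa [map_mul, h.eq, mul_eq_right] at this
  have e1 : φ u * c * (φ u)⁻¹ = c⁻¹ := by rw [← h.eq, ← map_inv, ← map_inv, ← hu]; simp
  have e2 : φ u' * c * (φ u')⁻¹ = c⁻¹ := by rw [← h'.eq, ← map_inv, ← map_inv, ← hu']; simp
  have h1 := hs t (u⁻¹ * u') h.eq (by
    rw [map_mul, map_inv, Commute, SemiconjBy, mul_assoc, mul_inv_eq_iff_eq_mul.1 e2, ← e1]; group)
  have h2 : u' * t * u'⁻¹ = t⁻¹ := by
    rw [← hu]
    calc u' * t * u'⁻¹ = u * (u⁻¹ * u' * t) * u'⁻¹ := by group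
      _ = _ := by rw [h1.eq]; group
  have h3 : z ^ m = 1 := by
    have := h'.pw
    rwa [(hc z hz t).mul_pow, h.pw, mul_one] at this
  have h4 : z ^ 2 = 1 := by
    have : u' * (z * t) * u'⁻¹ = z * (u' * t * u'⁻¹) := by
      rw [← mul_assoc u', ← (hc z hz u').eq]; group
    rw [this, h2, mul_inv_rev, (hc z hz t⁻¹).eq, mul_right_inj] at hu'
    rw [pow_two, mul_eq_one_iff_eq_inv, ← hu']
  rw [eq_one_of_odd hm h3 h4, one_mul]

theorem Lf.conj_eq (hm : Odd m) {t t' u : X} {c c' : Perm Ω} (hs : St φ c) (h : Lf φ m t c)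
    (h' : Lf φ m t' c') (e : φ u * c' * (φ u)⁻¹ = c) : u * t' * u⁻¹ = t :=
  Lf.unique hc hm hs h (e ▸ h'.conj u)

theorem Hy.exists_lf (h : Hy φ) (hm : Odd m) {c g : Perm Ω} (h1 : sign c = 1) (h2 : c ^ m = 1)
    (h3 : sign g = 1) (h4 : g * c * g⁻¹ = c⁻¹) : ∃ t, Lf φ m t c := by
  obtain ⟨x, rfl⟩ := h.sj c h1
  obtain ⟨u, rfl⟩ := h.sj g h3
  obtain ⟨z, hz⟩ : ∃ z, u * x * u⁻¹ = z * x⁻¹ := ⟨u * x * u⁻¹ * x, by group⟩
  have hz1 : φ z = 1 := by
    have := congrArg φ hz
    rw [map_mul, map_mul, map_inv, h4, map_mul, map_inv] at this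
    exact (mul_eq_right.1 this.symm)
  have hc' := hc z hz1
  have e1 : u * (z⁻¹ * x ^ 2) * u⁻¹ = (z⁻¹ * x ^ 2)⁻¹ := by
    calc u * (z⁻¹ * x ^ 2) * u⁻¹ = z⁻¹ * (u * x * u⁻¹) ^ 2 := by
          rw [conj_pow, ← mul_assoc u, ← (hc' u).inv_left.eq]; group
      _ = _ := by
          rw [hz, (hc' x⁻¹).mul_pow, mul_inv_rev, inv_inv, ← inv_pow, ← ((hc' x⁻¹).pow_right 2).eq]
          group
  have e0 : φ (z⁻¹ * x ^ 2) = φ x ^ 2 := by rw [map_mul, map_inv, hz1, map_pow]; simp
  generalize z⁻¹ * x ^ 2 = y at e0 e1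
  have e2 : (y ^ m) ^ 2 = 1 := by
    have a1 : φ (y ^ m) = 1 := by rw [map_pow, e0, ← pow_mul, mul_comm, pow_mul, h2, one_pow]
    have a2 : u * y ^ m * u⁻¹ = (y ^ m)⁻¹ := by rw [← conj_pow, e1, inv_pow]
    rw [← (hc _ a1 u).eq, mul_inv_cancel_right] at a2
    rw [pow_two, mul_eq_one_iff_eq_inv, ← a2]
  obtain ⟨j, hj⟩ := hm
  refine ⟨y ^ ((j + 1) * (2 * (j + 1))), ?_, ?_, u, by rw [← conj_pow, e1, inv_pow]⟩
  · rw [map_pow, e0, ← pow_mul, show 2 * ((j + 1) * (2 * (j + 1))) = m * (m + 2) + 1 by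
      rw [hj]; ring, pow_succ, pow_mul, h2, one_pow, one_mul]
  · rw [← pow_mul, show (j + 1) * (2 * (j + 1)) * m = m * 2 * ((j + 1) * (j + 1)) by ring,
      pow_mul, pow_mul y, e2, one_pow]

theorem Hy.st (h : Hy φ) {c : Perm Ω} (h1 : c.IsCycle) (h2 : c ^ m = 1)
    (h3 : 5 ≤ Fintype.card Ω - c.support.card ∨
      m.Coprime (Fintype.card Ω - c.support.card).factorial) : St φ c := by
  intro x y hx hy
  have a0 : ∀ y : fixS φ c.support, Commute (φ y) c := fun y =>
    Disjoint.commute fun a => by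
      by_cases ha : a ∈ c.support
      · exact Or.inl (y.2 a ha)
      · exact Or.inr (notMem_support.1 ha)
  have a1 : ∀ y : fixS φ c.support, φ (y * x * (y : X)⁻¹ * x⁻¹) = 1 := fun y => by
    rw [map_mul, map_mul, map_mul, map_inv, map_inv, hx, (a0 y).eq]; group
  let ζ : fixS φ c.support →* Subgroup.center X := MonoidHom.mk'
    (fun y => ⟨y * x * (y : X)⁻¹ * x⁻¹, Subgroup.mem_center_iff.2 fun g => (hc _ (a1 y) g).eq.symm⟩)
    fun a b => Subtype.ext (by
      show (a * b : X) * x * (a * b : X)⁻¹ * x⁻¹ = a * x * (a : X)⁻¹ * x⁻¹ * (b * x * (b : X)⁻¹ * x⁻¹)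
      rw [← (hc _ (a1 b) _).eq]
      calc (a * b : X) * x * (a * b : X)⁻¹ * x⁻¹
          = a * (b * x * (b : X)⁻¹ * x⁻¹) * x * (a : X)⁻¹ * x⁻¹ := by group
        _ = _ := by rw [← (hc _ (a1 b) a).eq]; group)
  have a2 : ∀ y : fixS φ c.support, φ y = 1 → ζ y = 1 := fun y hy => Subtype.ext (by
    show (y : X) * x * (y : X)⁻¹ * x⁻¹ = 1
    rw [(hc _ hy x).eq]; group)
  have a3 : ∀ y : fixS φ c.support, ζ y = 1 := fun y => by
    rcases h3 with h3 | h3
    · obtain ⟨w, hw, e⟩ := (h.res c.support).perf (by rwa [card_compl']) _ ((h.res c.support).sg y)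
      have b1 : ζ w = 1 := (Subgroup.commutator_le.2 fun a _ b _ => by
        rw [MonoidHom.mem_ker, map_commutatorElement, commutatorElement_eq_one_iff_mul_comm]
        exact Subtype.ext (Subgroup.mem_center_iff.1 (ζ b).2 _) : commutator _ ≤ ζ.ker) hw
      have b2 := a2 (w⁻¹ * y) (resS_eq_one (by rw [map_mul, map_inv, e, inv_mul_cancel]))
      rwa [map_mul, map_inv, b1, inv_one, one_mul] at b2
    · have b1 : ζ y ^ m = 1 := Subtype.ext (by
        show ((y : X) * x * (y : X)⁻¹ * x⁻¹) ^ m = 1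
        have c1 : φ (x ^ m) = 1 := by rw [map_pow, hx, h2]
        have c2 := (hc _ (a1 y) x).mul_pow m
        rw [inv_mul_cancel_right, conj_pow, ← (hc _ c1 y).eq, mul_inv_cancel_right] at c2
        exact mul_eq_right.1 c2.symm)
      have b2 : ζ y ^ (Fintype.card Ω - c.support.card).factorial = 1 := by
        rw [← map_pow]
        refine a2 _ (resS_eq_one ?_)
        rw [map_pow, ← card_compl', ← Fintype.card_perm, pow_card_eq_one]
      exact pow_gcd_eq_one.2 ⟨b1, b2⟩ ▸ (by rw [h3.gcd_eq_one, pow_one])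
  obtain ⟨h4, i, hi⟩ := h1.commute_iff.1 hy
  have a4 : (x ^ i)⁻¹ * y ∈ fixS φ c.support := fun a ha => by
    rw [map_mul, map_inv, map_zpow, hx, mul_apply, inv_eq_iff_eq, show c ^ i = _ from hi,
      ofSubtype_apply_of_mem _ ha]
    rfl
  have a5 : Commute ((x ^ i)⁻¹ * y) x := by
    have := congrArg Subtype.val (a3 ⟨_, a4⟩)
    exact commutatorElement_eq_one_iff_commute.1 this
  have := ((Commute.refl x).zpow_left i).mul_left a5
  rwa [mul_inv_cancel_left] at this

end cen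

end H25.AW
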