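import Cfsg.Agent.H25.AW1

/-! Alternating sections of linear groups, II: lifts of 3-cycles in the central case. -/

set_option autoImplicit false
set_option linter.unusedSectionVars false

namespace H25.AW

open Equiv Equiv.Perm Module
open scoped commutatorElement

section perm
variable {Ω : Type*} [Fintype Ω] [DecidableEq Ω]

/-- the 3-cycle `a → b → c → a` -/
def c3 (a b c : Ω) : Perm Ω := swap a c * swap a b

/-- three distinct points -/
def D3 (a b c : Ω) : Prop := a ≠ b ∧ a ≠ c ∧ b ≠ c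

variable {a b c : Ω}

theorem D3.rot (h : D3 a b c) : D3 b c a := ⟨h.2.2, h.1.symm, h.2.1.symm⟩
theorem D3.sw (h : D3 a b c) : D3 a c b := ⟨h.2.1, h.1, h.2.2.symm⟩
theorem D3.map (h : D3 a b c) (g : Perm Ω) : D3 (g a) (g b) (g c) :=
  ⟨g.injective.ne h.1, g.injective.ne h.2.1, g.injective.ne h.2.2⟩

theorem c3_a (h : D3 a b c) : c3 a b c a = b := by
  rw [c3, mul_apply, swap_apply_left, swap_apply_of_ne_of_ne h.1.symm h.2.2]
theorem c3_b : c3 a b c b = c := by rw [c3, mul_apply, swap_apply_right, swap_apply_left]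
theorem c3_c (h : D3 a b c) : c3 a b c c = a := by
  rw [c3, mul_apply, swap_apply_of_ne_of_ne h.2.1.symm h.2.2.symm, swap_apply_right]
theorem c3_o {x : Ω} (h1 : x ≠ a) (h2 : x ≠ b) (h3 : x ≠ c) : c3 a b c x = x := by
  rw [c3, mul_apply, swap_apply_of_ne_of_ne h1 h2, swap_apply_of_ne_of_ne h1 h3]

theorem c3_conj (g : Perm Ω) : g * c3 a b c * g⁻¹ = c3 (g a) (g b) (g c) := by
  rw [c3, c3, swap_apply_apply, swap_apply_apply]; group

theorem c3_inv : (c3 a b c)⁻¹ = c3 a c b := by rw [c3, c3, mul_inv_rev, swap_inv, swap_inv]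

theorem c3_rot (h : D3 a b c) : c3 b c a = c3 a b c := by
  have := c3_conj (a := a) (b := b) (c := c) (c3 a b c)
  rw [c3_a h, c3_b, c3_c h, mul_inv_cancel_right] at this
  exact this.symm

theorem c3_three (h : D3 a b c) : (c3 a b c).IsThreeCycle :=
  isThreeCycle_swap_mul_swap_same h.2.1 h.1 h.2.2.symm

theorem c3_sign (h : D3 a b c) : sign (c3 a b c) = 1 := (c3_three h).sign

theorem c3_pow (h : D3 a b c) : c3 a b c ^ 3 = 1 := by
  rw [← (c3_three h).orderOf, pow_orderOf_eq_one]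

theorem fresh (l : List Ω) (h : l.length < Fintype.card Ω) : ∃ x, x ∉ l := by
  by_contra e
  push Not at e
  have := Finset.card_le_card (fun x _ => List.mem_toFinset.2 (e x) : Finset.univ ⊆ l.toFinset)
  have := l.toFinset_card_le
  rw [Finset.card_univ] at *
  omega

theorem exists_emb (l : List Ω) (hl : l.Nodup) (m : ℕ) (h1 : l.length ≤ m) (h2 : m ≤ Fintype.card Ω) :
    ∃ e : Fin m ↪ Ω, ∀ (i : Fin m) (h : i.1 < l.length), e i = l[i.1] := by
  have : ∃ l' : List Ω, (l ++ l').Nodup ∧ (l ++ l').length = m := by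
    induction m, h1 using Nat.le_induction with
    | base => exact ⟨[], by simpa, by simp⟩
    | succ m hm ih =>
      obtain ⟨l', a1, a2⟩ := ih (by omega)
      obtain ⟨x, hx⟩ := fresh (l ++ l') (by omega)
      refine ⟨l' ++ [x], ?_, by rw [← List.append_assoc, List.length_append, a2]; rfl⟩
      rw [← List.append_assoc]
      exact List.nodup_append.2 ⟨a1, List.nodup_singleton x, fun y hy z hz e =>
        hx (by rw [← List.mem_singleton.1 hz, ← e]; exact hy)⟩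
  obtain ⟨l', a1, rfl⟩ := this
  exact ⟨⟨(l ++ l').get, List.nodup_iff_injective_get.1 a1⟩, fun i h => List.getElem_append_left h⟩

variable {m : ℕ} (e : Fin m ↪ Ω)

theorem via_apply (σ : Perm (Fin m)) (i : Fin m) : viaEmbeddingHom e σ (e i) = e (σ i) :=
  viaEmbedding_apply σ e i

theorem via_sign (σ : Perm (Fin m)) : sign (viaEmbeddingHom e σ) = sign σ := by
  exact @sign_extendDomain _ _ _ _ _ _ σ _ (fun _ => Classical.propDecidable _) (ofInjective e.1 e.2)

theorem via_swap (i j : Fin m) : viaEmbeddingHom e (swap i j) = swap (e i) (e j) := by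
  ext x
  by_cases hx : x ∈ Set.range e
  · obtain ⟨l, rfl⟩ := hx
    rw [via_apply, e.injective.swap_apply]
  · rw [swap_apply_of_ne_of_ne (fun h => hx ⟨i, h.symm⟩) fun h => hx ⟨j, h.symm⟩]
    exact viaEmbedding_apply_of_notMem _ e x hx

theorem via_c3 (i j l : Fin m) : viaEmbeddingHom e (c3 i j l) = c3 (e i) (e j) (e l) := by
  rw [c3, map_mul, via_swap, via_swap, c3]

theorem D3.emb {i j l : Fin m} (h : D3 i j l) : D3 (e i) (e j) (e l) :=
  ⟨e.injective.ne h.1, e.injective.ne h.2.1, e.injective.ne h.2.2⟩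

instance decD3 (a b c : Ω) : Decidable (D3 a b c) := inferInstanceAs (Decidable (_ ∧ _))

end perm

variable {k V X Ω : Type*} [Field k] [AddCommGroup V] [Module k V] [FiniteDimensional k V]
  [Group X] [Fintype Ω] [DecidableEq Ω]

/-- the central case -/
structure Ce (ρ : X →* End k V) (φ : X →* Perm Ω) : Prop extends Hy φ where
  ce : ∀ z, φ z = 1 → ∀ x, Commute z x
  irr : ∀ U : Submodule k V, (∀ x, ∀ v ∈ U, ρ x v ∈ U) → U = ⊥ ∨ U = ⊤
  inj : ∀ x, ρ x = 1 → x = 1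
  c9 : 9 ≤ Fintype.card Ω

/-- commutator space -/
def Wr (ρ : X →* End k V) (x : X) : Submodule k V := LinearMap.range (ρ x - 1)

/-- fixed space -/
def Fx (ρ : X →* End k V) (x : X) : Submodule k V := LinearMap.ker (ρ x - 1)

variable {ρ : X →* End k V} {φ : X →* Perm Ω}

theorem mem_Fx {x : X} {v : V} : v ∈ Fx ρ x ↔ ρ x v = v := by
  rw [Fx, LinearMap.mem_ker, LinearMap.sub_apply, sub_eq_zero, End.one_apply]

theorem rho_mul (x y : X) (v : V) : ρ x (ρ y v) = ρ (x * y) v := by rw [map_mul, End.mul_apply]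

theorem rho_inv (x : X) (v : V) : ρ x⁻¹ (ρ x v) = v := by
  rw [rho_mul, inv_mul_cancel, map_one, End.one_apply]

theorem rho_inv' (x : X) (v : V) : ρ x (ρ x⁻¹ v) = v := by
  rw [rho_mul, mul_inv_cancel, map_one, End.one_apply]

theorem rho_ne {v : V} (h : v ≠ 0) (x : X) : ρ x v ≠ 0 := fun e => h (by
  rw [← rho_inv (ρ := ρ) x v, e, map_zero])

theorem rho_conj (u x : X) (v : V) : ρ (u * x * u⁻¹) (ρ u v) = ρ u (ρ x v) := by
  rw [rho_mul, rho_mul, inv_mul_cancel_right]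

theorem sub_mem_Wr (x : X) (v : V) : ρ x v - v ∈ Wr ρ x := ⟨v, rfl⟩

theorem Wr_conj (u : X) {x : X} {v : V} (h : v ∈ Wr ρ x) : ρ u v ∈ Wr ρ (u * x * u⁻¹) := by
  obtain ⟨w, rfl⟩ := h
  exact ⟨ρ u w, by rw [LinearMap.sub_apply, LinearMap.sub_apply, map_sub, rho_conj]; rfl⟩

theorem Wr_inv (x : X) : Wr ρ x⁻¹ = Wr ρ x := by
  have : ∀ x : X, Wr ρ x⁻¹ ≤ Wr ρ x := by
    rintro x _ ⟨w, rfl⟩
    exact ⟨-ρ x⁻¹ w, by simp [rho_inv', sub_eq_neg_add, add_comm]⟩
  exact le_antisymm (this x) (by simpa using this x⁻¹)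

theorem Wr_mul (x y : X) : Wr ρ (x * y) ≤ Wr ρ x ⊔ Wr ρ y := by
  rintro _ ⟨w, rfl⟩
  have : (ρ (x * y) - 1) w = (ρ x (ρ y w) - ρ y w) + (ρ y w - w) := by simp
  exact this ▸ Submodule.add_mem_sup (sub_mem_Wr _ _) (sub_mem_Wr _ _)

theorem finrank_Wr_conj (u x : X) : finrank k (Wr ρ x) ≤ finrank k (Wr ρ (u * x * u⁻¹)) :=
  LinearMap.finrank_le_finrank_of_injective (f := (ρ u).restrict fun _ => Wr_conj u) fun a b e =>
    Subtype.ext (by rw [← rho_inv (ρ := ρ) u a.1, ← rho_inv (ρ := ρ) u b.1]; exact congrArg (fun z => ρ u⁻¹ z.1) e)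

/-- stabilizer of a vector -/
def stabV (ρ : X →* End k V) (v : V) : Subgroup X where
  carrier := {x | ρ x v = v}
  one_mem' := by simp
  mul_mem' := fun {x y} hx hy => by
    show ρ (x * y) v = v
    rw [← rho_mul, hy, hx]
  inv_mem' := fun {x} hx => by
    show ρ x⁻¹ v = v
    nth_rewrite 1 [← show ρ x v = v from hx]
    exact rho_inv x v

theorem comm_of_le {x y : X} (h1 : Wr ρ x ≤ Fx ρ y) (h2 : Wr ρ y ≤ Fx ρ x) : ρ x * ρ y = ρ y * ρ x := by
  ext v
  have a := mem_Fx.1 (h1 (sub_mem_Wr x v))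
  have b := mem_Fx.1 (h2 (sub_mem_Wr y v))
  rw [map_sub] at a b
  simp only [End.mul_apply]
  linear_combination (norm := module) b - a

theorem Wr_le_symm {x y : X} (hc : Commute x y) (h : Wr ρ x ≤ Fx ρ y) : Wr ρ y ≤ Fx ρ x := by
  rintro _ ⟨v, rfl⟩
  have a := mem_Fx.1 (h (sub_mem_Wr x v))
  rw [map_sub, rho_mul, ← hc.eq, ← rho_mul] at a
  rw [mem_Fx, LinearMap.sub_apply, map_sub, End.one_apply]
  linear_combination (norm := module) a

namespace Ce
variable (h : Ce ρ φ)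
include h

theorem fx {z : X} (hz : φ z = 1) {v : V} (h0 : v ≠ 0) (hv : ρ z v = v) : z = 1 := by
  rcases h.irr (Fx ρ z) fun x w hw => mem_Fx.2 (by
    rw [rho_mul, (h.ce z hz x).eq, ← rho_mul, mem_Fx.1 hw]) with e | e
  · exact (h0 (Submodule.mem_bot k |>.1 (e ▸ mem_Fx.2 hv))).elim
  · exact h.inj z (LinearMap.ext fun w => mem_Fx.1 (e ▸ Submodule.mem_top))

theorem Wr_ne {x : X} (hx : φ x ≠ 1) : Wr ρ x ≠ ⊥ := fun e =>
  hx (by rw [h.inj x (sub_eq_zero.1 (LinearMap.range_eq_bot.1 e)), map_one])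

theorem lift {m : ℕ} (e : Fin m ↪ Ω) (σ : Perm (Fin m)) (hσ : sign σ = 1) :
    ∃ u, φ u = viaEmbeddingHom e σ := h.sj _ (by rw [via_sign, hσ])

theorem st3 {a b c : Ω} (d : D3 a b c) : St φ (c3 a b c) :=
  h.toHy.st h.ce (c3_three d).isCycle (c3_pow d) (Or.inl (by
    rw [(c3_three d).card_support]; have := h.c9; omega))

theorem exists_T : ∃ T : Ω → Ω → Ω → X, ∀ a b c, D3 a b c → Lf φ 3 (T a b c) (c3 a b c) := by
  have : ∀ a b c : Ω, ∃ t, D3 a b c → Lf φ 3 t (c3 a b c) := fun a b c => by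
    by_cases d : D3 a b c
    · have := h.c9
      obtain ⟨x, hx⟩ := fresh [a, b, c] (by simp; omega)
      obtain ⟨y, hy⟩ := fresh [a, b, c, x] (by simp; omega)
      simp only [List.mem_cons, List.not_mem_nil, or_false, not_or] at hx hy
      obtain ⟨t, ht⟩ := h.toHy.exists_lf h.ce (m := 3) (by decide) (c3_sign d) (c3_pow d)
        (g := swap b c * swap x y) (by
          rw [Perm.sign_mul, sign_swap d.2.2, sign_swap (Ne.symm hy.2.2.2)]; rfl) (by
          rw [c3_conj, c3_inv]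
          simp only [mul_apply]
          rw [swap_apply_of_ne_of_ne (Ne.symm hx.1) (Ne.symm hy.1),
            swap_apply_of_ne_of_ne (Ne.symm hx.2.1) (Ne.symm hy.2.1),
            swap_apply_of_ne_of_ne (Ne.symm hx.2.2) (Ne.symm hy.2.2.1), swap_apply_left,
            swap_apply_right, swap_apply_of_ne_of_ne d.1 d.2.1])
      exact ⟨t, fun _ => ht⟩
    · exact ⟨1, fun e => (d e).elim⟩
  choose T hT using this
  exact ⟨T, hT⟩

end Ce

/-- the central case with lifts of the 3-cycles -/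
structure Tr (ρ : X →* End k V) (φ : X →* Perm Ω) (T : Ω → Ω → Ω → X) : Prop extends Ce ρ φ where
  lf : ∀ a b c, D3 a b c → Lf φ 3 (T a b c) (c3 a b c)

namespace Tr
variable {T : Ω → Ω → Ω → X} (h : Tr ρ φ T) {a b c : Ω}
include h

theorem eq (d : D3 a b c) : φ (T a b c) = c3 a b c := (h.lf _ _ _ d).eq

theorem uniq (d : D3 a b c) {t : X} (ht : Lf φ 3 t (c3 a b c)) : t = T a b c :=
  Lf.unique h.ce (by decide) (h.st3 d) (h.lf _ _ _ d) ht

theorem conj (d : D3 a b c) (u : X) : u * T a b c * u⁻¹ = T (φ u a) (φ u b) (φ u c) :=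
  h.uniq (d.map _) (c3_conj (φ u) ▸ (h.lf _ _ _ d).conj u)

theorem conj' (d : D3 a b c) {u : X} {a' b' c' : Ω} (h1 : φ u a = a') (h2 : φ u b = b')
    (h3 : φ u c = c') : u * T a b c * u⁻¹ = T a' b' c' := by rw [h.conj d, h1, h2, h3]

theorem conjE {m : ℕ} {e : Fin m ↪ Ω} {σ : Perm (Fin m)} {u : X} (hu : φ u = viaEmbeddingHom e σ)
    (i j l i' j' l' : Fin m) (d : D3 i j l ∧ σ i = i' ∧ σ j = j' ∧ σ l = l') :
    u * T (e i) (e j) (e l) * u⁻¹ = T (e i') (e j') (e l') := by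
  rw [h.conj (d.1.emb e), hu, via_apply, via_apply, via_apply, d.2.1, d.2.2.1, d.2.2.2]

theorem rot (d : D3 a b c) : T b c a = T a b c := h.uniq d (c3_rot d ▸ h.lf _ _ _ d.rot)

theorem inv (d : D3 a b c) : (T a b c)⁻¹ = T a c b := h.uniq d.sw (c3_inv (a := a) (b := b) (c := c) ▸ (h.lf _ _ _ d).inv)

theorem pw (d : D3 a b c) : ρ (T a b c) ^ 3 = 1 := by rw [← map_pow, (h.lf _ _ _ d).pw, map_one]

theorem ne (d : D3 a b c) : Wr ρ (T a b c) ≠ ⊥ := h.Wr_ne fun e => d.1 (by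
  rw [← c3_a d, ← h.eq d, e, one_apply])

theorem W_sw (d : D3 a b c) : Wr ρ (T a c b) = Wr ρ (T a b c) := by rw [← h.inv d, Wr_inv]

theorem W_sw' (d : D3 a b c) : Wr ρ (T b a c) = Wr ρ (T a b c) := by
  rw [h.W_sw d.rot, h.rot d]

theorem lemS {x d e : Ω} (h1 : [x, a, b, d, e].Nodup) : ¬ Wr ρ (T x a b) ≤ Fx ρ (T x d e) := by
  intro h2
  obtain ⟨f, hf⟩ := exists_emb _ h1 5 le_rfl (by have := h.c9; omega)
  obtain rfl : f 0 = x := hf 0 (by simp)
  obtain rfl : f 1 = a := hf 1 (by simp)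
  obtain rfl : f 2 = b := hf 2 (by simp)
  obtain rfl : f 3 = d := hf 3 (by simp)
  obtain rfl : f 4 = e := hf 4 (by simp)
  obtain ⟨u, hu⟩ := h.lift f (swap 1 3 * swap 2 4) (by decide)
  have h3 : Wr ρ (T (f 0) (f 3) (f 4)) ≤ Fx ρ (T (f 0) (f 1) (f 2)) := fun v hv => by
    have a1 := Wr_conj u hv
    rw [h.conjE hu 0 3 4 0 1 2 (by decide)] at a1
    have a2 := mem_Fx.1 (h2 a1)
    rw [← h.conjE hu 0 1 2 0 3 4 (by decide), rho_conj] at a2
    rw [mem_Fx, ← rho_inv (ρ := ρ) u (ρ _ v), a2, rho_inv]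
  have h4 := comm_of_le h2 h3
  rw [← map_mul, ← map_mul] at h4
  have h5 := h.inj (⁅T (f 0) (f 1) (f 2), T (f 0) (f 3) (f 4)⁆) (by
    rw [commutatorElement_def, mul_assoc, ← mul_inv_rev, map_mul, h4, ← map_mul, mul_inv_cancel, map_one])
  have h6 := congrArg φ h5
  rw [map_commutatorElement, h.eq (D3.emb f (by decide)), h.eq (D3.emb f (by decide)), ← via_c3,
    ← via_c3, ← map_commutatorElement, map_one, ← map_one (viaEmbeddingHom f)] at h6
  exact absurd (viaEmbeddingHom_injective f h6) (by decide)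

end Tr

end H25.AW
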