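import Cfsg.Agent.H25.AW2

/-! Alternating sections of linear groups, III: the natural module. -/

set_option autoImplicit false
set_option linter.unusedSectionVars false

namespace H25.AW

open Equiv Equiv.Perm Module

variable {k V X Ω : Type*} [Field k] [AddCommGroup V] [Module k V] [FiniteDimensional k V]
  [Group X] [Fintype Ω] [DecidableEq Ω]

/-- disjoint 3-cycles act on independent pieces -/
def Nat3 (ρ : X →* End k V) (T : Ω → Ω → Ω → X) : Prop :=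
  ∀ a b c x y z, D3 a b c → D3 x y z → x ∉ [a, b, c] → y ∉ [a, b, c] → z ∉ [a, b, c] →
    Wr ρ (T a b c) ≤ Fx ρ (T x y z)

/-- the commutator space of the alternating group on `S` -/
def VT (ρ : X →* End k V) (T : Ω → Ω → Ω → X) (S : Finset Ω) : Submodule k V :=
  ⨆ (a : Ω) (b : Ω) (c : Ω) (_ : D3 a b c ∧ a ∈ S ∧ b ∈ S ∧ c ∈ S), Wr ρ (T a b c)

/-- the vector `e_a - e_b` up to a scalar -/
structure PV (ρ : X →* End k V) (T : Ω → Ω → Ω → X) (a b : Ω) (v : V) : Prop where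
  ne : v ≠ 0
  ab : a ≠ b
  fx : ∀ x y z, D3 x y z → x ∉ [a, b] → y ∉ [a, b] → z ∉ [a, b] → ρ (T x y z) v = v
  mem : ∀ y, y ∉ [a, b] → v ∈ Wr ρ (T a b y)

variable {ρ : X →* End k V} {φ : X →* Perm Ω} {T : Ω → Ω → Ω → X}

theorem le_VT {S : Finset Ω} {a b c : Ω} (d : D3 a b c) (h1 : a ∈ S) (h2 : b ∈ S) (h3 : c ∈ S) :
    Wr ρ (T a b c) ≤ VT ρ T S :=
  le_iSup_of_le a (le_iSup_of_le b (le_iSup_of_le c (le_iSup_of_le ⟨d, h1, h2, h3⟩ le_rfl)))

theorem VT_le {S : Finset Ω} {U : Submodule k V}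
    (h : ∀ a b c, D3 a b c → a ∈ S → b ∈ S → c ∈ S → Wr ρ (T a b c) ≤ U) : VT ρ T S ≤ U :=
  iSup_le fun a => iSup_le fun b => iSup_le fun c => iSup_le fun e => h a b c e.1 e.2.1 e.2.2.1 e.2.2.2

theorem Nat3.VT_le (hn : Nat3 ρ T) {S : Finset Ω} {x y z : Ω} (d : D3 x y z) (h1 : x ∉ S)
    (h2 : y ∉ S) (h3 : z ∉ S) : VT ρ T S ≤ Fx ρ (T x y z) :=
  AW.VT_le fun a b c e ha hb hc => by
    have : ∀ w, w ∉ S → w ∉ [a, b, c] := fun w hw => by
      simp only [List.mem_cons, List.not_mem_nil, or_false, not_or]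
      exact ⟨fun e => hw (e ▸ ha), fun e => hw (e ▸ hb), fun e => hw (e ▸ hc)⟩
    exact hn a b c x y z e d (this x h1) (this y h2) (this z h3)

theorem PV.smul {a b : Ω} {v : V} (h : PV ρ T a b v) {α : k} (hα : α ≠ 0) : PV ρ T a b (α • v) :=
  ⟨smul_ne_zero hα h.ne, h.ab, fun x y z d h1 h2 h3 => by rw [map_smul, h.fx x y z d h1 h2 h3],
    fun y hy => Submodule.smul_mem _ _ (h.mem y hy)⟩

theorem d3_of {a b y : Ω} (h : a ≠ b) (hy : y ∉ [a, b]) : D3 a b y := by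
  simp only [List.mem_cons, List.not_mem_nil, or_false, not_or] at hy
  exact ⟨h, Ne.symm hy.1, Ne.symm hy.2⟩

namespace Tr
variable (h : Tr ρ φ T)
include h

theorem fr (l : List Ω) (hl : l.length ≤ 8) : ∃ x, x ∉ l := fresh l (by have := h.c9; omega)

theorem pv_map {a b : Ω} {v : V} (p : PV ρ T a b v) (u : X) : PV ρ T (φ u a) (φ u b) (ρ u v) := by
  have key : ∀ x, x ∉ [φ u a, φ u b] → (φ u)⁻¹ x ∉ [a, b] := fun x hx => by
    simp only [List.mem_cons, List.not_mem_nil, or_false, not_or, inv_eq_iff_eq] at hx ⊢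
    exact hx
  refine ⟨rho_ne p.ne u, (φ u).injective.ne p.ab, fun x y z d h1 h2 h3 => ?_, fun y hy => ?_⟩
  · rw [← h.conj' (d.map (φ u)⁻¹) (u := u) (a' := x) (b' := y) (c' := z) (by simp) (by simp)
      (by simp), rho_conj, p.fx _ _ _ (d.map _) (key x h1) (key y h2) (key z h3)]
  · rw [← h.conj' (d3_of p.ab (key y hy)) (u := u) (c' := y) rfl rfl (by simp)]
    exact Wr_conj u (p.mem _ (key y hy))

theorem pv_map' {a b : Ω} {v : V} (p : PV ρ T a b v) {x y z a' b' : Ω} (d : D3 x y z)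
    (h1 : c3 x y z a = a') (h2 : c3 x y z b = b') : PV ρ T a' b' (ρ (T x y z) v) := by
  have := h.pv_map p (T x y z)
  rwa [h.eq d, h1, h2] at this

theorem pv_symm {a b : Ω} {v : V} (p : PV ρ T a b v) : PV ρ T b a v := by
  have key : ∀ x, x ∉ [b, a] → x ∉ [a, b] := fun x hx => by simp at hx ⊢; tauto
  exact ⟨p.ne, p.ab.symm, fun x y z d h1 h2 h3 => p.fx x y z d (key x h1) (key y h2) (key z h3),
    fun y hy => h.W_sw' (d3_of p.ab (key y hy)) ▸ p.mem y (key y hy)⟩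

theorem conjT {a b c x y z a' b' c' : Ω} (d : D3 a b c) (d' : D3 x y z) (h1 : c3 x y z a = a')
    (h2 : c3 x y z b = b') (h3 : c3 x y z c = c') (v : V) :
    ρ (T x y z) (ρ (T a b c) v) = ρ (T a' b' c') (ρ (T x y z) v) := by
  rw [← h.conj' d (u := T x y z) (a' := a') (b' := b') (c' := c') (by rw [h.eq d', h1])
    (by rw [h.eq d', h2]) (by rw [h.eq d', h3]), rho_conj]

variable (hn : Nat3 ρ T)
include hn

theorem grow {S : Finset Ω} {x : Ω} (h1 : 2 ≤ S.card) (h2 : S.card + 3 ≤ Fintype.card Ω) (hx : x ∉ S) :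
    finrank k (VT ρ T S) < finrank k (VT ρ T (insert x S)) := by
  refine Submodule.finrank_lt_finrank_of_lt (lt_of_le_of_ne (VT_le fun a b c d ha hb hc =>
    le_VT d (by simp [ha]) (by simp [hb]) (by simp [hc])) fun e => ?_)
  obtain ⟨a, ha, b, hb, ab⟩ := Finset.one_lt_card.1 h1
  obtain ⟨d, hd⟩ := fresh (x :: S.toList) (by simp; omega)
  obtain ⟨f, hf⟩ := fresh (d :: x :: S.toList) (by simp; omega)
  simp only [List.mem_cons, Finset.mem_toList, not_or] at hd hf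
  have xa : x ≠ a := fun e => hx (e ▸ ha)
  have xb : x ≠ b := fun e => hx (e ▸ hb)
  refine h.lemS (x := x) (a := a) (b := b) (d := d) (e := f) ?_ ((le_VT ⟨xa, xb, ab⟩ (by simp)
    (by simp [ha]) (by simp [hb])).trans (e ▸ hn.VT_le ⟨Ne.symm hd.1, Ne.symm hf.2.1, Ne.symm hf.1⟩ hx hd.2 hf.2.2))
  have : a ≠ d := fun e => hd.2 (e ▸ ha)
  have : b ≠ d := fun e => hd.2 (e ▸ hb)
  have : a ≠ f := fun e => hf.2.2 (e ▸ ha)
  have : b ≠ f := fun e => hf.2.2 (e ▸ hb)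
  simp [*, Ne.symm hd.1, Ne.symm hf.2.1, Ne.symm hf.1]

theorem grow' (A : List Ω) (j : ℕ) {S : Finset Ω} (h1 : 2 ≤ S.card) (hA : ∀ a ∈ A, a ∉ S)
    (h2 : S.card + j + A.length ≤ Fintype.card Ω) (h3 : 2 ≤ A.length) :
    ∃ S' : Finset Ω, S'.card = S.card + j ∧ (∀ a ∈ A, a ∉ S') ∧
      finrank k (VT ρ T S) + j ≤ finrank k (VT ρ T S') := by
  induction j with
  | zero => exact ⟨S, rfl, hA, le_rfl⟩
  | succ j ih =>
    obtain ⟨S', a1, a2, a3⟩ := ih (by omega)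
    obtain ⟨x, hx⟩ := fresh (A ++ S'.toList) (by simp; omega)
    simp only [List.mem_append, Finset.mem_toList, not_or] at hx
    have := h.grow hn (S := S') (by omega) (by omega) hx.2
    refine ⟨insert x S', by rw [Finset.card_insert_of_notMem hx.2]; omega, fun a ha e => ?_, by omega⟩
    rcases Finset.mem_insert.1 e with rfl | e
    · exact hx.1 ha
    · exact a2 a ha e

theorem pv_of {a b c d : Ω} (h1 : [a, b, c, d].Nodup) {v : V} (h0 : v ≠ 0) (hc : v ∈ Wr ρ (T a b c))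
    (hd : v ∈ Wr ρ (T a b d)) : PV ρ T a b v := by
  simp only [List.nodup_cons, List.mem_cons, List.not_mem_nil, or_false, not_or] at h1
  obtain ⟨⟨ab, ac, ad⟩, ⟨bc, bd⟩, cd, -⟩ := h1
  have key : ∀ x y z, D3 x y z → x ∉ [a, b] → y ∉ [a, b] → z ∉ [a, b] → ρ (T x y z) v = v := by
    intro x y z e hx hy hz
    obtain ⟨s, hs⟩ := h.fr [a, b, c, d, x, y, z] (by simp)
    obtain ⟨w, hw⟩ := h.fr [a, b, c, d, x, y, z, s] (by simp)
    simp only [List.mem_cons, List.not_mem_nil, or_false, not_or] at hs hw hx hy hz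
    have e1 : D3 d s w := ⟨Ne.symm hs.2.2.2.1, Ne.symm hw.2.2.2.1, Ne.symm hw.2.2.2.2.2.2.2⟩
    have e2 : ρ (T d s w) v = v := mem_Fx.1 (hn a b c d s w ⟨ab, ac, bc⟩ e1
      (by simp [Ne.symm ad, Ne.symm bd, Ne.symm cd]) (by simp [hs]) (by simp [hw]) hc)
    have e3 : ∀ x, x ≠ a → x ≠ b → x ≠ w → c3 d s w x ∉ [a, b, d] := fun x xa xb xw => by
      simp only [List.mem_cons, List.not_mem_nil, or_false, not_or]
      refine ⟨fun e => xa ((c3 d s w).injective (e.trans (c3_o ad (Ne.symm hs.1) (Ne.symm hw.1)).symm)),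
        fun e => xb ((c3 d s w).injective (e.trans (c3_o bd (Ne.symm hs.2.1) (Ne.symm hw.2.1)).symm)),
        fun e => xw ((c3 d s w).injective (e.trans (c3_c e1).symm))⟩
    have e4 := mem_Fx.1 (hn a b d _ _ _ ⟨ab, ad, bd⟩ (e.map (c3 d s w))
      (e3 x hx.1 hx.2 (Ne.symm hw.2.2.2.2.1)) (e3 y hy.1 hy.2 (Ne.symm hw.2.2.2.2.2.1))
      (e3 z hz.1 hz.2 (Ne.symm hw.2.2.2.2.2.2.1)) hd)
    have e5 := h.conjT e e1 rfl rfl rfl v
    rw [e2, e4] at e5
    rw [← rho_inv (ρ := ρ) (T d s w) (ρ (T x y z) v), e5]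
    exact (stabV ρ v).inv_mem e2
  refine ⟨h0, ab, key, fun y hy => ?_⟩
  by_cases yc : y = c
  · exact yc ▸ hc
  obtain ⟨w, hw⟩ := h.fr [a, b, c, y] (by simp)
  simp only [List.mem_cons, List.not_mem_nil, or_false, not_or] at hw hy
  have e1 : D3 c y w := ⟨Ne.symm yc, Ne.symm hw.2.2.1, Ne.symm hw.2.2.2⟩
  have := Wr_conj (T c y w) hc
  rwa [key c y w e1 (by simp [Ne.symm ac, Ne.symm bc]) (by simp [hy]) (by simp [hw]),
    h.conj' ⟨ab, ac, bc⟩ (a' := a) (b' := b) (c' := y)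
      (by rw [h.eq e1, c3_o ac (Ne.symm hy.1) (Ne.symm hw.1)])
      (by rw [h.eq e1, c3_o bc (Ne.symm hy.2) (Ne.symm hw.2.1)]) (by rw [h.eq e1, c3_a e1])] at this

variable (h2 : ∀ a b c, D3 a b c → finrank k (Wr ρ (T a b c)) = 2)
include h2

theorem line {a b c d : Ω} {v w : V} (p : PV ρ T a b v) (hc : c ∉ [a, b]) (hd : d ∉ [a, b])
    (cd : c ≠ d) (h3 : w ∈ Wr ρ (T a b c)) (h4 : w ∈ Wr ρ (T a b d)) : ∃ α : k, w = α • v := by
  have dc := d3_of p.ab hc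
  have dd := d3_of p.ab hd
  have h5 : finrank k (Wr ρ (T a b c) ⊓ Wr ρ (T a b d) : Submodule k V) < 2 := by
    rw [← h2 a b c dc]
    refine Submodule.finrank_lt_finrank_of_lt (inf_lt_left.2 fun e => ?_)
    obtain ⟨x, hx⟩ := h.fr [a, b, c, d] (by simp)
    obtain ⟨y, hy⟩ := h.fr [a, b, c, d, x] (by simp)
    simp only [List.mem_cons, List.not_mem_nil, or_false, not_or] at hx hy hc hd
    refine h.lemS (x := c) (a := a) (b := b) (d := x) (e := y) (by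
      simp [hc, p.ab, Ne.symm hx.1, Ne.symm hx.2.1, Ne.symm hx.2.2.1, Ne.symm hy.1, Ne.symm hy.2.1,
        Ne.symm hy.2.2.1, Ne.symm hy.2.2.2.2]) ?_
    rw [h.rot dc.rot, h.rot dc]
    exact e.trans (hn a b d c x y dd ⟨Ne.symm hx.2.2.1, Ne.symm hy.2.2.1, Ne.symm hy.2.2.2.2⟩
      (by simp [hc, cd]) (by simp [hx]) (by simp [hy]))
  have h6 : (⟨v, p.mem c hc, p.mem d hd⟩ : (Wr ρ (T a b c) ⊓ Wr ρ (T a b d) : Submodule k V)) ≠ 0 :=
    fun e => p.ne (congrArg Subtype.val e)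
  have h7 := (finrank_pos_iff_exists_ne_zero (R := k)).2 ⟨_, h6⟩
  obtain ⟨α, hα⟩ := (finrank_eq_one_iff_of_nonzero' (K := k) _ h6).1 (by omega) ⟨w, h3, h4⟩
  exact ⟨α, (congrArg Subtype.val hα).symm⟩

theorem line' {a b : Ω} {v w : V} (p : PV ρ T a b v) (q : PV ρ T a b w) : ∃ α : k, w = α • v := by
  obtain ⟨c, hc⟩ := h.fr [a, b] (by simp)
  obtain ⟨d, hd⟩ := h.fr [c, a, b] (by simp)
  rw [List.mem_cons, not_or] at hd
  exact h.line hn h2 p hc hd.2 (Ne.symm hd.1) (q.mem c hc) (q.mem d hd.2)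

theorem tri {a b c : Ω} {v : V} (p : PV ρ T a b v) (q : PV ρ T a c v) (bc : b ≠ c) : PV ρ T b c v := by
  obtain ⟨x, hx⟩ := h.fr [a, b, c] (by simp)
  obtain ⟨y, hy⟩ := h.fr [a, b, c, x] (by simp)
  simp only [List.mem_cons, List.not_mem_nil, or_false, not_or] at hx hy
  obtain ⟨u, hu⟩ := h.sj (swap a b * swap x y) (by
    rw [Perm.sign_mul, sign_swap p.ab, sign_swap (Ne.symm hy.2.2.2)]; rfl)
  have p' := h.pv_map p u
  have q' := h.pv_map q u
  simp only [hu, mul_apply, swap_apply_of_ne_of_ne (Ne.symm hx.1) (Ne.symm hy.1),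
    swap_apply_of_ne_of_ne (Ne.symm hx.2.1) (Ne.symm hy.2.1),
    swap_apply_of_ne_of_ne (Ne.symm hx.2.2) (Ne.symm hy.2.2.1), swap_apply_left, swap_apply_right,
    swap_apply_of_ne_of_ne q.ab.symm bc.symm] at p' q'
  obtain ⟨α, hα⟩ := h.line' hn h2 (h.pv_symm p') p
  have h0 : α ≠ 0 := fun e => p.ne (by rw [hα, e, zero_smul])
  exact hα ▸ q'.smul h0

theorem not_two {a b c : Ω} {v : V} (p : PV ρ T a b v) (q : PV ρ T a c v) (bc : b ≠ c) : False := by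
  have k1 : ∀ y, y ∉ [a, b, c] → PV ρ T a y v := fun y hy => by
    obtain ⟨w, hw⟩ := h.fr [a, b, c, y] (by simp)
    simp only [List.mem_cons, List.not_mem_nil, or_false, not_or] at hw hy
    have e1 : D3 c y w := ⟨Ne.symm hy.2.2, Ne.symm hw.2.2.1, Ne.symm hw.2.2.2⟩
    have := h.pv_map' q e1 (c3_o q.ab (Ne.symm hy.1) (Ne.symm hw.1)) (c3_a e1)
    rwa [p.fx c y w e1 (by simp [q.ab.symm, bc.symm]) (by simp [hy]) (by simp [hw])] at this
  have k2 : ∀ x y z, D3 x y z → ρ (T x y z) v = v := fun x y z d => by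
    obtain ⟨s, hs⟩ := h.fr [a, b, c, x, y, z] (by simp)
    obtain ⟨w, hw⟩ := h.fr [a, b, c, x, y, z, s] (by simp)
    simp only [List.mem_cons, List.not_mem_nil, or_false, not_or] at hw hs
    refine (h.tri hn h2 (k1 s (by simp [hs])) (k1 w (by simp [hw])) (Ne.symm hw.2.2.2.2.2.2)).fx
      x y z d ?_ ?_ ?_
    · simp [Ne.symm hs.2.2.2.1, Ne.symm hw.2.2.2.1]
    · simp [Ne.symm hs.2.2.2.2.1, Ne.symm hw.2.2.2.2.1]
    · simp [Ne.symm hs.2.2.2.2.2, Ne.symm hw.2.2.2.2.2.1]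
  rcases h.irr (⨅ (x : Ω) (y : Ω) (z : Ω) (_ : D3 x y z), Fx ρ (T x y z)) fun u w hw => by
    simp only [Submodule.mem_iInf, mem_Fx] at hw ⊢
    intro x y z d
    rw [← h.conj' (d.map (φ u)⁻¹) (u := u) (a' := x) (b' := y) (c' := z) (by simp) (by simp)
      (by simp), rho_conj, hw _ _ _ (d.map _)] with e | e
  · refine p.ne ((Submodule.mem_bot k).1 (e ▸ ?_))
    simp only [Submodule.mem_iInf, mem_Fx]
    exact k2
  · refine h.ne ⟨p.ab, q.ab, bc⟩ (LinearMap.range_eq_bot.2 (LinearMap.ext fun w => ?_))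
    have : w ∈ ⨅ (x : Ω) (y : Ω) (z : Ω) (_ : D3 x y z), Fx ρ (T x y z) := e ▸ Submodule.mem_top
    simp only [Submodule.mem_iInf] at this
    exact this a b c ⟨p.ab, q.ab, bc⟩

theorem indep {a b c : Ω} {v w : V} (p : PV ρ T a b v) (q : PV ρ T a c w) (bc : b ≠ c) {α β : k}
    (e : α • v + β • w = 0) : α = 0 ∧ β = 0 := by
  have h3 : β = 0 := by
    by_contra h0
    have e1 : w = (-(β⁻¹ * α)) • v := by
      rw [← one_smul k w, ← inv_mul_cancel₀ h0]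
      linear_combination (norm := module) β⁻¹ • e
    have e2 : -(β⁻¹ * α) ≠ 0 := fun e => q.ne (by rw [e1, e, zero_smul])
    exact h.not_two hn h2 (p.smul e2) (e1 ▸ q) bc
  rw [h3, zero_smul, add_zero] at e
  exact ⟨(smul_eq_zero.1 e).resolve_right p.ne, h3⟩

end Tr

end H25.AW
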