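import Cfsg.Agent.H25.AW3

/-! Alternating sections of linear groups, IV: the dimension of the natural module. -/

set_option autoImplicit false
set_option linter.unusedSectionVars false

namespace H25.AW

open Equiv Equiv.Perm Module

variable {k V X Ω : Type*} [Field k] [AddCommGroup V] [Module k V] [FiniteDimensional k V]
  [Group X] [Fintype Ω] [DecidableEq Ω]
variable {ρ : X →* End k V} {φ : X →* Perm Ω} {T : Ω → Ω → Ω → X}

namespace Tr
variable (h : Tr ρ φ T)
include h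

theorem third {o i j x y : Ω} {z : V} (p : PV ρ T o i z) (hj : j ∉ [o, i]) (hx : x ∉ [o, i, j])
    (hy : y ∉ [o, i, j]) : ρ (T i j x) z = ρ (T i j y) z := by
  by_cases xy : x = y
  · rw [xy]
  obtain ⟨m, hm⟩ := h.fr [o, i, j, x, y] (by simp)
  simp only [List.mem_cons, List.not_mem_nil, or_false, not_or] at hm hj hx hy
  have e1 : D3 x y m := ⟨xy, Ne.symm hm.2.2.2.1, Ne.symm hm.2.2.2.2⟩
  have e2 : D3 i j x := ⟨Ne.symm hj.2, Ne.symm hx.2.1, Ne.symm hx.2.2⟩
  have q := h.pv_map' p e2 (c3_o p.ab (Ne.symm hj.1) (Ne.symm hx.1)) (c3_a e2)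
  have := h.conjT e2 e1 (c3_o (Ne.symm hx.2.1) (Ne.symm hy.2.1) (Ne.symm hm.2.1))
    (c3_o (Ne.symm hx.2.2) (Ne.symm hy.2.2) (Ne.symm hm.2.2.1)) (c3_a e1) z
  rwa [q.fx x y m e1 (by simp [hx]) (by simp [hy]) (by simp [hm]),
    p.fx x y m e1 (by simp [hx]) (by simp [hy]) (by simp [hm])] at this

theorem exists_w {o q : Ω} {v : V} (p : PV ρ T o q v) : ∃ w : Ω → V, w o = 0 ∧ w q = v ∧
    (∀ j, j ≠ o → PV ρ T o j (w j)) ∧
    ∀ i j l, D3 i j l → i ≠ o → j ≠ o → l ≠ o → ρ (T i j l) (w i) = w j := by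
  choose m hm using fun j => h.fr [o, q, j] (by simp)
  let w : Ω → V := fun j => if j = o then 0 else if j = q then v else ρ (T q j (m j)) v
  have wq : w q = v := by simp [w, p.ab.symm]
  have hw : ∀ j x, j ≠ o → j ≠ q → x ≠ o → x ≠ q → x ≠ j → w j = ρ (T q j x) v :=
    fun j x a b c d e => by
      simp only [w, if_neg a, if_neg b]
      exact h.third p (by simp [a, b]) (hm j) (by simp [c, d, e])
  refine ⟨w, if_pos rfl, wq, fun j jo => ?_, fun i j l d io jo lo => ?_⟩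
  · by_cases jq : j = q
    · rw [jq, wq]; exact p
    have := hm j
    simp only [List.mem_cons, List.not_mem_nil, or_false, not_or] at this
    have e : D3 q j (m j) := ⟨Ne.symm jq, Ne.symm this.2.1, Ne.symm this.2.2⟩
    rw [hw j (m j) jo jq this.1 this.2.1 this.2.2]
    exact h.pv_map' p e (c3_o p.ab jo.symm (Ne.symm this.1)) (c3_a e)
  by_cases iq : i = q
  · subst iq
    rw [wq, hw j l jo d.1.symm lo d.2.1.symm d.2.2.symm]
  by_cases jq : j = q
  · subst jq
    rw [wq, hw i l io iq lo d.2.2.symm d.2.1.symm, ← h.inv d.sw, h.rot d.sw.rot, h.rot d.sw]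
    rw [← h.rot d.sw, ← h.rot d.sw.rot]
    exact rho_inv _ _
  by_cases lq : l = q
  · subst lq
    rw [hw i j io iq jo jq d.1.symm, hw j i jo jq io iq d.1, ← h.rot d, ← h.rot d.rot, rho_mul,
      ← h.inv d.rot.rot, eq_comm, inv_eq_of_mul_eq_one_left]
    rw [← (h.lf _ _ _ d.rot.rot).pw, pow_three']
  obtain ⟨x, hx⟩ := h.fr [o, q, i, j, l] (by simp)
  simp only [List.mem_cons, List.not_mem_nil, or_false, not_or] at hx
  rw [hw i x io iq hx.1 hx.2.1 hx.2.2.1, hw j x jo jq hx.1 hx.2.1 hx.2.2.2.1,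
    h.conjT ⟨Ne.symm iq, Ne.symm hx.2.1, Ne.symm hx.2.2.1⟩ d
      (c3_o (Ne.symm iq) (Ne.symm jq) (Ne.symm lq)) (c3_a d) (c3_o hx.2.2.1 hx.2.2.2.1 hx.2.2.2.2),
    p.fx i j l d (by simp [io, iq]) (by simp [jo, jq]) (by simp [lo, lq])]

theorem quad {a b c : Ω} (d : D3 a b c) {w : V} (hw : w ∈ Wr ρ (T a b c)) :
    ρ (T a b c) (ρ (T a b c) w) + ρ (T a b c) w + w = 0 := by
  obtain ⟨v, rfl⟩ := hw
  have := congrArg (fun f : End k V => f v) (h.pw d)
  simp only [pow_three, End.mul_apply, End.one_apply] at this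
  simp only [LinearMap.sub_apply, End.one_apply, map_sub, this]
  abel

variable (hn : Nat3 ρ T) (h2 : ∀ a b c, D3 a b c → finrank k (Wr ρ (T a b c)) = 2)
include hn h2

theorem sum_zero {o : Ω} {w : Ω → V} (w0 : w o = 0) (pw : ∀ j, j ≠ o → PV ρ T o j (w j))
    (hb : ∀ i j l, D3 i j l → i ≠ o → j ≠ o → l ≠ o → ρ (T i j l) (w i) = w j)
    (hV : finrank k V + 2 ≤ Fintype.card Ω) : ∑ x, w x = 0 := by
  have h1 : ¬ LinearIndependent k fun j : {j // j ≠ o} => w j := fun e => by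
    have := e.fintype_card_le_finrank
    rw [Fintype.card_subtype_compl, Fintype.card_subtype_eq] at this
    omega
  obtain ⟨g, hg, ⟨i0, hi0⟩, h0⟩ := Fintype.not_linearIndependent_iff.1 h1
  let a : Ω → k := fun x => if e : x ≠ o then g ⟨x, e⟩ else 0
  have ha : ∑ x, a x • w x = 0 := by
    rw [← Finset.sum_erase (a := o) _ (by rw [w0, smul_zero]),
      Finset.sum_subtype (p := fun x => x ≠ o) _ (by simp), ← hg]
    exact Finset.sum_congr rfl fun x _ => by simp only [a, dif_pos x.2]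
  have h3 : ∀ i j, i ≠ o → j ≠ o → a i = a j := fun i j io jo => by
    by_contra e
    have ij : i ≠ j := fun e' => e (e' ▸ rfl)
    obtain ⟨l, hl⟩ := h.fr [o, i, j] (by simp)
    obtain ⟨m, hm⟩ := h.fr [o, i, j, l] (by simp)
    obtain ⟨n, hn'⟩ := h.fr [o, i, j, l, m] (by simp)
    simp only [List.mem_cons, List.not_mem_nil, or_false, not_or] at hl hm hn'
    have d : D3 i j l := ⟨ij, Ne.symm hl.2.1, Ne.symm hl.2.2⟩
    have d' : D3 j m n := ⟨Ne.symm hm.2.2.1, Ne.symm hn'.2.2.1, Ne.symm hn'.2.2.2.2⟩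
    have b1 : ∑ x, a x • (ρ (T i j l) (w x) - w x) = 0 := by
      simp only [smul_sub, Finset.sum_sub_distrib, ha, ← map_smul, ← map_sum, map_zero, sub_zero]
    rw [← Finset.sum_subset (Finset.subset_univ {i, j, l}) (fun x _ hx => by
      simp only [Finset.mem_insert, Finset.mem_singleton, not_or] at hx
      by_cases xo : x = o
      · rw [xo, w0, map_zero, sub_zero, smul_zero]
      · rw [(pw x xo).fx i j l d (by simp [io, Ne.symm hx.1]) (by simp [jo, Ne.symm hx.2.1])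
          (by simp [hl.1, Ne.symm hx.2.2]), sub_self, smul_zero]),
      Finset.sum_insert (by simp [d.1, d.2.1]), Finset.sum_pair d.2.2, hb i j l d io jo hl.1,
      ← h.rot d, hb j l i d.rot jo hl.1 io, ← h.rot d.rot, hb l i j d.rot.rot hl.1 io jo] at b1
    have b2 := congrArg (ρ (T j m n)) b1
    simp only [map_add, map_smul, map_sub, map_zero] at b2
    rw [hb j m n d' jo hm.1 hn'.1,
      (pw i io).fx j m n d' (by simp [jo, ij.symm]) (by simp [hm]) (by simp [hn']),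
      (pw l hl.1).fx j m n d' (by simp [jo, d.2.2]) (by simp [hm]) (by simp [hn'])] at b2
    exact e (sub_eq_zero.1 (h.indep hn h2 (pw j jo) (pw m hm.1) d'.1 (α := a i - a j)
      (β := a j - a i) (by linear_combination (norm := module) b1 - b2)).1)
  have h4 : a i0 ≠ 0 := by simpa only [a, dif_pos hi0] using h0
  refine (smul_eq_zero.1 (?_ : a i0 • ∑ x, w x = 0)).resolve_left h4
  rw [Finset.smul_sum, ← ha]
  refine Finset.sum_congr rfl fun x _ => ?_
  by_cases xo : x = o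
  · rw [xo, w0, smul_zero, smul_zero]
  · rw [h3 i0 x hi0 xo]

theorem card_zero (h3 : ∀ a b c d, [a, b, c, d].Nodup → finrank k (VT ρ T {a, b, c, d}) ≤ 3)
    (hV : finrank k V + 2 ≤ Fintype.card Ω) : (Fintype.card Ω : k) = 0 := by
  obtain ⟨e, -⟩ := exists_emb ([] : List Ω) List.nodup_nil 4 (by simp) (by have := h.c9; omega)
  have nd : [e 0, e 1, e 2, e 3].Nodup := by simp
  have d : D3 (e 0) (e 1) (e 2) := D3.emb e (by decide)
  have d' : D3 (e 0) (e 1) (e 3) := D3.emb e (by decide)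
  generalize e 0 = o, e 1 = q, e 2 = c, e 3 = c' at nd d d'
  obtain ⟨v, hv, h0⟩ : ∃ v ∈ Wr ρ (T o q c) ⊓ Wr ρ (T o q c'), v ≠ 0 := by
    refine (Submodule.ne_bot_iff _).1 fun e' => ?_
    have a1 := Submodule.finrank_sup_add_finrank_inf_eq (Wr ρ (T o q c)) (Wr ρ (T o q c'))
    have a2 := Submodule.finrank_mono (sup_le (le_VT (S := {o, q, c, c'}) d (by simp) (by simp) (by simp))
      (le_VT (ρ := ρ) (T := T) d' (by simp) (by simp) (by simp)))
    have a3 := h3 _ _ _ _ nd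
    rw [e', finrank_bot, h2 _ _ _ d, h2 _ _ _ d'] at a1
    omega
  have p := h.pv_of hn nd h0 hv.1 hv.2
  obtain ⟨w, w0, wq, pw, hb⟩ := h.exists_w p
  have hs := h.sum_zero hn h2 w0 pw hb hV
  have k1 : ∀ j, D3 o q j → ∃ β : k, ρ (T o q j) (w j) = β • v := fun j dj =>
    h.line' hn h2 p (h.pv_symm (h.pv_map' (pw j dj.2.1.symm) dj (c3_a dj) (c3_c dj)))
  obtain ⟨β, hβ⟩ := k1 c d
  have β0 : β ≠ 0 := fun e => rho_ne (pw c d.2.1.symm).ne _ (by rw [hβ, e, zero_smul])
  have k2 : ∀ j, D3 o q j → ρ (T o q j) (w j) = β • v := fun j dj => by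
    by_cases jc : j = c
    · rw [jc, hβ]
    obtain ⟨m, hm⟩ := h.fr [o, q, c, j] (by simp)
    simp only [List.mem_cons, List.not_mem_nil, or_false, not_or] at hm
    have e1 : D3 c j m := ⟨Ne.symm jc, Ne.symm hm.2.2.1, Ne.symm hm.2.2.2⟩
    have := h.conjT d e1 (c3_o d.2.1 dj.2.1 (Ne.symm hm.1)) (c3_o d.2.2 dj.2.2 (Ne.symm hm.2.1))
      (c3_a e1) (w c)
    rw [hb c j m e1 d.2.1.symm dj.2.1.symm hm.1, hβ, map_smul,
      p.fx c j m e1 (by simp [d.2.1.symm, d.2.2.symm]) (by simp [dj.2.1.symm, dj.2.2.symm])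
        (by simp [hm])] at this
    exact this.symm
  have k0 : ∀ j, D3 o q j → w j ∈ Wr ρ (T o q j) := fun j dj =>
    h.W_sw dj ▸ (pw j dj.2.1.symm).mem q (by simp [dj.1.symm, dj.2.2])
  have k3 : ∀ j, D3 o q j → β • ρ (T o q j) v + β • v + w j = 0 := fun j dj => by
    have := h.quad dj (k0 j dj)
    rwa [k2 j dj, map_smul] at this
  have k4 : ∀ j, D3 o q j → j ≠ c → ρ (T o q c) (w j) - w j = β • v := fun j dj jc => by
    have p1 : PV ρ T q j (ρ (T o q c) (w j)) :=
      h.pv_map' (pw j dj.2.1.symm) d (c3_a d) (c3_o dj.2.1.symm dj.2.2.symm jc)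
    obtain ⟨α, hα⟩ := h.line hn h2 p (c := c) (d := j) (by simp [d.2.1.symm, d.2.2.symm])
      (by simp [dj.2.1.symm, dj.2.2.symm]) (Ne.symm jc) (sub_mem_Wr _ (w j))
      (Submodule.sub_mem _ (h.rot dj ▸ p1.mem o (by simp [dj.1, dj.2.1])) (k0 j dj))
    obtain ⟨γ, hγ⟩ := h.line' hn h2 (h.pv_map' p dj (c3_a dj) c3_b) p1
    have := h.indep hn h2 p (pw j dj.2.1.symm) dj.2.2 (α := β * α + γ * β) (β := β + γ) (by
      linear_combination (norm := module) γ • k3 j dj + β • hγ - β • hα)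
    rw [hα, mul_left_cancel₀ β0 (show β * α = β * β by linear_combination this.1 - β * this.2)]
  have b1 : ∑ x, (ρ (T o q c) (w x) - w x) = 0 := by
    rw [Finset.sum_sub_distrib, ← map_sum, hs, map_zero, sub_zero]
  rw [← Finset.sum_add_sum_compl {o, q, c}, Finset.sum_insert (by simp [d.1, d.2.1]),
    Finset.sum_pair d.2.2, w0, wq, hβ, Finset.sum_congr rfl (g := fun _ => β • v) (fun x hx => by
      simp only [Finset.mem_compl, Finset.mem_insert, Finset.mem_singleton, not_or] at hx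
      exact k4 x ⟨d.1, Ne.symm hx.1, Ne.symm hx.2.1⟩ hx.2.2), Finset.sum_const, Finset.card_compl,
    Finset.card_eq_three.2 ⟨o, q, c, d.1, d.2.1, d.2.2, rfl⟩, map_zero, ← Nat.cast_smul_eq_nsmul k,
    Nat.cast_sub (by have := h.c9; omega)] at b1
  have := h.indep hn h2 p (pw c d.2.1.symm) d.2.2
    (α := -2 * β + β * β + (Fintype.card Ω - 3) * β * β) (β := -1 - β) (by
      push_cast at b1
      linear_combination (norm := module) β • b1 - k3 c d)
  have e1 : β = -1 := by linear_combination -this.2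
  have e2 := this.1
  rw [e1] at e2
  linear_combination e2

end Tr

end H25.AW
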