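import Cfsg.Agent.H25.AW4

/-! Alternating sections of linear groups, V: eigenspaces; the natural case. -/

set_option autoImplicit false
set_option linter.unusedSectionVars false

namespace H25.AW

open Equiv Equiv.Perm Module

variable {k V X Ω : Type*} [Field k] [AddCommGroup V] [Module k V] [FiniteDimensional k V]
  [Group X] [Fintype Ω] [DecidableEq Ω]

theorem sum_eig {ι : Type} [Fintype ι] (f : End k V) (χ : ι → k) (hχ : Function.Injective χ)
    {U : Submodule k V} (hU : ∀ i, f.eigenspace (χ i) ≤ U) :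
    ∑ i, finrank k (f.eigenspace (χ i)) ≤ finrank k U := by
  classical
  have h := (f.eigenspaces_iSupIndep.comp hχ).dfinsupp_lsum_injective
  have h1 := LinearMap.finrank_range_of_inj h
  rw [← Submodule.iSup_eq_range_dfinsupp_lsum] at h1
  rw [← finrank_directSum]
  exact h1.symm.le.trans (Submodule.finrank_mono (iSup_le hU))

theorem via_one {m : ℕ} (e : Fin m ↪ Ω) {σ : Perm (Fin m)} (h : ∀ i, σ i = i) :
    viaEmbeddingHom e σ = 1 := by rw [show σ = 1 from Equiv.ext h, map_one]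

theorem via_eq {m : ℕ} (e : Fin m ↪ Ω) {σ τ : Perm (Fin m)} (h : ∀ i, σ i = τ i) :
    viaEmbeddingHom e σ = viaEmbeddingHom e τ := by rw [show σ = τ from Equiv.ext h]

variable {ρ : X →* End k V} {φ : X →* Perm Ω} {T : Ω → Ω → Ω → X}

theorem rho_pow {x : X} {v : V} {a : k} (h : ρ x v = a • v) (n : ℕ) : ρ (x ^ n) v = a ^ n • v := by
  rw [map_pow]; exact pow_apply_of h n

theorem conj_eig {u x y : X} {n : ℕ} (h : u * x * u⁻¹ = y ^ n) {v : V} {a : k} (hv : ρ y v = a • v) :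
    ρ x (ρ u⁻¹ v) = a ^ n • ρ u⁻¹ v := by
  rw [← map_smul, ← rho_pow hv, ← h, rho_mul, rho_mul]; congr 2; group

theorem wt_conj {J : Type*} {f : J → X} {U : Submodule k V} {u : X} (hU : ∀ v ∈ U, ρ u⁻¹ v ∈ U)
    (π : J → J) (n : J → ℕ) (hf : ∀ j, u * f j * u⁻¹ = f (π j) ^ n j) {χ : J → k}
    (h : Wt (fun j => ρ (f j)) U χ) : Wt (fun j => ρ (f j)) U fun j => χ (π j) ^ n j := by
  obtain ⟨v, h1, h2, h3⟩ := h
  exact ⟨_, hU v h1, rho_ne h2 _, fun j => conj_eig (hf j) (h3 _)⟩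

theorem eig_le {u x : X} {n : ℕ} (h : u * x * u⁻¹ = x ^ n) (a : k) :
    finrank k ((ρ x).eigenspace a) ≤ finrank k ((ρ x).eigenspace (a ^ n)) :=
  LinearMap.finrank_le_finrank_of_injective (f := (ρ u⁻¹).restrict fun _ hv =>
    End.mem_eigenspace_iff.2 (conj_eig h (End.mem_eigenspace_iff.1 hv))) fun a b e =>
    Subtype.ext (by
      rw [← rho_inv' (ρ := ρ) u a.1, ← rho_inv' (ρ := ρ) u b.1]; exact congrArg (fun z => ρ u z.1) e)

theorem eig_inv {x y : X} (h : Commute x y) {a : k} {v : V} (hv : v ∈ (ρ y).eigenspace a) :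
    ρ x v ∈ (ρ y).eigenspace a := by
  rw [End.mem_eigenspace_iff] at hv ⊢
  rw [rho_mul, ← h.eq, ← rho_mul, hv, map_smul]

theorem prim_of {s : ℕ} (hs : s.Prime) {a : k} (h1 : a ^ s = 1) (h2 : a ≠ 1) : IsPrimitiveRoot a s := by
  haveI := Fact.mk hs
  exact IsPrimitiveRoot.iff_orderOf.2 (orderOf_eq_prime h1 h2)

/-- `g` generates the units mod `s` -/
def Gen (s g : ℕ) : Prop := s.Prime ∧ ∀ a < s - 1, ∃ i < s, g ^ i % s = a + 1

theorem gen3 : Gen 3 2 := ⟨Nat.prime_three, by decide⟩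
theorem gen5 : Gen 5 2 := ⟨Nat.prime_five, by decide⟩
theorem gen7 : Gen 7 3 := ⟨Nat.prime_seven, by decide⟩

theorem mult {s g : ℕ} (hg : Gen s g) {u x : X} (h : u * x * u⁻¹ = x ^ g) {a : k} (h1 : a ^ s = 1)
    (h2 : a ≠ 1) {U : Submodule k V} (hU : ∀ b, b ^ s = 1 → b ≠ 1 → (ρ x).eigenspace b ≤ U) :
    (s - 1) * finrank k ((ρ x).eigenspace a) ≤ finrank k U := by
  have hp := prim_of hg.1 h1 h2
  have h3 : ∀ i, finrank k ((ρ x).eigenspace a) ≤ finrank k ((ρ x).eigenspace (a ^ g ^ i)) := fun i => by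
    induction i with
    | zero => rw [pow_zero, pow_one]
    | succ i ih => rw [pow_succ, pow_mul]; exact ih.trans (eig_le h _)
  refine le_trans ?_ (sum_eig (ρ x) (fun i : Fin (s - 1) => a ^ (i.1 + 1))
    (fun i j e => Fin.ext (by have := hp.pow_inj (by omega) (by omega) e; omega)) fun i => hU _
      (by rw [← pow_mul, mul_comm, pow_mul, h1, one_pow])
      (hp.pow_ne_one_of_pos_of_lt (by omega) (by omega)))
  have := Finset.card_nsmul_le_sum Finset.univ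
    (fun i : Fin (s - 1) => finrank k ((ρ x).eigenspace (a ^ (i.1 + 1)))) _ fun i _ => by
      obtain ⟨j, -, hj⟩ := hg.2 i.1 i.2
      rw [← hj, ← pow_eq_pow_mod _ h1]
      exact h3 j
  simpa using this

theorem eig_le_Wr {x : X} {b : k} (h : b ≠ 1) : (ρ x).eigenspace b ≤ Wr ρ x := fun _ hv =>
  mem_range_of h (End.mem_eigenspace_iff.1 hv)

theorem one_le_eig {x : X} {a : k} {v : V} (h0 : v ≠ 0) (h : ρ x v = a • v) :
    1 ≤ finrank k ((ρ x).eigenspace a) :=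
  (finrank_pos_iff_exists_ne_zero (R := k)).2
    ⟨⟨v, End.mem_eigenspace_iff.2 h⟩, fun e => h0 (congrArg Subtype.val e)⟩

theorem Wr_comm {x y : X} (h : Commute x y) {v : V} (hv : v ∈ Wr ρ y) : ρ x v ∈ Wr ρ y := by
  have := Wr_conj x hv
  rwa [h.eq, mul_inv_cancel_right] at this

theorem ne_one_of {s : ℕ} (hs : (s : k) ≠ 0) {x : X} (hx : x ^ s = 1) {v : V} {a : k} (h0 : v ≠ 0)
    (h1 : v ∈ Wr ρ x) (h : ρ x v = a • v) : a ^ s = 1 ∧ a ≠ 1 :=
  ⟨pow_eq_one_of (by rw [← map_pow, hx, map_one]) h0 h, fun e =>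
    h0 (eq_zero_of_fix hs (by rw [← map_pow, hx, map_one]) h1 (by rw [h, e, one_smul]))⟩

variable [IsAlgClosed k]

theorem exists_wt' {J : Type*} (f : J → X) (hc : ∀ i j, Commute (f i) (f j)) (U : Submodule k V)
    (hU : U ≠ ⊥) (hi : ∀ j, ∀ v ∈ U, ρ (f j) v ∈ U) : ∃ χ, Wt (fun j => ρ (f j)) U χ :=
  exists_wt _ (fun i j => (hc i j).map ρ) U hU hi

theorem exists_eig {s : ℕ} (hs : (s : k) ≠ 0) {x : X} (hx : x ^ s = 1) (h : Wr ρ x ≠ ⊥) :
    ∃ a : k, a ^ s = 1 ∧ a ≠ 1 ∧ 1 ≤ finrank k ((ρ x).eigenspace a) := by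
  obtain ⟨χ, v, h1, h2, h3⟩ := exists_wt' (fun _ : Unit => x) (fun _ _ => Commute.refl x) _ h
    fun _ v hv => Wr_comm (Commute.refl x) hv
  have := ne_one_of hs hx h2 h1 (h3 ())
  exact ⟨_, this.1, this.2, one_le_eig h2 (h3 ())⟩

theorem rank_ge {s g : ℕ} (hg : Gen s g) (hs : (s : k) ≠ 0) {u x : X} (h : u * x * u⁻¹ = x ^ g)
    (hx : x ^ s = 1) (h0 : Wr ρ x ≠ ⊥) : s - 1 ≤ finrank k (Wr ρ x) := by
  obtain ⟨a, h1, h2, h3⟩ := exists_eig hs hx h0
  exact (Nat.le_mul_of_pos_right _ h3).trans (mult hg h h1 h2 fun _ _ => eig_le_Wr)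

theorem exists_wt2 {s : ℕ} (hs : (s : k) ≠ 0) {J : Type*} (f : J → X) (hc : ∀ i j, Commute (f i) (f j))
    (i j : J) (hi : f i ^ s = 1) (hj : f j ^ s = 1) (h : ¬ Wr ρ (f i) ≤ Fx ρ (f j)) :
    ∃ χ, Wt (fun j => ρ (f j)) ⊤ χ ∧ (χ i ^ s = 1 ∧ χ i ≠ 1) ∧ χ j ^ s = 1 ∧ χ j ≠ 1 := by
  obtain ⟨χ, v, h1, h2, h3⟩ := exists_wt' f hc (Wr ρ (f i) ⊓ Wr ρ (f j)) (fun e => h fun v hv => by
      have : ρ (f j) v - v ∈ Wr ρ (f i) ⊓ Wr ρ (f j) :=
        ⟨Submodule.sub_mem _ (Wr_comm (hc j i) hv) hv, sub_mem_Wr _ _⟩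
      exact mem_Fx.2 (sub_eq_zero.1 ((Submodule.mem_bot k).1 (e ▸ this))))
    fun l v hv => ⟨Wr_comm (hc l i) hv.1, Wr_comm (hc l j) hv.2⟩
  exact ⟨χ, ⟨v, trivial, h2, h3⟩, ne_one_of hs hi h2 h1.1 (h3 i), ne_one_of hs hj h2 h1.2 (h3 j)⟩

theorem inf_zero {s : ℕ} (hs : (s : k) ≠ 0) {x : X} (hx : x ^ s = 1) {U : Submodule k V}
    (hU : U ≤ Fx ρ x) : finrank k U + finrank k (Wr ρ x) ≤ finrank k V :=
  add_le_of_inf fun _ h1 h2 =>
    eq_zero_of_fix hs (by rw [← map_pow, hx, map_one]) h2 (mem_Fx.1 (hU h1))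

namespace Tr
variable (h : Tr ρ φ T)
include h

theorem inv_sq {a b c : Ω} (d : D3 a b c) : ∃ u, u * T a b c * u⁻¹ = T a b c ^ 2 := by
  obtain ⟨u, hu⟩ := (h.lf _ _ _ d).iv
  exact ⟨u, by rw [hu, inv_eq_of_mul_eq_one_left]; rw [← pow_succ, (h.lf _ _ _ d).pw]⟩

theorem two_le (h3 : (3 : k) ≠ 0) {a b c : Ω} (d : D3 a b c) : 2 ≤ finrank k (Wr ρ (T a b c)) := by
  obtain ⟨u, hu⟩ := h.inv_sq d
  exact rank_ge gen3 (by simpa) hu (h.lf _ _ _ d).pw (h.ne d)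

variable (hn : Nat3 ρ T)
include hn

theorem five (h5 : (5 : k) ≠ 0) (e : Fin 9 ↪ Ω) :
    (T (e 0) (e 1) (e 2) * T (e 2) (e 3) (e 4)) ^ 5 = 1 ∧
      4 ≤ finrank k (Wr ρ (T (e 0) (e 1) (e 2) * T (e 2) (e 3) (e 4))) := by
  obtain ⟨w, hw, w0⟩ := (Submodule.ne_bot_iff _).1 (h.ne (D3.emb e (by decide : D3 (5 : Fin 9) 6 7)))
  have k1 : ∀ i j l : Fin 9, D3 i j l ∧ i < 5 ∧ j < 5 ∧ l < 5 → T (e i) (e j) (e l) ∈ stabV ρ w :=
    fun i j l d => by
      have : ∀ i : Fin 9, i < 5 → e i ∉ [e 5, e 6, e 7] := fun i hi => by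
        simp only [List.mem_cons, List.not_mem_nil, or_false, e.injective.eq_iff]
        omega
      exact mem_Fx.1 (hn _ _ _ _ _ _ (D3.emb e (by decide)) (d.1.emb e) (this i d.2.1)
        (this j d.2.2.1) (this l d.2.2.2) hw)
  have k2 : φ (T (e 0) (e 1) (e 2) * T (e 2) (e 3) (e 4)) = viaEmbeddingHom e (c3 0 1 2 * c3 2 3 4) := by
    rw [map_mul, map_mul, via_c3, via_c3, h.eq (D3.emb e (by decide)), h.eq (D3.emb e (by decide))]
  have k3 := (stabV ρ w).mul_mem (k1 0 1 2 (by decide)) (k1 2 3 4 (by decide))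
  obtain ⟨u, hu⟩ := h.lift e (swap 1 3 * swap 1 4 * swap 1 2 * swap 5 6) (by decide)
  have k4 : u * (T (e 0) (e 1) (e 2) * T (e 2) (e 3) (e 4)) * u⁻¹ ∈ stabV ρ w := by
    rw [← conj_mul, h.conjE hu 0 1 2 0 2 4 (by decide), h.conjE hu 2 3 4 4 1 3 (by decide)]
    exact (stabV ρ w).mul_mem (k1 _ _ _ (by decide)) (k1 _ _ _ (by decide))
  generalize T (e 0) (e 1) (e 2) * T (e 2) (e 3) (e 4) = x at *
  have k5 : x ^ 5 = 1 := h.fx (by
    rw [map_pow, k2, ← map_pow]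
    exact via_one e (by decide))
    w0 ((stabV ρ w).pow_mem k3 5)
  have k6 : (x ^ 2)⁻¹ * (u * x * u⁻¹) = 1 := h.fx (by
    simp only [map_mul φ, map_inv φ, map_pow φ, k2, hu]
    rw [← map_inv, ← map_pow, ← map_inv, ← map_mul, ← map_mul, ← map_mul]
    exact via_one e (by decide)) w0 ((stabV ρ w).mul_mem ((stabV ρ w).inv_mem ((stabV ρ w).pow_mem k3 2)) k4)
  refine ⟨k5, rank_ge gen5 (by simpa) (inv_mul_eq_one.1 k6).symm k5 (h.Wr_ne ?_)⟩
  rw [k2, ← map_one (viaEmbeddingHom e)]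
  exact (viaEmbeddingHom_injective e).ne (by decide)

theorem low (a b c : Ω) (d : D3 a b c) : 2 ≤ finrank k (Wr ρ (T a b c)) := by
  by_cases h3 : (3 : k) = 0
  swap; · exact h.two_le h3 d
  obtain ⟨e, he⟩ := exists_emb [a, b, c] (by simp [d.1, d.2.1, d.2.2]) 9 (by simp) h.c9
  obtain rfl : e 0 = a := he 0 (by simp)
  obtain rfl : e 1 = b := he 1 (by simp)
  obtain rfl : e 2 = c := he 2 (by simp)
  have h1 := (h.five hn (fun e => one_ne_zero (α := k) (by linear_combination 2 * h3 - e)) e).2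
  have h2 := Submodule.finrank_mono (Wr_mul (ρ := ρ) (T (e 0) (e 1) (e 2)) (T (e 2) (e 3) (e 4)))
  have h4 := Submodule.finrank_add_le_finrank_add_finrank (Wr ρ (T (e 0) (e 1) (e 2)))
    (Wr ρ (T (e 2) (e 3) (e 4)))
  obtain ⟨u, hu⟩ := h.lift e (swap 0 3 * swap 1 4) (by decide)
  have h5 := finrank_Wr_conj (ρ := ρ) u (T (e 2) (e 3) (e 4))
  rw [h.conjE hu 2 3 4 2 0 1 (by decide), ← h.rot d.rot.rot] at h5
  omega

theorem up (a b c d : Ω) (nd : [a, b, c, d].Nodup) :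
    finrank k (VT ρ T {a, b, c, d}) + Fintype.card Ω ≤ finrank k V + 5 := by
  have h9 := h.c9
  obtain ⟨e, he⟩ := exists_emb (Ω := Ω) [a, b, c, d] nd 9 (by simp) h.c9
  obtain rfl : e 0 = a := he 0 (by simp)
  obtain rfl : e 1 = b := he 1 (by simp)
  obtain rfl : e 2 = c := he 2 (by simp)
  obtain rfl : e 3 = d := he 3 (by simp)
  have c4 : ({e 0, e 1, e 2, e 3} : Finset Ω).card = 4 := by
    rw [Finset.card_insert_of_notMem (by simp), Finset.card_insert_of_notMem (by simp),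
      Finset.card_pair (by simp)]
  by_cases h3 : (3 : k) = 0
  · have h5 : (5 : k) ≠ 0 := fun e => one_ne_zero (α := k) (by linear_combination 2 * h3 - e)
    obtain ⟨S, -, a2, a3⟩ := h.grow' hn [e 4, e 5, e 6, e 7, e 8] (Fintype.card Ω - 9)
      (S := {e 0, e 1, e 2, e 3}) (by omega) (by simp) (by simp [c4]; omega) (by simp)
    simp only [List.mem_cons, List.not_mem_nil, or_false, forall_eq_or_imp, forall_eq] at a2
    obtain ⟨b1, b2⟩ := h.five hn h5 ((finRotate 9 ^ 4 : Perm (Fin 9)).toEmbedding.trans e)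
    change (T (e 4) (e 5) (e 6) * T (e 6) (e 7) (e 8)) ^ 5 = 1 at b1
    change 4 ≤ finrank k (Wr ρ (T (e 4) (e 5) (e 6) * T (e 6) (e 7) (e 8))) at b2
    have := inf_zero (ρ := ρ) (U := VT ρ T S) (by simpa) b1 fun v hv => mem_Fx.2
      ((stabV ρ v).mul_mem (mem_Fx.1 (hn.VT_le (D3.emb e (by decide)) a2.1 a2.2.1 a2.2.2.1 hv))
        (mem_Fx.1 (hn.VT_le (D3.emb e (by decide)) a2.2.2.1 a2.2.2.2.1 a2.2.2.2.2 hv)))
    omega
  · obtain ⟨S, -, a2, a3⟩ := h.grow' hn [e 4, e 5, e 6] (Fintype.card Ω - 7)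
      (S := {e 0, e 1, e 2, e 3}) (by omega) (by simp) (by simp [c4]; omega) (by simp)
    simp only [List.mem_cons, List.not_mem_nil, or_false, forall_eq_or_imp, forall_eq] at a2
    have d : D3 (e 4) (e 5) (e 6) := D3.emb e (by decide)
    have := inf_zero (ρ := ρ) (s := 3) (by simpa) (h.lf _ _ _ d).pw (hn.VT_le d a2.1 a2.2.1 a2.2.2)
    have := h.two_le h3 d
    omega

theorem natural : Fintype.card Ω ≤ finrank k V + 2 ∧
    ((Fintype.card Ω : k) ≠ 0 → Fintype.card Ω ≤ finrank k V + 1) := by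
  have h9 := h.c9
  have k1 : ∀ a b c d, [a, b, c, d].Nodup →
      finrank k (Wr ρ (T a b c)) < finrank k (VT ρ T {a, b, c, d}) := fun a b c d nd => by
    simp only [List.nodup_cons, List.mem_cons, List.not_mem_nil, or_false, not_or] at nd
    have d3 : D3 a b c := ⟨nd.1.1, nd.1.2.1, nd.2.1.1⟩
    have c3' : ({a, b, c} : Finset Ω).card = 3 :=
      Finset.card_eq_three.2 ⟨a, b, c, d3.1, d3.2.1, d3.2.2, rfl⟩
    have := h.grow hn (S := {a, b, c}) (x := d) (by omega) (by omega)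
      (by simp [Ne.symm nd.1.2.2, Ne.symm nd.2.1.2, Ne.symm nd.2.2.1])
    rw [show insert d {a, b, c} = ({a, b, c, d} : Finset Ω) by ext; simp; tauto] at this
    exact (Submodule.finrank_mono (le_VT d3 (by simp) (by simp) (by simp))).trans_lt this
  have k2 : ∀ a b c, D3 a b c → ∃ d, [a, b, c, d].Nodup := fun a b c d => by
    obtain ⟨x, hx⟩ := h.fr [a, b, c] (by simp)
    simp only [List.mem_cons, List.not_mem_nil, or_false, not_or] at hx
    exact ⟨x, by simp [d.1, d.2.1, d.2.2, Ne.symm hx.1, Ne.symm hx.2.1, Ne.symm hx.2.2]⟩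
  constructor
  · obtain ⟨e, -⟩ := exists_emb ([] : List Ω) List.nodup_nil 4 (by simp) (by omega)
    have nd : [e 0, e 1, e 2, e 3].Nodup := by simp
    have := k1 _ _ _ _ nd
    have := h.up hn _ _ _ _ nd
    have := h.low hn _ _ _ (D3.emb e (by decide : D3 (0 : Fin 4) 1 2))
    omega
  · intro h0
    by_contra hV
    refine h0 (h.card_zero hn (fun a b c d => ?_) (fun a b c d nd => ?_) (by omega))
    · obtain ⟨x, nd⟩ := k2 a b c d
      have := k1 _ _ _ _ nd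
      have := h.up hn _ _ _ _ nd
      have := h.low hn _ _ _ d
      omega
    · have := h.up hn _ _ _ _ nd
      omega

end Tr

end H25.AW
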