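import Cfsg.Agent.H25.AW5

/-! Alternating sections of linear groups, VI: the central case away from the natural module. -/

set_option autoImplicit false
set_option linter.unusedSectionVars false

namespace H25.AW

open Equiv Equiv.Perm Module
open scoped commutatorElement

variable {k V X Ω : Type*} [Field k] [AddCommGroup V] [Module k V] [FiniteDimensional k V]
  [Group X] [Fintype Ω] [DecidableEq Ω]
variable {ρ : X →* End k V} {φ : X →* Perm Ω} {T : Ω → Ω → Ω → X}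

theorem comm_fixS {c : Perm Ω} {y : X} (hy : y ∈ fixS φ c.support) : Commute (φ y) c :=
  Disjoint.commute fun a => by
    by_cases ha : a ∈ c.support
    · exact Or.inl (hy a ha)
    · exact Or.inr (notMem_support.1 ha)

theorem mem_fixS_via {m : ℕ} {e : Fin m ↪ Ω} {γ σ : Perm (Fin m)} {u : X}
    (hu : φ u = viaEmbeddingHom e σ) (h : ∀ i, γ i ≠ i → σ i = i) :
    u ∈ fixS φ (viaEmbeddingHom e γ).support := fun x hx => by
  rw [hu]
  by_cases hx' : x ∈ Set.range e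
  · obtain ⟨i, rfl⟩ := hx'
    rw [via_apply, h i fun e' => mem_support.1 hx (by rw [via_apply, e'])]
  · exact viaEmbedding_apply_of_notMem _ e x hx'

theorem via_supp {m : ℕ} (e : Fin m ↪ Ω) (γ : Perm (Fin m)) :
    (viaEmbeddingHom e γ).support.card = γ.support.card :=
  @card_support_extend_domain _ _ _ _ _ _ _ (fun _ => Classical.propDecidable _)
    (ofInjective e.1 e.2) γ

theorem via_ne {m : ℕ} (e : Fin m ↪ Ω) {γ : Perm (Fin m)} (h : ∃ i, γ i ≠ i) :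
    viaEmbeddingHom e γ ≠ 1 := fun e' => by
  obtain ⟨i, hi⟩ := h
  exact hi (e.injective (by rw [← via_apply, e', one_apply]))

theorem via_comm {m : ℕ} (e : Fin m ↪ Ω) {σ γ : Perm (Fin m)} (h : ∀ i, σ (γ i) = γ (σ i)) :
    Commute (viaEmbeddingHom e σ) (viaEmbeddingHom e γ) :=
  (show Commute σ γ from Equiv.ext h).map _

theorem comm_lift {u x y : X} (hc : Commute u y) (h : Wr ρ x ≤ Fx ρ y) :
    Wr ρ (x * (u * x⁻¹ * u⁻¹)) ≤ Fx ρ y := by
  refine (Wr_mul _ _).trans (sup_le h fun v hv => ?_)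
  have a := Wr_conj u⁻¹ hv
  rw [show u⁻¹ * (u * x⁻¹ * u⁻¹) * u⁻¹⁻¹ = x⁻¹ by group, Wr_inv] at a
  have b := congrArg (ρ u) (mem_Fx.1 (h a))
  rwa [rho_mul, hc.eq, ← rho_mul, rho_inv', ← mem_Fx] at b

theorem line_fix {x u y : X} {a : k} (h : finrank k ((ρ y).eigenspace a) ≤ 1) (hx : Commute x y)
    (hu : Commute u y) : (ρ y).eigenspace a ≤ Fx ρ (x * (u * x⁻¹ * u⁻¹)) := fun v hv => by
  obtain ⟨w, hw⟩ := finrank_le_one_iff.1 h
  have key : ∀ z, Commute z y → ∃ b : k, ∀ v ∈ (ρ y).eigenspace a, ρ z v = b • v := fun z hz => by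
    obtain ⟨b, hb⟩ := hw ⟨_, eig_inv hz w.2⟩
    refine ⟨b, fun v hv => ?_⟩
    obtain ⟨c, hc⟩ := hw ⟨v, hv⟩
    have e1 : v = c • w.1 := (congrArg Subtype.val hc).symm
    have e2 : ρ z w = b • w.1 := (congrArg Subtype.val hb).symm
    rw [e1, map_smul, e2, smul_comm]
  obtain ⟨b, hb⟩ := key x⁻¹ hx.inv_left
  rw [mem_Fx, ← rho_mul, ← rho_mul, ← rho_mul, hb _ (eig_inv hu.inv_left hv), map_smul, rho_inv',
    ← hb v hv, rho_inv']

namespace Ce
variable (h : Ce ρ φ)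
include h

theorem st_via {m s : ℕ} (e : Fin m ↪ Ω) {γ : Perm (Fin m)} (hs : s.Prime)
    (h1 : (∀ i, (γ ^ s) i = i) ∧ γ.support.card = s)
    (h3 : 5 ≤ Fintype.card Ω - s ∨ s.Coprime (Fintype.card Ω - s).factorial) :
    St φ (viaEmbeddingHom e γ) := by
  haveI := Fact.mk hs
  have a1 : viaEmbeddingHom e γ ^ s = 1 := by rw [← map_pow]; exact via_one e h1.1
  have a2 := (via_supp e γ).trans h1.2
  have a3 : orderOf (viaEmbeddingHom e γ) = s := orderOf_eq_prime a1 fun e' => hs.ne_zero (by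
    rw [← a2, e', support_one, Finset.card_empty])
  exact h.toHy.st h.ce (isCycle_of_prime_order (a3 ▸ hs) (by have := hs.pos; omega)) a1 (by rwa [a2])

theorem lf_via {m s : ℕ} (e : Fin m ↪ Ω) (γ g : Perm (Fin m)) (hs : Odd s)
    (h1 : sign γ = 1 ∧ sign g = 1 ∧ (∀ i, (γ ^ s) i = i) ∧ ∀ i, (g * γ * g⁻¹) i = γ⁻¹ i) :
    ∃ t, Lf φ s t (viaEmbeddingHom e γ) :=
  h.toHy.exists_lf h.ce hs (g := viaEmbeddingHom e g) (by rw [via_sign, h1.1])
    (by rw [← map_pow]; exact via_one e h1.2.2.1) (by rw [via_sign, h1.2.1]) (by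
      rw [← map_inv, ← map_inv, ← map_mul, ← map_mul]; exact via_eq e h1.2.2.2)

theorem conj_via {m s : ℕ} {e : Fin m ↪ Ω} {γ γ' σ : Perm (Fin m)} (hs : Odd s) {t t' u : X}
    (h1 : St φ (viaEmbeddingHom e γ)) (h2 : Lf φ s t (viaEmbeddingHom e γ))
    (h3 : Lf φ s t' (viaEmbeddingHom e γ')) (hu : φ u = viaEmbeddingHom e σ) (a : ℕ)
    (h4 : ∀ i, (σ⁻¹ * γ' ^ a * σ) i = γ i) : u * t * u⁻¹ = t' ^ a := by
  rw [← Lf.conj_eq h.ce hs (u := u⁻¹) h1 h2 (h3.pow a) (by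
    rw [map_inv, inv_inv, hu, ← map_inv, ← map_pow, ← map_mul, ← map_mul]; exact via_eq e h4)]
  group

theorem lf3 {u x y : X} (h1 : φ (u * u) = 1) (h2 : φ (x * (u * x⁻¹ * u⁻¹)) ^ 3 = 1) (hy : φ y ≠ 1)
    (h3 : Wr ρ y ≤ Fx ρ (x * (u * x⁻¹ * u⁻¹))) :
    Lf φ 3 (x * (u * x⁻¹ * u⁻¹)) (φ (x * (u * x⁻¹ * u⁻¹))) := by
  obtain ⟨w, hw, w0⟩ := (Submodule.ne_bot_iff _).1 (h.Wr_ne hy)
  refine ⟨rfl, h.fx (by rwa [map_pow]) w0 ((stabV ρ w).pow_mem (mem_Fx.1 (h3 hw)) 3), u, ?_⟩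
  calc u * (x * (u * x⁻¹ * u⁻¹)) * u⁻¹ = u * x * u⁻¹ * (u * u * x⁻¹) * u⁻¹ * u⁻¹ := by group
    _ = _ := by rw [(h.ce _ h1 x⁻¹).eq]; group

variable [IsAlgClosed k]

theorem ind (IH : ∀ (W : Submodule k V) (S : Finset Ω) (ρ' : fixS φ S →* End k W), W ≠ ⊤ →
      9 ≤ Fintype.card Ω - S.card → (∀ x, ρ' x = 1 → resS φ S x = 1) →
      Fintype.card Ω - S.card ≤ finrank k W + 2)
    {s g : ℕ} (hg : Gen s g) (h3 : 3 ≤ s) (hs : (s : k) ≠ 0) {x y u w : X} (h1 : St φ (φ x))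
    (hx : x ^ s = 1) (hy : y ^ s = 1) (hw : w * x * w⁻¹ = x ^ g) (h2 : y ∈ fixS φ (φ x).support)
    (h4 : u ∈ fixS φ (φ x).support) (hu : u * y * u⁻¹ = y⁻¹)
    (h9 : 9 ≤ Fintype.card Ω - (φ x).support.card) (hn : ¬ Wr ρ x ≤ Fx ρ y) :
    2 * (Fintype.card Ω - (φ x).support.card) ≤ finrank k V + 4 := by
  have hc : ∀ z : fixS φ (φ x).support, Commute (z : X) x := fun z => h1 x z rfl (comm_fixS z.2)
  obtain ⟨χ, ⟨v, -, v0, hv⟩, ⟨a1, a2⟩, b1, b2⟩ := exists_wt2 (ρ := ρ) hs ![x, y] (fun i j => by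
    fin_cases i <;> fin_cases j
    exacts [Commute.refl _, (hc ⟨y, h2⟩).symm, hc ⟨y, h2⟩, Commute.refl _]) 0 1 hx hy hn
  have v1 : ρ x v = χ 0 • v := hv 0
  have v2 : ρ y v = χ 1 • v := hv 1
  have m1 := mult (ρ := ρ) hg hw a1 a2 (U := ⊤) fun _ _ _ => le_top
  rw [finrank_top] at m1
  have m2 := one_le_eig v0 v1
  have m3 : 2 * finrank k ((ρ x).eigenspace (χ 0)) ≤ finrank k V :=
    (Nat.mul_le_mul_right _ (by omega)).trans m1
  let ρ' := Representation.subrepresentation (ρ.comp (fixS φ (φ x).support).subtype)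
    ((ρ x).eigenspace (χ 0)) fun z _ hv => eig_inv (hc z) hv
  have k1 : ∀ z : fixS φ (φ x).support, z ∈ MonoidHom.ker ρ' → ∀ v ∈ (ρ x).eigenspace (χ 0),
      ρ z v = v := fun z hz v hv =>
    congrArg Subtype.val (congrArg (fun f : End k ((ρ x).eigenspace (χ 0)) => f ⟨v, hv⟩) hz)
  rcases (h.toHy.res (φ x).support).nd (by rw [card_compl']; omega) (MonoidHom.ker ρ') with e | e
  · have := IH _ _ ρ' (fun e => by rw [e, finrank_top] at m2 m3; omega) h9 e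
    omega
  exfalso
  obtain ⟨z, hz, e1⟩ := e _ ((h.toHy.res _).sg ⟨y, h2⟩)
  have e2 : φ (z⁻¹ * ⟨y, h2⟩ : fixS φ (φ x).support) = 1 :=
    resS_eq_one (by rw [map_mul, map_inv, e1, inv_mul_cancel])
  have e3 := eig_inv (ρ := ρ) (hc (z⁻¹ * ⟨y, h2⟩)) (End.mem_eigenspace_iff.2 v1)
  have e4 := k1 z hz _ e3
  have e5 := k1 _ ((MonoidHom.normal_ker ρ').conj_mem z hz ⟨u, h4⟩) _ e3
  rw [rho_mul] at e4 e5
  have e6 : ((⟨u, h4⟩ * z * ⟨u, h4⟩⁻¹ : fixS φ (φ x).support) : X) *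
      (z⁻¹ * ⟨y, h2⟩ : fixS φ (φ x).support) = y⁻¹ := by
    rw [← hu]
    have := (h.ce _ e2 u⁻¹).eq
    simp only [Subgroup.coe_mul, Subgroup.coe_inv] at this ⊢
    rw [mul_assoc, ← this]; group
  rw [e6, ← e4, show (z : X) * (z⁻¹ * ⟨y, h2⟩ : fixS φ (φ x).support) = y by simp, v2] at e5
  have e7 := congrArg (ρ y) e5
  rw [rho_inv', map_smul, v2, smul_smul] at e7
  have e8 : χ 1 ^ 2 = 1 := by
    rw [pow_two]; exact smul_left_injective k v0 (e7.symm.trans (one_smul k v).symm)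
  have := Nat.le_of_dvd two_pos ((prim_of hg.1 b1 b2).dvd_of_pow_eq_one 2 e8)
  omega

end Ce

/-- two disjoint 5-cycles -/
def g1 : Perm (Fin 10) := swap 0 1 * swap 0 7 * swap 0 2 * swap 0 6
/-- two disjoint 5-cycles -/
def g2 : Perm (Fin 10) := swap 3 4 * swap 3 9 * swap 3 5 * swap 3 8
/-- interchanges the two cycles -/
def gS : Perm (Fin 10) := swap 0 3 * (swap 6 9 * swap 6 7 * swap 6 4 * swap 6 1 * swap 6 5 * swap 6 2 * swap 6 8)

theorem wt_card {J ι : Type} [Fintype ι] {f : J → End k V} {U : Submodule k V} {ζ : k} {s : ℕ}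
    (hζ : IsPrimitiveRoot ζ s) (ε : ι → J → ℕ) (h1 : ∀ i j, ε i j < s) (h2 : Function.Injective ε)
    (h : ∀ i, Wt f U fun j => ζ ^ ε i j) : Fintype.card ι ≤ finrank k U :=
  card_le_of_wt _ (fun a b e => h2 (funext fun j => hζ.pow_inj (h1 a j) (h1 b j) (congrFun e j))) h

theorem iter_of {α : Type*} {Q : α → Prop} {f : α → α} (h : ∀ p, Q p → Q (f p)) (n : ℕ) {a : α}
    (ha : Q a) : Q (f^[n] a) := by
  induction n generalizing a with
  | zero => exact ha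
  | succ n ih => exact ih (h a ha)

/-- orbit of weights -/
def o16 (j : ℕ) (i : Fin 8 × Fin 2) : ℕ × ℕ := (fun p : ℕ × ℕ => (p.1 * 4 % 5, p.2))^[i.2]
  ((fun p : ℕ × ℕ => (p.2, p.1 * 2 % 5))^[i.1] (1, j))

/-- orbit of weights -/
def o4 (j : ℕ) (i : Fin 4) : ℕ × ℕ := (fun p : ℕ × ℕ => (p.2, p.1 * 2 % 3))^[i] (1, j)

theorem o16_spec : ∀ j < 5, j ≠ 0 → (∀ i l, ![(o16 j i).1, (o16 j i).2] l < 5) ∧
    Function.Injective fun i => ![(o16 j i).1, (o16 j i).2] := by decide +kernel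

theorem o4_spec : ∀ j < 3, (∀ i l, ![(o4 j i).1, (o4 j i).2] l < 3) ∧
    Function.Injective fun i => ![(o4 j i).1, (o4 j i).2] := by decide +kernel

variable [IsAlgClosed k]

theorem Ce.sixteen (h : Ce ρ φ) (h5 : (5 : k) ≠ 0) {e : Fin 10 ↪ Ω} {x y : X}
    (s1 : St φ (viaEmbeddingHom e g1)) (s2 : St φ (viaEmbeddingHom e g2))
    (hx : Lf φ 5 x (viaEmbeddingHom e g1)) (hy : Lf φ 5 y (viaEmbeddingHom e g2))
    (hn : ¬ Wr ρ x ≤ Fx ρ y) : 16 ≤ finrank k V := by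
  have hc : Commute y x := s1 x y hx.eq (hy.eq ▸ via_comm e (by decide))
  obtain ⟨χ, hχ, ⟨a1, a2⟩, b1, b2⟩ := exists_wt2 (ρ := ρ) (s := 5) (by simpa) ![x, y] (fun i j => by
    fin_cases i <;> fin_cases j
    exacts [Commute.refl _, hc.symm, hc, Commute.refl _]) 0 1 hx.pw hy.pw hn
  have hp := prim_of Nat.prime_five a1 a2
  obtain ⟨j, hj, e1⟩ := hp.eq_pow_of_pow_eq_one b1
  obtain ⟨u, hu⟩ := h.lift e gS (by decide)
  obtain ⟨w, hw⟩ := h.lift e (swap 6 1 * swap 2 7) (by decide)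
  let Q : ℕ × ℕ → Prop := fun p => Wt (fun j => ρ (![x, y] j)) ⊤ fun j => χ 0 ^ ![p.1, p.2] j
  have q0 : Q (1, j) := by
    convert hχ using 2 with i
    fin_cases i <;> simp [e1]
  have q1 : ∀ p, Q p → Q (p.2, p.1 * 2 % 5) := fun p hp' => by
    convert wt_conj (u := u) (U := ⊤) (ρ := ρ) (fun _ _ => trivial) ![1, 0] ![1, 2] (fun j => by
      fin_cases j
      exacts [h.conj_via (by decide) s1 hx hy hu 1 (by decide +kernel),
        h.conj_via (by decide) s2 hy hx hu 2 (by decide +kernel)]) hp' using 2 with i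
    fin_cases i <;> simp [← pow_mul, ← pow_eq_pow_mod _ a1]
  have q2 : ∀ p, Q p → Q (p.1 * 4 % 5, p.2) := fun p hp' => by
    convert wt_conj (u := w) (U := ⊤) (ρ := ρ) (fun _ _ => trivial) ![0, 1] ![4, 1] (fun j => by
      fin_cases j
      exacts [h.conj_via (by decide) s1 hx hx hw 4 (by decide),
        h.conj_via (by decide) s2 hy hy hw 1 (by decide)]) hp' using 2 with i
    fin_cases i <;> simp [← pow_mul, ← pow_eq_pow_mod _ a1]
  have j0 : j ≠ 0 := fun e => b2 (by rw [← e1, e, pow_zero])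
  have := wt_card (f := fun j => ρ (![x, y] j)) (U := ⊤) hp _ (o16_spec j hj j0).1
    (o16_spec j hj j0).2 fun i => iter_of q2 _ (iter_of q1 _ q0)
  simpa using this

namespace Tr
variable (h : Tr ρ φ T)
include h

theorem commT {a b c x y z : Ω} (d : D3 a b c) (d' : D3 x y z) (h1 : a ∉ [x, y, z])
    (h2 : b ∉ [x, y, z]) (h3 : c ∉ [x, y, z]) : Commute (T x y z) (T a b c) := by
  simp only [List.mem_cons, List.not_mem_nil, or_false, not_or] at h1 h2 h3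
  exact mul_inv_eq_iff_eq_mul.1 (h.conj' d (by rw [h.eq d', c3_o h1.1 h1.2.1 h1.2.2])
    (by rw [h.eq d', c3_o h2.1 h2.2.1 h2.2.2]) (by rw [h.eq d', c3_o h3.1 h3.2.1 h3.2.2]))

theorem eqE {m : ℕ} (e : Fin m ↪ Ω) {i j l : Fin m} (d : D3 i j l) :
    φ (T (e i) (e j) (e l)) = viaEmbeddingHom e (c3 i j l) := by rw [via_c3, h.eq (d.emb e)]

theorem three_of_five {e : Fin 10 ↪ Ω} {x y : X}
    (s1 : St φ (viaEmbeddingHom e g1)) (s2 : St φ (viaEmbeddingHom e g2))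
    (hx : Lf φ 5 x (viaEmbeddingHom e g1)) (hy : Lf φ 5 y (viaEmbeddingHom e g2))
    (hn : Wr ρ x ≤ Fx ρ y) : Wr ρ (T (e 0) (e 1) (e 2)) ≤ Fx ρ (T (e 3) (e 4) (e 5)) := by
  have hc : Commute y x := s1 x y hx.eq (hy.eq ▸ via_comm e (by decide))
  obtain ⟨u, hu⟩ := h.lift e (swap 0 2 * swap 6 7) (by decide)
  obtain ⟨w, hw⟩ := h.lift e (swap 3 5 * swap 8 9) (by decide)
  have uy : Commute u y := s2 y u hy.eq (hu ▸ via_comm e (by decide))
  have d1 : D3 (e 0) (e 1) (e 2) := D3.emb e (by decide)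
  have d2 : D3 (e 3) (e 4) (e 5) := D3.emb e (by decide)
  have a1 := Wr_le_symm (hc.symm.mul_left ((uy.mul_left hc.symm.inv_left).mul_left uy.inv_left))
    (comm_lift uy hn)
  have a2 : φ (x * (u * x⁻¹ * u⁻¹)) = c3 (e 0) (e 1) (e 2) := by
    simp only [map_mul φ, map_inv φ, hx.eq, hu]
    rw [← map_inv, ← map_inv, ← map_mul, ← map_mul, ← map_mul, ← via_c3]
    exact via_eq e (by decide)
  have a3 := h.uniq d1 (a2 ▸ h.lf3 (by rw [map_mul, hu, ← map_mul]; exact via_one e (by decide))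
    (by rw [a2, c3_pow d1]) (hy.eq ▸ via_ne e (by decide)) a1)
  rw [a3] at a1
  have wt : Commute w (T (e 0) (e 1) (e 2)) :=
    mul_inv_eq_iff_eq_mul.1 (h.conjE hw 0 1 2 0 1 2 (by decide))
  have b2 : φ (y * (w * y⁻¹ * w⁻¹)) = c3 (e 3) (e 4) (e 5) := by
    simp only [map_mul φ, map_inv φ, hy.eq, hw]
    rw [← map_inv, ← map_inv, ← map_mul, ← map_mul, ← map_mul, ← via_c3]
    exact via_eq e (by decide)
  have yt : Commute y (T (e 0) (e 1) (e 2)) :=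
    mul_inv_eq_iff_eq_mul.1 (h.conjE hy.eq 0 1 2 0 1 2 (by decide))
  have b1 := Wr_le_symm (yt.mul_left ((wt.mul_left yt.inv_left).mul_left wt.inv_left))
    (comm_lift wt a1)
  have b3 := h.uniq d2 (b2 ▸ h.lf3 (by rw [map_mul, hw, ← map_mul]; exact via_one e (by decide))
    (by rw [b2, c3_pow d2]) (h.eqE e (by decide : D3 (0 : Fin 10) 1 2) ▸ via_ne e (by decide)) b1)
  rwa [b3] at b1

theorem four (h3 : (3 : k) ≠ 0) (e : Fin 9 ↪ Ω)
    (hn : ¬ Wr ρ (T (e 0) (e 1) (e 2)) ≤ Fx ρ (T (e 3) (e 4) (e 5))) :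
    ∃ a : k, a ^ 3 = 1 ∧ a ≠ 1 ∧ 4 ≤ finrank k ((ρ (T (e 0) (e 1) (e 2))).eigenspace a) := by
  have d1 : D3 (e 0) (e 1) (e 2) := D3.emb e (by decide)
  have d2 : D3 (e 3) (e 4) (e 5) := D3.emb e (by decide)
  have d3 : D3 (e 6) (e 7) (e 8) := D3.emb e (by decide)
  have c1 := h.commT d1 d2 (by simp) (by simp) (by simp)
  have c2 := h.commT d1 d3 (by simp) (by simp) (by simp)
  have c3 := h.commT d2 d3 (by simp) (by simp) (by simp)
  obtain ⟨u, hu⟩ := h.lift e (swap 3 6 * (swap 4 8 * swap 4 5 * swap 4 7)) (by decide)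
  have u1 := h.conjE hu 0 1 2 0 1 2 (by decide)
  have u2 := h.conjE hu 3 4 5 6 7 8 (by decide)
  have u3 := h.conjE hu 6 7 8 3 5 4 (by decide)
  rw [← h.inv d2] at u3
  have p1 := (h.lf _ _ _ d1).pw
  have p2 := (h.lf _ _ _ d2).pw
  have p3 := (h.lf _ _ _ d3).pw
  generalize T (e 0) (e 1) (e 2) = x, T (e 3) (e 4) (e 5) = y, T (e 6) (e 7) (e 8) = z at *
  obtain ⟨χ, ⟨v, -, v0, hv⟩, ⟨a1, a2⟩, b1, b2⟩ := exists_wt2 (ρ := ρ) (s := 3) (by simpa) ![x, y, z]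
    (fun i j => by
      fin_cases i <;> fin_cases j
      exacts [Commute.refl _, c1.symm, c2.symm, c1, Commute.refl _, c3.symm, c2, c3, Commute.refl _])
    0 1 p1 p2 hn
  have hp := prim_of Nat.prime_three b1 b2
  obtain ⟨j, hj, e1⟩ := hp.eq_pow_of_pow_eq_one (pow_eq_one_of (t := ρ z) (m := 3)
    (by rw [← map_pow, p3, map_one]) v0 (hv 2))
  let Q : ℕ × ℕ → Prop := fun p => Wt (fun j => ρ (![y, z] j)) ((ρ x).eigenspace (χ 0))
    fun j => χ 1 ^ ![p.1, p.2] j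
  have q0 : Q (1, j) := ⟨v, End.mem_eigenspace_iff.2 (hv 0), v0, fun i => by
    fin_cases i
    · simpa using hv 1
    · simpa [e1] using hv 2⟩
  have q1 : ∀ p, Q p → Q (p.2, p.1 * 2 % 3) := fun p hp' => by
    convert wt_conj (u := u)
      (fun _ => eig_inv (show Commute u x from mul_inv_eq_iff_eq_mul.1 u1).inv_left) ![1, 0] ![1, 2]
      (fun j => by
        fin_cases j
        · simpa using u2
        · exact u3.trans (inv_eq_of_mul_eq_one_left ((pow_succ y 2).symm.trans p2))) hp' using 2 with i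
    fin_cases i <;> simp [← pow_mul, ← pow_eq_pow_mod _ b1]
  have := wt_card (f := fun j => ρ (![y, z] j)) hp _ (o4_spec j hj).1 (o4_spec j hj).2
    fun i => iter_of q1 _ q0
  exact ⟨_, a1, a2, by simpa using this⟩

end Tr

end H25.AW
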