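import Cfsg.Agent.H25.AW6

/-! Alternating sections of linear groups, VII: the central case. -/

set_option autoImplicit false
set_option linter.unusedSectionVars false

namespace H25.AW

open Equiv Equiv.Perm Module
open scoped commutatorElement

variable {k V X Ω : Type*} [Field k] [AddCommGroup V] [Module k V] [FiniteDimensional k V]
  [Group X] [Fintype Ω] [DecidableEq Ω]
variable {ρ : X →* End k V} {φ : X →* Perm Ω} {T : Ω → Ω → Ω → X} [IsAlgClosed k]

theorem small {s g : ℕ} (hg : Gen s g) (hs : (s : k) ≠ 0) {w y : X} (hw : w * y * w⁻¹ = y ^ g)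
    (hy : y ^ s = 1) (h0 : Wr ρ y ≠ ⊥) (hV : finrank k V < 2 * (s - 1)) :
    (∀ b : k, b ^ s = 1 → b ≠ 1 → finrank k ((ρ y).eigenspace b) ≤ 1) ∧
      ∀ U : Submodule k V, (∀ b, b ^ s = 1 → b ≠ 1 → (ρ y).eigenspace b ≤ U) → s - 1 ≤ finrank k U := by
  refine ⟨fun b h1 h2 => ?_, fun U hU => ?_⟩
  · have := mult (ρ := ρ) hg hw h1 h2 (U := ⊤) fun _ _ _ => le_top
    rw [finrank_top] at this
    by_contra e
    have := (Nat.mul_le_mul_left (s - 1) (show 2 ≤ _ from not_le.1 e)).trans this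
    omega
  · obtain ⟨a, h1, h2, h3⟩ := exists_eig hs hy h0
    exact (Nat.le_mul_of_pos_right _ h3).trans (mult hg hw h1 h2 hU)

theorem Wr_neg {x : X} (hx : x ^ 2 = 1) {w : V} (h : w ∈ Wr ρ x) : ρ x w = -w := by
  obtain ⟨v, rfl⟩ := h
  rw [LinearMap.sub_apply, map_sub, rho_mul, ← pow_two, hx, map_one, neg_sub]
  rfl

theorem o3_spec : ∀ j < 2, (∀ i l : Fin 3, ![![1, j, 1 - j], ![j, 1 - j, 1], ![1 - j, 1, j]] i l < 2) ∧
    Function.Injective ![![1, j, 1 - j], ![j, 1 - j, 1], ![1 - j, 1, j]] := by decide +kernel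

theorem klein (h2 : (2 : k) ≠ 0) {a b c t : X} (ha : a ^ 2 = 1) (hb : b ^ 2 = 1) (hc : a * b = c)
    (hab : Commute a b) (h1 : t * a * t⁻¹ = b) (h3 : t * b * t⁻¹ = c) (h4 : t * c * t⁻¹ = a)
    (h0 : Wr ρ a ≠ ⊥) : finrank k (Fx ρ a ⊓ Fx ρ b : Submodule k V) + 3 ≤ finrank k V := by
  have ac : Commute a c := hc ▸ (Commute.refl a).mul_right hab
  have bc : Commute b c := hc ▸ hab.symm.mul_right (Commute.refl b)
  obtain ⟨χ, v, v1, v0, hv⟩ := exists_wt' ![a, b, c] (fun i j => by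
      fin_cases i <;> fin_cases j
      exacts [Commute.refl _, hab, ac, hab.symm, Commute.refl _, bc, ac.symm, bc.symm, Commute.refl _])
    _ h0 fun j v hv => by
      fin_cases j
      exacts [Wr_comm (Commute.refl a) hv, Wr_comm hab.symm hv, Wr_comm ac.symm hv]
  have hp : IsPrimitiveRoot (-1 : k) 2 := prim_of Nat.prime_two (by simp) fun e =>
    h2 (by linear_combination -e)
  obtain ⟨j, hj, e1⟩ := hp.eq_pow_of_pow_eq_one (pow_eq_one_of (t := ρ b) (m := 2)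
    (by rw [← map_pow, hb, map_one]) v0 (hv 1))
  have e0 := Wr_neg ha v1
  have e2 : ρ b v = (-1 : k) ^ j • v := e1 ▸ hv 1
  have q0 : Wt (fun j => ρ (![a, b, c] j)) ⊤ fun l => (-1 : k) ^ ![1, j, 1 - j] l :=
    ⟨v, trivial, v0, fun l => by
      fin_cases l
      · simpa using e0
      · simpa using e2
      · show ρ c v = (-1 : k) ^ (1 - j) • v
        rw [← hc, ← rho_mul, e2, map_smul, e0]
        interval_cases j <;> simp⟩
  have q : ∀ ε : Fin 3 → ℕ, Wt (fun j => ρ (![a, b, c] j)) ⊤ (fun l => (-1 : k) ^ ε l) →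
      Wt (fun j => ρ (![a, b, c] j)) ⊤ fun l => (-1 : k) ^ ![ε 1, ε 2, ε 0] l := fun ε hε => by
    convert wt_conj (u := t) (U := ⊤) (ρ := ρ) (fun _ _ => trivial) ![1, 2, 0] ![1, 1, 1] (fun j => by
      fin_cases j
      · simpa using h1
      · simpa using h3
      · simpa using h4) hε using 2 with i
    fin_cases i <;> simp
  have r : ∀ ε : Fin 3 → ℕ, ε 0 = 1 ∨ ε 1 = 1 → Wt (fun j => ρ (![a, b, c] j)) ⊤ (fun l => (-1 : k) ^ ε l) →
      Wt (fun j => ρ (![a, b, c] j)) (Wr ρ a ⊔ Wr ρ b) fun l => (-1 : k) ^ ε l := by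
    have m1 := hp.pow_ne_one_of_pos_of_lt one_ne_zero one_lt_two
    rintro ε (e | e) ⟨v, -, v0, hv⟩
    · exact ⟨v, Submodule.mem_sup_left (mem_range_of (a := (-1) ^ ε 0) (by rwa [e]) (hv 0)), v0, hv⟩
    · exact ⟨v, Submodule.mem_sup_right (mem_range_of (a := (-1) ^ ε 1) (by rwa [e]) (hv 1)), v0, hv⟩
  have k1 := wt_card (f := fun j => ρ (![a, b, c] j)) (U := Wr ρ a ⊔ Wr ρ b) hp _ (o3_spec j hj).1
    (o3_spec j hj).2 fun i => by
      fin_cases i
      · exact r _ (Or.inl rfl) q0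
      · exact r _ (by interval_cases j <;> simp) (q _ q0)
      · exact r _ (Or.inr rfl) (q _ (q _ q0))
  refine (Nat.add_le_add_left (by simpa using k1) _).trans (add_le_of_inf fun v hv hv' => ?_)
  obtain ⟨w1, m1, w2, m2, rfl⟩ := Submodule.mem_sup.1 hv'
  have b1 := mem_Fx.1 hv.1
  have b2 := mem_Fx.1 hv.2
  have b3 : ρ b (ρ a w2) = ρ a (ρ b w2) := by rw [rho_mul, rho_mul, hab.eq]
  rw [map_add, Wr_neg ha m1] at b1
  rw [map_add, Wr_neg hb m2] at b2
  rw [show ρ a w2 = w1 + w1 + w2 by rw [← sub_eq_zero]; linear_combination (norm := module) b1,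
    Wr_neg hb m2, map_neg, map_add, map_add, Wr_neg hb m2] at b3
  refine (smul_eq_zero.1 (?_ : ((2 : k) * 2) • (w1 + w2) = 0)).resolve_left (mul_ne_zero h2 h2)
  linear_combination (norm := module) b3 - (2 : k) • b2 - b1

/-- a 5-cycle -/
def g5 : Perm (Fin 9) := swap 4 8 * swap 4 7 * swap 4 6 * swap 4 5
/-- a 7-cycle -/
def g7 : Perm (Fin 11) := swap 2 8 * swap 2 7 * swap 2 6 * swap 2 5 * swap 2 4 * swap 2 3

namespace Tr
variable (h : Tr ρ φ T)
include h

theorem nine (h3 : (3 : k) = 0) (h9 : Fintype.card Ω = 9) : 7 ≤ finrank k V := by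
  by_contra hV
  have h5 : (5 : k) ≠ 0 := fun e => one_ne_zero (α := k) (by linear_combination 2 * h3 - e)
  have h2 : (2 : k) ≠ 0 := fun e => one_ne_zero (α := k) (by linear_combination h3 - e)
  obtain ⟨e, -⟩ := exists_emb ([] : List Ω) List.nodup_nil 9 (by simp) h.c9
  have s1 := h.st_via e (γ := g5) Nat.prime_five (by decide +kernel) (Or.inr (by rw [h9]; decide))
  obtain ⟨y, hy⟩ := h.lf_via e g5 (swap 5 8 * swap 6 7) (s := 5) (by decide) (by decide +kernel)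
  obtain ⟨w, hw⟩ := h.lift e (swap 0 1 * (swap 5 7 * swap 5 8 * swap 5 6)) (by decide +kernel)
  obtain ⟨u, hu⟩ := h.lift e (swap 0 1 * swap 2 3) (by decide +kernel)
  have y0 := h.Wr_ne (hy.eq ▸ via_ne e (by decide +kernel))
  obtain ⟨a1, a2⟩ := small gen5 (by simpa) (h.conj_via (by decide) s1 hy hy hw 2 (by decide +kernel))
    hy.pw y0 (by omega)
  obtain ⟨b, b1, b2, b3⟩ := exists_eig (s := 5) (by simpa) hy.pw y0
  obtain ⟨v, v0⟩ := (finrank_pos_iff_exists_ne_zero (R := k)).1 b3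
  have ht := h.eqE e (by decide : D3 (0 : Fin 9) 1 2)
  generalize T (e 0) (e 1) (e 2) = t at ht
  have ty : Commute t y := s1 y t hy.eq (ht ▸ via_comm e (by decide +kernel))
  have uy : Commute u y := s1 y u hy.eq (hu ▸ via_comm e (by decide +kernel))
  have c1 : ∀ b : k, b ^ 5 = 1 → b ≠ 1 → (ρ y).eigenspace b ≤ Fx ρ (t * (u * t⁻¹ * u⁻¹)) :=
    fun b b1 b2 => line_fix (a1 b b1 b2) ty uy
  have c2 : φ (t * (u * t⁻¹ * u⁻¹)) = viaEmbeddingHom e (swap 0 2 * swap 1 3) := by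
    simp only [map_mul φ, map_inv φ, ht, hu]
    rw [← map_inv, ← map_inv, ← map_mul, ← map_mul, ← map_mul]
    exact via_eq e (by decide +kernel)
  generalize t * (u * t⁻¹ * u⁻¹) = a at c1 c2
  have c3 : ∀ b : k, b ^ 5 = 1 → b ≠ 1 → (ρ y).eigenspace b ≤ Fx ρ (t * a * t⁻¹) := fun b b1 b2 v hv => by
    rw [mem_Fx, ← rho_mul, ← rho_mul, mem_Fx.1 (c1 b b1 b2 (eig_inv ty.inv_left hv)), rho_inv']
  have c4 : φ (t * a * t⁻¹) = viaEmbeddingHom e (swap 1 0 * swap 2 3) := by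
    simp only [map_mul φ, map_inv φ, ht, c2]
    rw [← map_inv, ← map_mul, ← map_mul]
    exact via_eq e (by decide +kernel)
  have c5 : ∀ z, (∀ v ∈ (ρ y).eigenspace b, ρ z v = v) → φ z = 1 → z = 1 := fun z h1 h2 =>
    h.fx h2 (fun e => v0 (Subtype.ext e)) (h1 v.1 v.2)
  have d1 : ∀ v ∈ (ρ y).eigenspace b, ρ a v = v := fun v hv => mem_Fx.1 (c1 b b1 b2 hv)
  have d2 : ∀ v ∈ (ρ y).eigenspace b, ρ (t * a * t⁻¹) v = v := fun v hv => mem_Fx.1 (c3 b b1 b2 hv)
  have d3 : ∀ z, (∀ v ∈ (ρ y).eigenspace b, ρ z v = v) → ∀ v ∈ (ρ y).eigenspace b,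
      ρ (t * z * t⁻¹) v = v := fun z hz v hv => by
    rw [← rho_mul, ← rho_mul, hz _ (eig_inv ty.inv_left hv), rho_inv']
  have := a2 _ fun b b1 b2 => le_inf (c1 b b1 b2) (c3 b b1 b2)
  have := klein (ρ := ρ) h2 (a := a) (b := t * a * t⁻¹) (t := t)
    (c5 _ (fun v hv => (stabV ρ v).pow_mem (d1 v hv) 2) (by
      rw [map_pow, c2, ← map_pow]; exact via_one e (by decide +kernel)))
    (c5 _ (fun v hv => (stabV ρ v).pow_mem (d2 v hv) 2) (by
      rw [map_pow, c4, ← map_pow]; exact via_one e (by decide +kernel))) rfl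
    (commutatorElement_eq_one_iff_commute.1 (c5 _ (fun v hv => (stabV ρ v).mul_mem ((stabV ρ v).mul_mem
      ((stabV ρ v).mul_mem (d1 v hv) (d2 v hv)) ((stabV ρ v).inv_mem (d1 v hv)))
        ((stabV ρ v).inv_mem (d2 v hv))) (by
      rw [map_commutatorElement, c2, c4, ← map_commutatorElement]
      exact via_one e (by decide +kernel)))) rfl
    (mul_inv_eq_one.1 (c5 _ (fun v hv => (stabV ρ v).mul_mem (d3 _ d2 v hv)
      ((stabV ρ v).inv_mem ((stabV ρ v).mul_mem (d1 v hv) (d2 v hv)))) (by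
      rw [map_mul, map_inv, map_mul φ a, map_mul φ _ t⁻¹, map_mul φ t (t * a * t⁻¹), map_inv, c4, c2, ht,
        ← map_inv, ← map_mul, ← map_mul, ← map_mul, ← map_inv, ← map_mul]
      exact via_one e (by decide +kernel))))
    (mul_inv_eq_one.1 (c5 _ (fun v hv => (stabV ρ v).mul_mem
      (d3 _ (fun v hv => (stabV ρ v).mul_mem (d1 v hv) (d2 v hv)) v hv)
      ((stabV ρ v).inv_mem (d1 v hv))) (by
      rw [map_mul, map_inv, map_mul φ _ t⁻¹, map_mul φ t (a * _), map_mul φ a, map_inv, c4, c2, ht,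
        ← map_inv, ← map_mul, ← map_mul, ← map_mul, ← map_inv, ← map_mul]
      exact via_one e (by decide +kernel))))
    (h.Wr_ne (c2 ▸ via_ne e (by decide +kernel)))
  omega

theorem eleven (h5 : (5 : k) = 0) (h11 : Fintype.card Ω = 11) (e : Fin 11 ↪ Ω) {a : k} (a1 : a ^ 3 = 1)
    (a2 : a ≠ 1) (a3 : 4 ≤ finrank k ((ρ (T (e 0) (e 1) (e 2))).eigenspace a)) : 10 ≤ finrank k V := by
  by_contra hV
  have h7 : (7 : k) ≠ 0 := fun e => one_ne_zero (α := k) (by linear_combination 3 * h5 - 2 * e)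
  have s1 := h.st_via e (γ := g7) Nat.prime_seven (by decide +kernel) (Or.inr (by rw [h11]; decide))
  obtain ⟨y, hy⟩ := h.lf_via e g7 (swap 3 8 * swap 4 7 * swap 5 6 * swap 0 1) (s := 7) (by decide)
    (by decide +kernel)
  obtain ⟨w, hw⟩ := h.lift e (swap 0 1 * (swap 3 7 * swap 3 6 * swap 3 8 * swap 3 4 * swap 3 5))
    (by decide +kernel)
  obtain ⟨u, hu⟩ := h.lift e (swap 0 9 * swap 1 10) (by decide +kernel)
  obtain ⟨b1, b2⟩ := small gen7 (by simpa) (h.conj_via (by decide) s1 hy hy hw 3 (by decide +kernel))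
    hy.pw (h.Wr_ne (hy.eq ▸ via_ne e (by decide +kernel))) (by omega)
  have ht := h.eqE e (by decide : D3 (0 : Fin 11) 9 1)
  generalize T (e 0) (e 9) (e 1) = t at ht
  have c1 := b2 _ fun b c1 c2 => line_fix (b1 b c1 c2)
    (s1 y t hy.eq (ht ▸ via_comm e (by decide +kernel))) (s1 y u hy.eq (hu ▸ via_comm e (by decide +kernel)))
  have c2 : φ (t * (u * t⁻¹ * u⁻¹)) = viaEmbeddingHom e (swap 0 1 * swap 9 10) := by
    simp only [map_mul φ, map_inv φ, ht, hu]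
    rw [← map_inv, ← map_inv, ← map_mul, ← map_mul, ← map_mul]
    exact via_eq e (by decide +kernel)
  have d : D3 (e 0) (e 1) (e 2) := D3.emb e (by decide)
  have c3 := h.conjE c2 0 1 2 1 0 2 (by decide +kernel)
  rw [← h.rot d.rot.sw, ← h.inv d, inv_eq_of_mul_eq_one_left
    ((pow_succ _ 2).symm.trans (h.lf _ _ _ d).pw)] at c3
  have := add_le_of_inf (A := Fx ρ (t * (u * t⁻¹ * u⁻¹))) (B := (ρ (T (e 0) (e 1) (e 2))).eigenspace a)
    fun v h1 h2 => by
      by_contra v0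
      have c4 := conj_eig c3 (End.mem_eigenspace_iff.1 h2)
      rw [show ρ (t * (u * t⁻¹ * u⁻¹))⁻¹ v = v from (stabV ρ v).inv_mem (mem_Fx.1 h1),
        End.mem_eigenspace_iff.1 h2] at c4
      have c5 := smul_left_injective k v0 c4
      exact a2 (by linear_combination a1 + (1 + a) * c5)
  omega

theorem central (IH : ∀ (W : Submodule k V) (S : Finset Ω) (ρ' : fixS φ S →* End k W), W ≠ ⊤ →
      9 ≤ Fintype.card Ω - S.card → (∀ x, ρ' x = 1 → resS φ S x = 1) →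
      Fintype.card Ω - S.card ≤ finrank k W + 2) :
    Fintype.card Ω ≤ finrank k V + 2 ∧
      ((Fintype.card Ω : k) ≠ 0 → Fintype.card Ω ≤ finrank k V + 1) := by
  by_cases hn : Nat3 ρ T
  · exact h.natural hn
  simp only [Nat3, not_forall] at hn
  obtain ⟨a, b, c, x, y, z, d1, d2, h1, h2, h3, hn⟩ := hn
  have nd : [a, b, c, x, y, z].Nodup := by
    simp only [List.mem_cons, List.not_mem_nil, or_false, not_or] at h1 h2 h3
    simp [d1.1, d1.2.1, d1.2.2, d2.1, d2.2.1, d2.2.2, Ne.symm h1.1, Ne.symm h1.2.1, Ne.symm h1.2.2,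
      Ne.symm h2.1, Ne.symm h2.2.1, Ne.symm h2.2.2, Ne.symm h3.1, Ne.symm h3.2.1, Ne.symm h3.2.2]
  have key : ∀ m, m + 6 ≤ Fintype.card Ω → ∃ e : Fin (m + 6) ↪ Ω, e ⟨0, by omega⟩ = a ∧
      e ⟨1, by omega⟩ = b ∧ e ⟨2, by omega⟩ = c ∧ e ⟨3, by omega⟩ = x ∧ e ⟨4, by omega⟩ = y ∧
      e ⟨5, by omega⟩ = z := fun m hm => by
    obtain ⟨e, he⟩ := exists_emb _ nd (m + 6) (by simp) hm
    exact ⟨e, he _ (by simp), he _ (by simp), he _ (by simp), he _ (by simp), he _ (by simp),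
      he _ (by simp)⟩
  have h9 := h.c9
  have k3 : (3 : k) ≠ 0 → 8 ≤ finrank k V ∧ ∃ l : k, l ^ 3 = 1 ∧ l ≠ 1 ∧
      4 ≤ finrank k ((ρ (T a b c)).eigenspace l) := fun t3 => by
    obtain ⟨e, rfl, rfl, rfl, rfl, rfl, rfl⟩ := key 3 h9
    obtain ⟨l, l1, l2, l3⟩ := h.four t3 e hn
    obtain ⟨u, hu⟩ := h.inv_sq d1
    have := mult (ρ := ρ) gen3 hu l1 l2 (U := ⊤) fun _ _ _ => le_top
    rw [finrank_top] at this
    exact ⟨le_trans (Nat.mul_le_mul_left 2 l3) this, l, l1, l2, l3⟩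
  by_cases r9 : Fintype.card Ω = 9
  · by_cases h3 : (3 : k) = 0
    · have := h.nine h3 r9
      exact ⟨by omega, fun e => (e (by rw [r9]; push_cast; linear_combination 3 * h3)).elim⟩
    · have := (k3 h3).1
      omega
  by_cases h5 : (5 : k) = 0
  · have h3 : (3 : k) ≠ 0 := fun e => one_ne_zero (α := k) (by linear_combination 2 * e - h5)
    obtain ⟨a1, l, l1, l2, l3⟩ := k3 h3
    by_cases r10 : Fintype.card Ω = 10
    · exact ⟨by omega, fun e => (e (by rw [r10]; push_cast; linear_combination 2 * h5)).elim⟩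
    by_cases r11 : Fintype.card Ω = 11
    · obtain ⟨e, rfl, rfl, rfl, -⟩ := key 5 (by omega)
      have := h.eleven h5 r11 e l1 l2 l3
      omega
    obtain ⟨e, rfl, rfl, rfl, rfl, rfl, rfl⟩ := key 3 h9
    obtain ⟨w, hw⟩ := h.inv_sq d1
    obtain ⟨u, hu⟩ := h.lift e (swap 4 5 * swap 6 7) (by decide)
    have e1 := h.eqE e (by decide : D3 (0 : Fin 9) 1 2)
    have e2 : (φ (T (e 0) (e 1) (e 2))).support.card = 3 := by
      rw [e1, via_supp]; decide
    have := h.ind IH gen3 le_rfl (by simpa) (x := T (e 0) (e 1) (e 2)) (y := T (e 3) (e 4) (e 5))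
      (h.eq d1 ▸ h.st3 d1) (h.lf _ _ _ d1).pw (h.lf _ _ _ d2).pw hw
      (e1 ▸ mem_fixS_via (h.eqE e (by decide)) (by decide)) (e1 ▸ mem_fixS_via hu (by decide))
      ((h.conjE hu 3 4 5 3 5 4 (by decide)).trans (h.inv d2).symm) (by omega) hn
    omega
  obtain ⟨e, rfl, rfl, rfl, rfl, rfl, rfl⟩ := key 4 (by omega)
  have s1 := h.st_via e (γ := g1) Nat.prime_five (by decide +kernel) (Or.inl (by omega))
  have s2 := h.st_via e (γ := g2) Nat.prime_five (by decide +kernel) (Or.inl (by omega))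
  obtain ⟨x, hx⟩ := h.lf_via e g1 (swap 6 1 * swap 2 7) (s := 5) (by decide) (by decide +kernel)
  obtain ⟨y, hy⟩ := h.lf_via e g2 (swap 8 4 * swap 5 9) (s := 5) (by decide) (by decide +kernel)
  have n5 : ¬ Wr ρ x ≤ Fx ρ y := fun e' => hn (h.three_of_five s1 s2 hx hy e')
  have := h.sixteen h5 s1 s2 hx hy n5
  by_cases r14 : Fintype.card Ω < 14
  · omega
  obtain ⟨w, hw⟩ := h.lift e (gS * gS) (by decide +kernel)
  obtain ⟨u, hu⟩ := h.lift e (swap 8 4 * swap 5 9) (by decide +kernel)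
  have e2 : (φ x).support.card = 5 := by rw [hx.eq, via_supp]; decide +kernel
  have := h.ind IH gen5 (by omega) (by simpa) (x := x) (y := y) (hx.eq ▸ s1) hx.pw hy.pw
    (h.conj_via (by decide) s1 hx hx hw 2 (by decide +kernel))
    (hx.eq ▸ mem_fixS_via hy.eq (by decide +kernel)) (hx.eq ▸ mem_fixS_via hu (by decide +kernel))
    ((h.conj_via (by decide) s2 hy hy hu 4 (by decide +kernel)).trans
      (eq_inv_of_mul_eq_one_left ((pow_succ y 4).symm.trans hy.pw))) (by omega) n5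
  omega

end Tr

end H25.AW
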