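import Cfsg.Agent.H25.AW7

/-! Alternating sections of linear groups, VIII: reduction to the central case. -/

set_option autoImplicit false
set_option linter.unusedSectionVars false

namespace H25.AW

open Equiv Equiv.Perm Module
open scoped commutatorElement

universe u

/-- the bound in dimension `n` -/
def Bd (n : ℕ) : Prop := ∀ (k V Ω : Type) (X : Type u) [Field k] [IsAlgClosed k] [AddCommGroup V]
  [Module k V] [FiniteDimensional k V] [Group X] [Finite X] [Fintype Ω] [DecidableEq Ω]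
  (ρ : X →* End k V) (φ : X →* Perm Ω), Hy φ → (∀ x, ρ x = 1 → φ x = 1) → 9 ≤ Fintype.card Ω →
  finrank k V = n → Fintype.card Ω ≤ n + 2 ∧ ((Fintype.card Ω : k) ≠ 0 → Fintype.card Ω ≤ n + 1)

theorem sq_lt_pow {r : ℕ} (h : 9 ≤ r) : (r - 1) ^ 2 < 2 ^ (r - 2) := by
  obtain ⟨m, rfl⟩ := Nat.exists_eq_add_of_le' h
  show (m + 8) ^ 2 < 2 ^ (m + 7)
  clear h
  induction m with
  | zero => norm_num
  | succ m ih =>
    have : (m + 1 + 8) ^ 2 ≤ 2 * (m + 8) ^ 2 := by ring_nf; omega
    rw [show m + 1 + 7 = m + 7 + 1 by ring, pow_succ 2]; omega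

theorem sq_lt_pow' {d : ℕ} (h : 5 ≤ d) : d ^ 2 < 2 ^ d := by
  induction d, h using Nat.le_induction with
  | base => norm_num
  | succ m hm ih => rw [pow_succ 2]; nlinarith

theorem mat_rep {X F K : Type*} [Group X] [Field F] [Field K] {d : ℕ} (ι : F →+* K)
    (ψ : X →* Matrix (Fin d) (Fin d) F) :
    ∃ ρ' : X →* End K (Fin d → K), ∀ x, ρ' x = 1 → ψ x = 1 :=
  ⟨(Matrix.toLinAlgEquiv' (R := K)).toRingEquiv.toMonoidHom.comp
    ((ι.mapMatrix (m := Fin d)).toMonoidHom.comp ψ), fun x hx =>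
    Matrix.map_injective ι.injective ((show ι.mapMatrix (ψ x) = 1 from
      (Matrix.toLinAlgEquiv' (R := K)).injective (hx.trans (map_one _).symm)).trans
        (map_one ι.mapMatrix).symm)⟩

variable {k V Ω : Type} {X : Type u} [Field k] [IsAlgClosed k] [AddCommGroup V] [Module k V]
  [FiniteDimensional k V] [Group X] [Finite X] [Fintype Ω] [DecidableEq Ω]
  {ρ : X →* End k V} {φ : X →* Perm Ω}

/-- minimal configuration -/
structure Mn (ρ : X →* End k V) (φ : X →* Perm Ω) : Prop extends Hy φ where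
  c9 : 9 ≤ Fintype.card Ω
  mn : ∀ K : Subgroup X, (∀ g, sign g = 1 → ∃ x ∈ K, φ x = g) → K = ⊤
  inj : ∀ x, ρ x = 1 → x = 1

namespace Mn
variable (h : Mn ρ φ)
include h

theorem nd' (K : Subgroup X) [K.Normal] : (∀ x ∈ K, φ x = 1) ∨ K = ⊤ :=
  (h.nd (by have := h.c9; omega) K).imp_right (h.mn K)

theorem perf' : commutator X = ⊤ := h.mn _ (h.perf (by have := h.c9; omega))

theorem card_alt : 2 * Nat.card (alternatingGroup Ω) = (Fintype.card Ω).factorial := by
  haveI : Nontrivial Ω := Fintype.one_lt_card_iff_nontrivial.1 (by have := h.c9; omega)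
  rw [two_mul_nat_card_alternatingGroup, Nat.card_perm, Nat.card_eq_fintype_card]

theorem card_ge : 181440 ≤ Nat.card (alternatingGroup Ω) := by
  have := h.card_alt
  have := Nat.factorial_le h.c9
  rw [show Nat.factorial 9 = 362880 by decide] at this
  omega

theorem not_comm (hc : ∀ x y : X, Commute x y) : False := by
  have h1 : commutator X = ⊥ := Subgroup.commutator_eq_bot_iff_le_centralizer.2 fun x _ y _ => hc y x
  haveI : Subsingleton X := Subgroup.subsingleton_iff.1 (subsingleton_of_bot_eq_top (h1.symm.trans h.perf'))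
  have := h.card_le (MonoidHom.id X) fun x hx => by rw [show x = 1 from hx, map_one]
  have := h.card_ge
  have := Finite.card_le_one_iff_subsingleton.2 ‹Subsingleton X›
  omega

theorem red (W : Submodule k V) (hW : ∀ x, ∀ v ∈ W, ρ x v ∈ W) :
    (∀ x, Representation.subrepresentation ρ W hW x = 1 → φ x = 1) ∨
      ∀ x, Representation.quotient ρ W hW x = 1 → φ x = 1 := by
  refine (h.nd' (MonoidHom.ker (Representation.subrepresentation ρ W hW))).imp_right fun e1 =>
    (h.nd' (MonoidHom.ker (Representation.quotient ρ W hW))).resolve_right fun e2 => ?_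
  have a1 : ∀ x, W ≤ Fx ρ x := fun x v hv => mem_Fx.2 (congrArg Subtype.val (congrArg
    (fun f : End k W => f ⟨v, hv⟩) (show x ∈ MonoidHom.ker _ from e1 ▸ Subgroup.mem_top x)))
  have a2 : ∀ x, Wr ρ x ≤ W := by
    rintro x _ ⟨v, rfl⟩
    exact (Submodule.Quotient.eq W).1 (congrArg (fun f : End k (V ⧸ W) => f (Submodule.Quotient.mk v))
      (show x ∈ MonoidHom.ker (Representation.quotient ρ W hW) from e2 ▸ Subgroup.mem_top x))
  refine h.not_comm fun x y => commutatorElement_eq_one_iff_commute.1 (h.inj _ ?_)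
  have := comm_of_le ((a2 x).trans (a1 y)) ((a2 y).trans (a1 x))
  rw [← map_mul, ← map_mul] at this
  rw [commutatorElement_def, mul_assoc, ← mul_inv_rev, map_mul, this, ← map_mul, mul_inv_cancel, map_one]

theorem top_ne : (⊤ : Submodule k V) ≠ ⊥ := fun e => h.not_comm fun x y => by
  have : ∀ z : X, z = 1 := fun z => h.inj z (LinearMap.ext fun v => by
    rw [(Submodule.mem_bot k).1 (e ▸ Submodule.mem_top : v ∈ (⊥ : Submodule k V)), map_zero, map_zero])
  rw [this x]; exact Commute.one_left y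

variable (irr : ∀ U : Submodule k V, (∀ x, ∀ v ∈ U, ρ x v ∈ U) → U = ⊥ ∨ U = ⊤)
  (hV : finrank k V < Fintype.card Ω)
include irr hV

theorem scalar (A : Subgroup X) [hA : A.Normal] (hc : ∀ a ∈ A, ∀ b ∈ A, Commute a b) :
    ∃ χ : A → k, ∀ (a : A) v, ρ a v = χ a • v := by
  classical
  obtain ⟨hf, hcard⟩ := finite_wt (fun a : A => ρ a) ⊤
  obtain ⟨χ, hχ⟩ := exists_wt' (fun a : A => (a : X)) (fun a b => hc _ a.2 _ b.2) _ h.top_ne
    fun _ _ _ => Submodule.mem_top (R := k)
  letI : MulAction X {χ // Wt (fun a : A => ρ a) ⊤ χ} :=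
    { smul := fun x χ => ⟨fun a => χ.1 ⟨x⁻¹ * a * x, hA.conj_mem' _ a.2 x⟩, by
        obtain ⟨v, -, v0, hv⟩ := χ.2
        refine ⟨ρ x v, trivial, rho_ne v0 x, fun a => ?_⟩
        rw [← map_smul, ← hv, rho_mul, rho_mul]; congr 2; group⟩
      one_smul := fun χ => Subtype.ext (funext fun a => congrArg χ.1 (Subtype.ext (by simp)))
      mul_smul := fun x y χ => Subtype.ext (funext fun a => congrArg χ.1 (Subtype.ext (by
        show (x * y)⁻¹ * a * (x * y) = y⁻¹ * (x⁻¹ * a * x) * y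
        group))) }
  rcases h.nd' (MulAction.toPermHom X {χ // Wt (fun a : A => ρ a) ⊤ χ}).ker with e | e
  · have a1 := h.card_le _ e
    have a2 := h.card_alt
    rw [Nat.card_perm] at a1
    rw [finrank_top] at hcard
    obtain ⟨r, hr⟩ : ∃ r, Fintype.card Ω = r + 1 := ⟨_, (Nat.succ_pred_eq_of_pos (by omega)).symm⟩
    have a3 := Nat.factorial_le (show _ ≤ r from hcard.trans (by omega))
    have a4 := h.c9
    have a5 := r.factorial_pos
    rw [hr, Nat.factorial_succ] at a2
    nlinarith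
  · have a1 : ∀ (x : X) (a : A), χ ⟨x⁻¹ * a * x, hA.conj_mem' _ a.2 x⟩ = χ a := fun x a =>
      congrFun (congrArg Subtype.val (congrArg (fun f : Perm _ => f ⟨χ, hχ⟩)
        (show x ∈ (MulAction.toPermHom X {χ // Wt (fun a : A => ρ a) ⊤ χ}).ker from
          e ▸ Subgroup.mem_top x))) a
    rcases irr (⨅ a : A, (ρ a).eigenspace (χ a)) fun x v hv => by
      simp only [Submodule.mem_iInf, End.mem_eigenspace_iff] at hv ⊢
      intro a
      rw [← map_smul, ← a1 x a, ← hv, rho_mul, rho_mul]; congr 2; group with e' | e'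
    · obtain ⟨v, -, v0, hv⟩ := hχ
      refine (v0 ((Submodule.mem_bot k).1 (e' ▸ ?_))).elim
      simpa only [Submodule.mem_iInf, End.mem_eigenspace_iff] using hv
    · refine ⟨χ, fun a v => ?_⟩
      have : v ∈ ⨅ a : A, (ρ a).eigenspace (χ a) := e' ▸ Submodule.mem_top
      simp only [Submodule.mem_iInf, End.mem_eigenspace_iff] at this
      exact this a

theorem ab_le (A : Subgroup X) [A.Normal] (hc : ∀ a ∈ A, ∀ b ∈ A, Commute a b) :
    A ≤ Subgroup.center X := fun a ha => Subgroup.mem_center_iff.2 fun x => by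
  obtain ⟨χ, hχ⟩ := h.scalar irr hV A hc
  refine (commutatorElement_eq_one_iff_mul_comm.1 (h.inj _ (LinearMap.ext fun v => ?_)))
  have := hχ ⟨a, ha⟩
  simp only at this
  rw [commutatorElement_def, ← rho_mul, ← rho_mul, ← rho_mul, this, ← map_smul, rho_inv', ← this,
    rho_inv', End.one_apply]

theorem card_le_sq (M : Subgroup X) [M.Normal] (hM : ⁅M, M⁆ ≤ Subgroup.center X) :
    Nat.card (M.map (QuotientGroup.mk' (Subgroup.center X))) ≤ finrank k V ^ 2 := by
  obtain ⟨κ, hκ⟩ := h.scalar irr hV (Subgroup.center X) fun a _ b hb => Subgroup.mem_center_iff.1 hb a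
  choose m h1 h2 using fun y : M.map (QuotientGroup.mk' (Subgroup.center X)) => y.2
  obtain ⟨v, -, v0⟩ := (Submodule.ne_bot_iff _).1 h.top_ne
  haveI := Fintype.ofFinite (M.map (QuotientGroup.mk' (Subgroup.center X)))
  have := card_le_of_wt (U := ⊤)
    (f := fun x : M => LinearMap.mulLeft k (ρ x) ∘ₗ LinearMap.mulRight k (ρ (x : X)⁻¹))
    (fun y x => κ ⟨⁅(x : X), m y⁆, hM (Subgroup.commutator_mem_commutator x.2 (h1 y))⟩)
    (fun y z e => by
      have a1 : (m y)⁻¹ * m z ∈ Subgroup.centralizer (M : Set X) := B2.inv_mul_mem_cent fun u hu => by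
        have b1 := congrFun e ⟨u, hu⟩
        beta_reduce at b1
        have b2 := h.inj (⁅u, m y⁆⁻¹ * ⁅u, m z⁆) (LinearMap.ext fun w => by
          rw [← rho_mul, hκ ⟨⁅u, m z⁆, hM (Subgroup.commutator_mem_commutator hu (h1 z))⟩, ← b1,
            ← hκ, rho_inv, End.one_apply])
        rw [← commutatorElement_inv u, ← commutatorElement_inv u, inv_mul_eq_one.1 b2]
      have a2 := h.ab_le irr hV (M ⊓ Subgroup.centralizer (M : Set X))
        (fun a ha b hb => hb.2 a ha.1) ⟨M.mul_mem (M.inv_mem (h1 y)) (h1 z), a1⟩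
      exact Subtype.ext (by rw [← h2, ← h2]; exact QuotientGroup.eq.2 a2))
    fun y => ⟨ρ (m y), trivial, fun e => rho_ne v0 (m y) (by rw [e, LinearMap.zero_apply]), fun x => by
      ext w
      rw [LinearMap.smul_apply, ← hκ]
      simp only [LinearMap.comp_apply, LinearMap.mulLeft_apply, LinearMap.mulRight_apply,
        End.mul_apply, rho_mul]
      congr 2
      rw [commutatorElement_def]; group⟩
  rwa [finrank_top, finrank_linearMap, ← pow_two, ← Nat.card_eq_fintype_card] at this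

theorem ker_le (IH : ∀ m < finrank k V, Bd.{u} m) : φ.ker ≤ Subgroup.center X := by
  by_contra h0
  obtain ⟨M, ⟨hM, m1, m2⟩, m3⟩ := WellFoundedLT.exists_minimal inferInstance
    {M : Subgroup X | M.Normal ∧ M ≤ φ.ker ∧ ¬ M ≤ Subgroup.center X} ⟨_, inferInstance, le_rfl, h0⟩
  have m4 : ∀ L : Subgroup X, L.Normal → L ≤ M → L ≤ Subgroup.center X ∨ M ≤ L := fun L a b =>
    or_iff_not_imp_left.2 fun e => m3 ⟨a, b.trans m1, e⟩ b
  have f1 : M ≤ frattini X := m1.trans (le_iInf₂ fun H hH => by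
    by_contra e
    refine hH.1 (h.mn H fun g hg => ?_)
    obtain ⟨x, rfl⟩ := h.sj g hg
    have : x ∈ ((H ⊔ φ.ker : Subgroup X) : Set X) :=
      (hH.2 _ (left_lt_sup.2 e)).symm ▸ Subgroup.mem_top x
    rw [Subgroup.mul_normal] at this
    obtain ⟨a, ha, b, hb, rfl⟩ := this
    exact ⟨a, ha, by rw [map_mul, show φ b = 1 from hb, mul_one]⟩)
  haveI := frattini_nilpotent (G := X)
  haveI : Group.IsSolvable M :=
    Group.isSolvable_of_isSolvable_injective (Subgroup.inclusion_injective f1)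
  haveI : Nontrivial M := (Subgroup.nontrivial_iff_ne_bot M).2 fun e => m2 (e ▸ bot_le)
  have c1 : ⁅M, M⁆ ≤ Subgroup.center X :=
    (m4 _ inferInstance (Subgroup.commutator_le_left M M)).resolve_right fun e => by
      have := Group.IsSolvable.commutator_lt_top_of_nontrivial M
      rw [← Subgroup.map_subtype_lt_map_subtype, Subgroup.map_subtype_commutator,
        ← MonoidHom.range_eq_map, Subgroup.range_subtype] at this
      exact this.not_ge e
  have c2 := h.card_le_sq irr hV M c1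
  set π := QuotientGroup.mk' (Subgroup.center X)
  have c3 : ∀ a ∈ M, ∀ b ∈ M, Commute (π a) (π b) := fun a ha b hb =>
    commutatorElement_eq_one_iff_commute.1 (by
      rw [← map_commutatorElement]
      exact (QuotientGroup.eq_one_iff _).2 (c1 (Subgroup.commutator_mem_commutator ha hb)))
  haveI : Nontrivial (M.map π) := (Subgroup.nontrivial_iff_ne_bot _).2 fun e => m2 (by
    rwa [Subgroup.map_eq_bot_iff, QuotientGroup.ker_mk'] at e)
  obtain ⟨s, hs, hd⟩ := Nat.exists_prime_and_dvd (Finite.one_lt_card (α := M.map π)).ne'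
  haveI := Fact.mk hs
  obtain ⟨⟨_, y, hy, rfl⟩, ho⟩ := exists_prime_orderOf_dvd_card' s hd
  let L : Subgroup X :=
    { carrier := {x | x ∈ M ∧ π x ^ s = 1}
      one_mem' := ⟨M.one_mem, by simp⟩
      mul_mem' := fun {a b} ha hb => ⟨M.mul_mem ha.1 hb.1, by
        rw [map_mul, (c3 a ha.1 b hb.1).mul_pow, ha.2, hb.2, mul_one]⟩
      inv_mem' := fun {a} ha => ⟨M.inv_mem ha.1, by rw [map_inv, inv_pow, ha.2, inv_one]⟩ }
  have c4 : M ≤ L := (m4 L ⟨fun a ha g => ⟨hM.conj_mem a ha.1 g, by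
      rw [map_mul, map_mul, map_inv, conj_pow, ha.2, mul_one, mul_inv_cancel]⟩⟩
    fun a ha => ha.1).resolve_left fun e => by
      rw [← Subgroup.orderOf_coe] at ho
      have a1 : π y = 1 := (QuotientGroup.eq_one_iff _).2 (e ⟨hy, ho ▸ pow_orderOf_eq_one _⟩)
      exact hs.one_lt.ne ((orderOf_eq_one_iff.2 a1).symm.trans ho)
  haveI := hM.map π (QuotientGroup.mk'_surjective _)
  have c5 : Cfsg.IsElementaryAbelian s (M.map π) := by
    refine ⟨⟨⟨?_⟩⟩, ?_⟩
    · rintro ⟨_, a, ha, rfl⟩ ⟨_, b, hb, rfl⟩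
      exact Subtype.ext (c3 a ha b hb)
    · rintro _ ⟨a, ha, rfl⟩
      exact (c4 ha).2
  obtain ⟨d, hd'⟩ := IsPGroup.iff_card.1 (show IsPGroup s (M.map π) from
    fun a => ⟨1, Subtype.ext (by simpa using c5.2 a a.2)⟩)
  obtain ⟨ψ, hψ⟩ := H9.exists_matrix_rep (M.map π) c5 hd'
  rcases h.nd' (ψ.comp π).ker with e | e
  · have a0 : 2 ^ d ≤ s ^ d := Nat.pow_le_pow_left hs.two_le d
    by_cases hdn : d < finrank k V
    · obtain ⟨ρ', hρ'⟩ := mat_rep (algebraMap (ZMod s) (AlgebraicClosure (ZMod s))) (ψ.comp π)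
      have a1 := (IH d hdn _ _ Ω X ρ' φ h.toHy (fun x hx => e x (hρ' x hx)) h.c9 (by simp)).1
      have a2 := sq_lt_pow h.c9
      have a3 : 2 ^ (Fintype.card Ω - 2) ≤ 2 ^ d := Nat.pow_le_pow_right two_pos (by omega)
      have a4 : finrank k V ^ 2 ≤ (Fintype.card Ω - 1) ^ 2 := Nat.pow_le_pow_left (by omega) 2
      omega
    · have a1 : finrank k V ^ 2 ≤ d ^ 2 := Nat.pow_le_pow_left (by omega) 2
      have a2 : d ≤ 4 := by
        by_contra e'
        have := sq_lt_pow' (d := d) (by omega)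
        omega
      have a3 := h.card_le _ e
      have a4 := h.card_ge
      have a5 : d ^ 2 ≤ 4 ^ 2 := Nat.pow_le_pow_left a2 2
      have a6 : (s ^ d) ^ d ≤ 16 ^ 4 :=
        (Nat.pow_le_pow_left (by omega) d).trans (Nat.pow_le_pow_right (by norm_num) a2)
      rw [show Nat.card (Matrix (Fin d) (Fin d) (ZMod s)) = (s ^ d) ^ d by
        simp [Matrix, Nat.card_fun]] at a3
      omega
  · have a1 : ⁅⊤, M⁆ ≤ Subgroup.center X := Subgroup.commutator_le.2 fun x _ a ha =>
      (QuotientGroup.eq_one_iff _).1 (show π _ = 1 by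
        rw [map_commutatorElement, commutatorElement_eq_one_iff_mul_comm]
        exact ((hψ (π x)).1 (show x ∈ (ψ.comp π).ker from e ▸ Subgroup.mem_top x) _
          (Subgroup.mem_map_of_mem π ha)).symm)
    have a2 : ⁅⁅⊤, M⁆, (⊤ : Subgroup X)⁆ = ⊥ := Subgroup.commutator_eq_bot_iff_le_centralizer.2
      (a1.trans (Subgroup.center_le_centralizer _))
    have a3 := Subgroup.commutator_commutator_eq_bot_of_rotate a2 (by
      rwa [Subgroup.commutator_comm M])
    rw [← commutator_def, h.perf', Subgroup.commutator_comm,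
      Subgroup.commutator_eq_bot_iff_le_centralizer, Subgroup.coe_top, Subgroup.centralizer_univ] at a3
    exact m2 a3

end Mn

theorem Mn.bd (h : Mn ρ φ) (IH : ∀ m < finrank k V, Bd.{u} m) :
    Fintype.card Ω ≤ finrank k V + 2 ∧
      ((Fintype.card Ω : k) ≠ 0 → Fintype.card Ω ≤ finrank k V + 1) := by
  by_cases irr : ∀ U : Submodule k V, (∀ x, ∀ v ∈ U, ρ x v ∈ U) → U = ⊥ ∨ U = ⊤
  swap
  · push Not at irr
    obtain ⟨W, hW, h0, h1⟩ := irr
    have a1 := Submodule.finrank_lt h1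
    have a2 := W.finrank_quotient_add_finrank
    have a3 := (Submodule.one_le_finrank_iff).2 h0
    rcases h.red W hW with e | e
    · have := IH _ a1 k W Ω X _ φ h.toHy e h.c9 rfl
      exact ⟨by omega, fun e => by have := this.2 e; omega⟩
    · have := IH _ (show finrank k (V ⧸ W) < _ by omega) k _ Ω X _ φ h.toHy e h.c9 rfl
      exact ⟨by omega, fun e => by have := this.2 e; omega⟩
  by_cases hV : finrank k V < Fintype.card Ω
  swap; · exact ⟨by omega, fun _ => by omega⟩
  have c : Ce ρ φ := ⟨h.toHy, fun z hz x =>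
    (Subgroup.mem_center_iff.1 (h.ker_le irr hV IH hz) x).symm, irr, h.inj, h.c9⟩
  obtain ⟨T, hT⟩ := c.exists_T
  refine Tr.central ⟨c, hT⟩ fun W S ρ' hW h9 hk => ?_
  rw [← card_compl'] at h9 ⊢
  exact (IH _ (Submodule.finrank_lt hW) k W _ _ ρ' _ (h.toHy.res S) hk h9 rfl).1

theorem bd (n : ℕ) : Bd.{u} n := by
  induction n using Nat.strong_induction_on with
  | _ n IH =>
  intro k V Ω X _ _ _ _ _ _ _ _ _ ρ φ h hk h9 hn
  induction hX : Nat.card X using Nat.strong_induction_on generalizing X with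
  | _ N ih =>
  subst hX
  by_cases h1 : ∀ K : Subgroup X, (∀ g, sign g = 1 → ∃ x ∈ K, φ x = g) → K = ⊤
  swap
  · push Not at h1
    obtain ⟨K, a1, a2⟩ := h1
    exact ih _ (by
      rw [← Subgroup.card_top (G := X)]
      exact Set.Finite.card_lt_card (Set.toFinite _) (lt_top_iff_ne_top.2 a2 : K < ⊤)) K
      (ρ.comp K.subtype) (φ.comp K.subtype) ⟨fun x => h.sg x, fun g hg => by
        obtain ⟨x, hx, e⟩ := a1 g hg
        exact ⟨⟨x, hx⟩, e⟩⟩ (fun x => hk x) rfl
  by_cases h2 : ρ.ker = ⊥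
  · subst hn
    exact Mn.bd ⟨h, h9, h1, fun x hx => Subgroup.mem_bot.1 (h2 ▸ (show x ∈ ρ.ker from hx))⟩ IH
  refine ih _ ?_ (X ⧸ ρ.ker) (QuotientGroup.lift _ ρ le_rfl) (QuotientGroup.lift _ φ hk)
    ⟨fun x => ?_, fun g hg => ?_⟩ (fun x => ?_) rfl
  · have := ρ.ker.card_eq_card_quotient_mul_card_subgroup
    have := (Subgroup.one_lt_card_iff_ne_bot _).2 h2
    have := Nat.card_pos (α := X ⧸ ρ.ker)
    nlinarith
  · obtain ⟨x, rfl⟩ := QuotientGroup.mk_surjective x
    exact h.sg x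
  · obtain ⟨x, hx⟩ := h.sj g hg
    exact ⟨x, hx⟩
  · obtain ⟨x, rfl⟩ := QuotientGroup.mk_surjective x
    exact hk x

end H25.AW
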