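import Cfsg.Agent.H25.Odd4
import Cfsg.Agent.H12.Syl
import Cfsg.Agent.H7.PGrp
import Cfsg.Agent.S0711
import Cfsg.Agent.S0743

/-! In a `k`-transitive group, `k ≥ 4`, some `(k+1)`-set carries the alternating group. -/

set_option autoImplicit false

namespace H25

open MulAction Subgroup SubMulAction Equiv

universe v

variable {G α : Type*} [Group G] [MulAction G α]

/-- every even permutation of the tuple `x` is induced by `G` -/
def AltOn (G : Type*) {α : Type*} [Group G] [MulAction G α] {m : ℕ} (x : Fin m → α) : Prop :=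
  ∀ σ : Perm (Fin m), Perm.sign σ = 1 → ∃ g : G, ∀ i, g • x i = x (σ i)

theorem symOn_of_swaps {ι : Type*} [Finite ι] [DecidableEq ι] (x : ι → α)
    (h : ∀ i j, i ≠ j → ∃ g : G, g • x i = x j ∧ g • x j = x i ∧
      ∀ l, l ≠ i → l ≠ j → g • x l = x l) (σ : Perm ι) : ∃ g : G, ∀ i, g • x i = x (σ i) := by
  induction σ using Perm.swap_induction_on with
  | one => exact ⟨1, by simp⟩
  | swap_mul σ i j hij ih =>
    obtain ⟨g, hg⟩ := ih
    obtain ⟨k, k1, k2, k3⟩ := h i j hij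
    refine ⟨k * g, fun l => ?_⟩
    rw [mul_smul, hg, Perm.mul_apply, swap_apply_def]
    split_ifs with h1 h2
    · rw [h1, k1]
    · rw [h2, k2]
    · exact k3 _ h1 h2

theorem exists_altOn_of_swaps {m : ℕ} (Δ : Finset α) (hΔ : Δ.card = m)
    (h : ∀ a ∈ Δ, ∀ b ∈ Δ, a ≠ b → ∃ g : G, g • a = b ∧ g • b = a ∧
      ∀ y ∈ Δ, y ≠ a → y ≠ b → g • y = y) :
    ∃ x : Fin m → α, Function.Injective x ∧ AltOn G x := by
  subst hΔ
  have hx : Function.Injective fun i => (Δ.equivFin.symm i : α) :=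
    Subtype.val_injective.comp Δ.equivFin.symm.injective
  refine ⟨_, hx, fun σ _ => symOn_of_swaps _ (fun i j hij => ?_) σ⟩
  obtain ⟨g, g1, g2, g3⟩ := h _ (Δ.equivFin.symm i).2 _ (Δ.equivFin.symm j).2 (hx.ne hij)
  exact ⟨g, g1, g2, fun l a b => g3 _ (Δ.equivFin.symm l).2 (hx.ne a) (hx.ne b)⟩

theorem altOn_of_alt_le [Fintype α] [DecidableEq α] {G : Subgroup (Perm α)}
    (h : alternatingGroup α ≤ G) {m : ℕ} {x : Fin m → α} (hx : Function.Injective x) : AltOn G x := by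
  classical
  intro σ hσ
  refine ⟨⟨σ.extendDomain (Equiv.ofInjective x hx), h (by
    rw [Perm.mem_alternatingGroup, Perm.sign_extendDomain, hσ])⟩, fun i => ?_⟩
  exact Perm.extendDomain_apply_image σ (Equiv.ofInjective x hx) i

theorem exists_commuting_invol [Finite G] {u : G} (hu : u * u = 1) {H : Subgroup G}
    (hn : u ∈ normalizer (H : Set G)) {t : G} (ht : t ∈ H) (ht2 : t * t = 1) (ht1 : t ≠ 1) :
    ∃ z ∈ H, z * z = 1 ∧ z ≠ 1 ∧ Commute z u := by
  have : Fact (Nat.Prime 2) := ⟨Nat.prime_two⟩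
  obtain ⟨T, hT, huT⟩ := H12.exists_sylIn_ge (p := 2) (R := zpowers u) (H := zpowers u ⊔ H)
    (H6.isPGroup_zpowers (k := 1) (by rw [pow_one, sq, hu])) le_sup_left
  have hN : zpowers u ⊔ H ≤ normalizer (H : Set G) := sup_le (zpowers_le.2 hn) le_normalizer
  have h1 := hT.inf_of_le hN le_sup_right
  have h2 : T ⊓ H ≠ ⊥ := fun h => by
    have := h1.card_le (R := zpowers t) (H6.isPGroup_zpowers (k := 1) (by rw [pow_one, sq, ht2]))
      (zpowers_le.2 ht)
    rw [h, card_bot, Nat.card_zpowers, H6.ord2_of ht2 ht1] at this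
    omega
  have h3 := H7.inf_centralizer_ne_bot (P := T) hT.pgrp h1.pgrp
    (H1.le_normalizer_inf le_normalizer (hT.le.trans hN)) h2
  obtain ⟨z, hz⟩ := exists_prime_orderOf_dvd_card' (G := (T ⊓ H ⊓ centralizer (T : Set G) : Subgroup G))
    2 (by
      obtain ⟨n, hn0, hn⟩ := (h1.pgrp.to_inf_left (K := centralizer (T : Set G))).nontrivial_iff_card.1
        ((nontrivial_iff_ne_bot _).2 h3)
      exact hn ▸ dvd_pow_self 2 hn0.ne')
  rw [← orderOf_coe] at hz
  exact ⟨z, z.2.1.2, H6.ord2_mul_self hz, H6.ord2_ne_one hz, (z.2.2 u (huT (mem_zpowers u))).symm⟩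

theorem swaps_of_even [Finite G] [Finite α] {k : ℕ} (hk : IsMultiplyPretransitive G α k)
    (hk2 : 2 ≤ k) (hkn : k ≤ Nat.card α)
    (htriv : ∀ s : Finset α, s.card = k + 1 → ∀ g : G, (∀ x ∈ s, g • x = x) → g = 1)
    (Γ₀ : Finset α) (h0 : Γ₀.card = k) {t : G} (ht : ∀ x ∈ Γ₀, t • x = x) (ht2 : t * t = 1)
    (ht1 : t ≠ 1) (Δ : Finset α) (hΔ : Δ.card = k + 1) : ∀ a ∈ Δ, ∀ b ∈ Δ, a ≠ b →
      ∃ g : G, g • a = b ∧ g • b = a ∧ ∀ y ∈ Δ, y ≠ a → y ≠ b → g • y = y := by
  classical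
  have hev : ∀ Γ : Finset α, Γ.card = k → ∃ u : G, (∀ x ∈ Γ, u • x = x) ∧ u * u = 1 ∧ u ≠ 1 := by
    intro Γ hΓ
    let e : Γ ≃ Γ₀ := Finset.equivOfCardEq (hΓ.trans h0.symm)
    obtain ⟨g, hg⟩ := exists_smul_eq_of_multi_card_eq hk (ι := Γ) (by simpa using hΓ)
      (fun i => (e i : α)) Subtype.val (Subtype.val_injective.comp e.injective) Subtype.val_injective
    refine ⟨g * t * g⁻¹, fun x hx => ?_, by rw [conj_mul, ht2, mul_one, mul_inv_cancel],
      fun h => ht1 (conj_eq_one_iff.1 h)⟩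
    have := hg ⟨x, hx⟩
    simp only at this
    rw [mul_smul, mul_smul, inv_smul_eq_iff.2 this.symm, ht _ (e _).2, this]
  intro a ha b hb hab
  obtain ⟨x, hx, hx'⟩ := Finset.exists_mem_notMem_of_card_lt_card (s := {a, b}) (t := Δ)
    (Finset.card_le_two.trans_lt (by omega))
  simp only [Finset.mem_insert, Finset.mem_singleton, not_or] at hx'
  have hΓ : (Δ.erase x).card = k := by rw [Finset.card_erase_of_mem hx, hΔ]; rfl
  obtain ⟨u, hu, hu2, hu1⟩ := hev _ hΓ
  have hfix : ∀ y, u • y = y → y ∈ Δ.erase x := fun y hy => by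
    by_contra h
    exact hu1 (htriv (insert y (Δ.erase x)) (by rw [Finset.card_insert_of_notMem h, hΓ]) u
      (by simpa [hy] using hu))
  have hux : u • x ∉ Δ := fun h => by
    by_cases e : u • x = x
    · simpa using hfix x e
    · exact e (smul_left_cancel u (hu _ (Finset.mem_erase.2 ⟨e, h⟩)))
  set Γ := insert (u • x) ((Δ.erase a).erase b) with hΓ'
  have hb' : b ∈ Δ.erase a := Finset.mem_erase.2 ⟨hab.symm, hb⟩
  have cΓ : Γ.card = k := by
    rw [Finset.card_insert_of_notMem (by simp [hux]), Finset.card_erase_of_mem hb',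
      Finset.card_erase_of_mem ha]
    omega
  have mΓ : ∀ y ∈ Γ, u • y ∈ Γ := fun y hy => by
    rcases Finset.mem_insert.1 hy with rfl | hy'
    · rw [← mul_smul, hu2, one_smul]; simp [hΓ', hx, hx']
    · by_cases e : y = x
      · simp [hΓ', e]
      · rwa [hu y (Finset.mem_erase.2 ⟨e, Finset.mem_of_mem_erase (Finset.mem_of_mem_erase hy')⟩)]
  obtain ⟨t', ht', ht2', ht1'⟩ := hev Γ cΓ
  have hinv : u⁻¹ = u := inv_eq_of_mul_eq_one_right hu2
  obtain ⟨z, hz, hz2, hz1, hzu⟩ := exists_commuting_invol hu2 (H := fixingSubgroup G (Γ : Set α))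
    (mem_normalizer_fintype fun h hh => (mem_fixingSubgroup_iff _).2 fun y hy => by
      rw [mul_smul, mul_smul, hinv, (mem_fixingSubgroup_iff _).1 hh _ (mΓ y hy), ← mul_smul, hu2,
        one_smul]) ((mem_fixingSubgroup_iff _).2 ht') ht2' ht1'
  replace hz := (mem_fixingSubgroup_iff _).1 hz
  have hz' : ∀ y ∈ Δ, y ≠ a → y ≠ b → z • y = y := fun y h1 h2 h3 => hz y (by simp [hΓ', *])
  have hza : z • a = b := by
    have h1 := Finset.mem_of_mem_erase (hfix _ (smul_fix_of_commute hzu (hu a (by simp [ha, Ne.symm hx'.1]))))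
    by_contra h2
    by_cases h3 : z • a = a
    · refine hz1 (htriv (insert a Γ) (by
        rw [Finset.card_insert_of_notMem, cΓ]
        simp only [hΓ', Finset.mem_insert, not_or]
        exact ⟨fun e => hux (e ▸ ha), by simp⟩) z ?_)
      simpa [h3] using hz
    · exact h3 (smul_left_cancel z (hz' _ h1 h3 h2))
  exact ⟨z, hza, by rw [← hza, ← mul_smul, hz2, one_smul], hz'⟩

theorem card_ofFixing [Finite α] (Λ : Finset α) :
    Nat.card (ofFixingSubgroup G (Λ : Set α)) + Λ.card = Nat.card α := by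
  rw [← Set.ncard_add_ncard_compl (Λ : Set α), Set.ncard_coe_finset, add_comm]
  rfl

theorem exists_finset_fix (Λ : Finset α) (t : Finset (ofFixingSubgroup G (Λ : Set α))) :
    ∃ s : Finset α, s.card = Λ.card + t.card ∧ ∀ g : fixingSubgroup G (Λ : Set α),
      (∀ x ∈ t, g • x = x) → ∀ x ∈ s, (g : G) • x = x := by
  refine ⟨Λ.disjUnion (t.map (Function.Embedding.subtype _)) ?_,
    by rw [Finset.card_disjUnion, Finset.card_map], fun g hg x hx => ?_⟩
  · rw [Finset.disjoint_right]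
    intro x hx
    obtain ⟨y, -, rfl⟩ := Finset.mem_map.1 hx
    exact y.2
  · rcases Finset.mem_disjUnion.1 hx with hx | hx
    · exact (mem_fixingSubgroup_iff _).1 g.2 x hx
    · obtain ⟨y, hy, rfl⟩ := Finset.mem_map.1 hx
      exact congrArg Subtype.val (hg y hy)

theorem D4.card [DecidableEq α] {p q r s : α} (h : D4 p q r s) :
    ({p, q, r, s} : Finset α).card = 4 := Finset.card_eq_four.2 ⟨p, q, r, s, h.1, h.2.1, h.2.2.1,
      h.2.2.2.1, h.2.2.2.2.1, h.2.2.2.2.2, rfl⟩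

theorem odd4_ofFixing (Λ : Finset α)
    (hodd : ∀ s : Finset α, s.card = Λ.card + 4 → ∀ g : G, (∀ x ∈ s, g • x = x) → Odd (orderOf g)) :
    Odd4 (fixingSubgroup G (Λ : Set α)) (ofFixingSubgroup G (Λ : Set α)) := by
  classical
  intro p q r s h g hg
  obtain ⟨t, h1, h2⟩ := exists_finset_fix Λ {p, q, r, s}
  rw [← orderOf_coe]
  exact hodd t (by rw [h1, h.card]) g (h2 g (by simpa using hg))

/-- `x` is fixed by an involution inducing the transposition `(p q)` on `Γ`. -/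
def TFix' (G : Type*) {α : Type*} [Group G] [MulAction G α] (Γ : Finset α) (p q x : α) : Prop :=
  ∃ u : G, u * u = 1 ∧ u • p = q ∧ u • q = p ∧ (∀ y ∈ Γ, y ≠ p → y ≠ q → u • y = y) ∧ u • x = x

theorem swaps_of_odd [Finite α] {k : ℕ} (hk : IsMultiplyPretransitive G α k) (hk4 : 4 ≤ k)
    (hkn : k + 4 ≤ Nat.card α) (hpar : Odd (Nat.card α - k))
    (hodd : ∀ s : Finset α, s.card = k → ∀ g : G, (∀ x ∈ s, g • x = x) → Odd (orderOf g)) :
    ∃ Δ : Finset α, Δ.card = k + 1 ∧ ∀ a ∈ Δ, ∀ b ∈ Δ, a ≠ b →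
      ∃ g : G, g • a = b ∧ g • b = a ∧ ∀ y ∈ Δ, y ≠ a → y ≠ b → g • y = y := by
  classical
  have main : ∀ Γ : Finset α, Γ.card = k → ∀ p ∈ Γ, ∀ q ∈ Γ, ∀ r ∈ Γ, p ≠ q → p ≠ r → q ≠ r →
      (∃ x ∉ Γ, TFix' G Γ p q x) ∧ ∀ x ∉ Γ, TFix' G Γ p q x → TFix' G Γ p r x := by
    intro Γ hΓ p hp q hq r hr h1 h2 h3
    obtain ⟨s, hs, hs'⟩ := Finset.exists_mem_notMem_of_card_lt_card (s := {p, q, r}) (t := Γ)
      (Finset.card_le_three.trans_lt (by omega))
    simp only [Finset.mem_insert, Finset.mem_singleton, not_or] at hs'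
    have hd : D4 p q r s := ⟨h1, h2, Ne.symm hs'.1, h3, Ne.symm hs'.2.1, Ne.symm hs'.2.2⟩
    set Λ := Γ \ {p, q, r, s} with hΛ
    have cΛ : Λ.card + 4 = k := by
      rw [← hd.card, Finset.card_sdiff_add_card_eq_card (by simp [Finset.insert_subset_iff, *]), hΓ]
    have h4 := ofFixingSubgroup.isMultiplyPretransitive G (m := 4) (n := k) (Λ : Set α) (by simpa)
    have ho := odd4_ofFixing Λ (cΛ ▸ hodd)
    have hc := card_ofFixing (G := G) Λ
    have hpar' : Odd (Nat.card (ofFixingSubgroup G (Λ : Set α))) := by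
      obtain ⟨m, hm⟩ := hpar
      exact ⟨m + 2, by omega⟩
    let p' : ofFixingSubgroup G (Λ : Set α) := ⟨p, by simp [hΛ, mem_ofFixingSubgroup_iff]⟩
    let q' : ofFixingSubgroup G (Λ : Set α) := ⟨q, by simp [hΛ, mem_ofFixingSubgroup_iff]⟩
    let r' : ofFixingSubgroup G (Λ : Set α) := ⟨r, by simp [hΛ, mem_ofFixingSubgroup_iff]⟩
    let s' : ofFixingSubgroup G (Λ : Set α) := ⟨s, by simp [hΛ, mem_ofFixingSubgroup_iff]⟩
    have hd' : D4 p' q' r' s' := by simpa [D4, p', q', r', s'] using hd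
    have conv : ∀ (a b c d x : ofFixingSubgroup G (Λ : Set α)), ({(a : α), b.1, c.1, d.1} : Finset α) =
        {p, q, r, s} → TFix (fixingSubgroup G (Λ : Set α)) a b c d x → TFix' G Γ a b x := by
      rintro a b c d x e ⟨u, hu, u1, u2, u3, u4, u5⟩
      refine ⟨u, congrArg Subtype.val hu, congrArg Subtype.val u1, congrArg Subtype.val u2,
        fun y hy y1 y2 => ?_, congrArg Subtype.val u5⟩
      by_cases h : y ∈ Λ
      · exact (mem_fixingSubgroup_iff _).1 u.2 y h
      · rw [hΛ, ← e] at h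
        simp only [Finset.mem_sdiff, hy, Finset.mem_insert, y1, y2, Finset.mem_singleton, false_or,
          true_and, not_not] at h
        rcases h with rfl | rfl
        · exact congrArg Subtype.val u3
        · exact congrArg Subtype.val u4
    constructor
    · obtain ⟨x, x1, x2, x3, x4, hx⟩ := exists_tFix h4 ho hpar' hd'
      refine ⟨x, fun h => x.2 (Finset.mem_sdiff.2 ⟨h, ?_⟩), conv _ _ _ _ _ rfl hx⟩
      simpa [p', q', r', s', Subtype.ext_iff] using And.intro x1 (And.intro x2 (And.intro x3 x4))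
    · rintro x hx ⟨u, hu, u1, u2, u3, u5⟩
      let x' : ofFixingSubgroup G (Λ : Set α) := ⟨x, by simp [hΛ, mem_ofFixingSubgroup_iff, hx]⟩
      have ne : ∀ y : ofFixingSubgroup G (Λ : Set α), y.1 ∈ Γ → x' ≠ y := fun y hy e =>
        hx (by rwa [← e] at hy)
      refine conv p' r' q' s' x' (by ext; simp [p', q', r', s']; tauto)
        (TFix.swap23 h4 ho hpar' (by omega) hd' (ne _ hp) (ne _ hq) (ne _ hr) (ne _ hs)
          ⟨⟨u, (mem_fixingSubgroup_iff _).2 fun y hy => ?_⟩, Subtype.ext hu, Subtype.ext u1,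
            Subtype.ext u2, Subtype.ext (u3 r hr h2.symm h3.symm),
            Subtype.ext (u3 s hs hs'.1 hs'.2.1), Subtype.ext u5⟩)
      simp only [hΛ, Finset.coe_sdiff, Set.mem_diff, Finset.mem_coe, Finset.mem_insert, not_or] at hy
      exact u3 y hy.1 hy.2.1 hy.2.2.1
  have symm : ∀ {Γ : Finset α} {p q x : α}, TFix' G Γ p q x → TFix' G Γ q p x :=
    fun ⟨u, hu, u1, u2, u3, u4⟩ => ⟨u, hu, u2, u1, fun y a b c => u3 y a c b, u4⟩
  have move : ∀ Γ : Finset α, Γ.card = k → ∀ p ∈ Γ, ∀ q ∈ Γ, ∀ r ∈ Γ, p ≠ q → p ≠ r → ∀ x ∉ Γ,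
      TFix' G Γ p q x → TFix' G Γ p r x := fun Γ hΓ p hp q hq r hr h1 h2 x hx h => by
    by_cases h3 : q = r
    · exact h3 ▸ h
    · exact (main Γ hΓ p hp q hq r hr h1 h2 h3).2 x hx h
  have := Fintype.ofFinite α
  obtain ⟨Γ, -, hΓ⟩ := Finset.exists_subset_card_eq (s := (Finset.univ : Finset α)) (n := k)
    (by rw [Finset.card_univ, ← Nat.card_eq_fintype_card]; omega)
  obtain ⟨p, hp, q, hq, r, hr, h1, h2, h3⟩ := Finset.two_lt_card.1 (show 2 < Γ.card by omega)
  obtain ⟨x, hx, hT⟩ := (main Γ hΓ p hp q hq r hr h1 h2 h3).1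
  have all : ∀ a ∈ Γ, ∀ b ∈ Γ, a ≠ b → TFix' G Γ a b x := fun a ha b hb hab => by
    by_cases e : a = p
    · subst e; exact move Γ hΓ a ha q hq b hb h1 hab x hx hT
    · exact move Γ hΓ a ha p hp b hb e hab x hx (symm (move Γ hΓ p hp q hq a ha h1 (Ne.symm e) x hx hT))
  have all' : ∀ a ∈ Γ, ∃ g : G, g • a = x ∧ g • x = a ∧
      ∀ y ∈ insert x Γ, y ≠ a → y ≠ x → g • y = y := fun a ha => by
    obtain ⟨c, hc, d, hd, hcd⟩ := Finset.one_lt_card.1 (show 1 < (Γ.erase a).card by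
      rw [Finset.card_erase_of_mem ha]; omega)
    obtain ⟨hca, hc⟩ := Finset.mem_erase.1 hc
    obtain ⟨hda, hd⟩ := Finset.mem_erase.1 hd
    obtain ⟨u, hu, u1, u2, u3, u4⟩ := all a ha d hd hda.symm
    have hcx : c ≠ x := fun e => hx (e ▸ hc)
    obtain ⟨v, -, v1, v2, v3, v4⟩ := move (insert x (Γ.erase c)) (by
      rw [Finset.card_insert_of_notMem (by simp [hx]), Finset.card_erase_of_mem hc]; omega)
      a (by simp [ha, hca.symm]) d (by simp [hd, hcd.symm]) x (by simp) hda.symm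
      (fun e => hx (e ▸ ha)) c (by simp [hcx]) ⟨u, hu, u1, u2, fun y hy y1 y2 => by
        rcases Finset.mem_insert.1 hy with rfl | hy
        · exact u4
        · exact u3 y (Finset.mem_of_mem_erase hy) y1 y2, u3 c hc hca hcd⟩
    refine ⟨v, v1, v2, fun y hy y1 y2 => ?_⟩
    by_cases e : y = c
    · rw [e, v4]
    · exact v3 y (by simp at hy ⊢; tauto) y1 y2
  refine ⟨insert x Γ, by rw [Finset.card_insert_of_notMem hx, hΓ], fun a ha b hb hab => ?_⟩
  rcases Finset.mem_insert.1 ha with rfl | ha'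
  · obtain ⟨g, g1, g2, g3⟩ := all' b ((Finset.mem_insert.1 hb).resolve_left hab.symm)
    exact ⟨g, g2, g1, fun y h1 h2 h3 => g3 y h1 h3 h2⟩
  rcases Finset.mem_insert.1 hb with rfl | hb'
  · exact all' a ha'
  obtain ⟨u, -, u1, u2, u3, u4⟩ := all a ha' b hb' hab
  refine ⟨u, u1, u2, fun y hy y1 y2 => ?_⟩
  rcases Finset.mem_insert.1 hy with rfl | hy
  · exact u4
  · exact u3 y hy y1 y2

theorem odd_of_no_invol [Finite G] {H : Subgroup G} (h : ∀ t ∈ H, t * t = 1 → t = 1) {g : G}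
    (hg : g ∈ H) : Odd (orderOf g) := by
  by_contra h'
  obtain ⟨m, hm⟩ := Nat.not_odd_iff_even.1 h'
  have := orderOf_pos g
  exact pow_ne_one_of_lt_orderOf (n := m) (by omega) (by omega)
    (h _ (H.pow_mem hg m) (by rw [← pow_add, ← hm, pow_orderOf_eq_one]))

theorem exists_altOn_base [Fintype α] [DecidableEq α] {k : ℕ} (hk4 : 4 ≤ k) (G : Subgroup (Perm α))
    (hkn : k < Fintype.card α) (hk : IsMultiplyPretransitive G α k)
    (htriv : ∀ s : Finset α, s.card = k + 1 → ∀ g : G, (∀ x ∈ s, g • x = x) → g = 1) :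
    ∃ x : Fin (k + 1) → α, Function.Injective x ∧ AltOn G x := by
  have hα := Nat.card_eq_fintype_card (α := α)
  have ex : ∀ j ≤ Fintype.card α, ∃ s : Finset α, s.card = j := fun j hj =>
    (Finset.exists_subset_card_eq (s := (Finset.univ : Finset α)) hj).imp fun _ h => h.2
  by_cases heven : ∃ Γ₀ : Finset α, Γ₀.card = k ∧ ∃ t : G, (∀ x ∈ Γ₀, t • x = x) ∧ t * t = 1 ∧ t ≠ 1
  · obtain ⟨Γ₀, h0, t, h1, h2, h3⟩ := heven
    obtain ⟨Δ, hΔ⟩ := ex (k + 1) hkn
    exact exists_altOn_of_swaps Δ hΔ (swaps_of_even hk (by omega) (by omega) htriv Γ₀ h0 h1 h2 h3 Δ hΔ)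
  push Not at heven
  have hodd : ∀ s : Finset α, s.card = k → ∀ g : G, (∀ x ∈ s, g • x = x) → Odd (orderOf g) :=
    fun s hs g hg => odd_of_no_invol (H := fixingSubgroup G (s : Set α))
      (fun t ht => heven s hs t ((mem_fixingSubgroup_iff _).1 ht)) ((mem_fixingSubgroup_iff _).2 hg)
  by_cases hn : Fintype.card α ≤ k + 3
  · obtain ⟨s, hs⟩ := ex (k - 2) (by omega)
    obtain ⟨a, ha⟩ := exists_notMem_finset s (by omega)
    obtain ⟨b, hb⟩ := exists_notMem_finset (insert a s)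
      ((Finset.card_insert_le _ _).trans_lt (by omega))
    simp only [Finset.mem_insert, not_or] at hb
    obtain ⟨j, rfl⟩ : ∃ j, k = j + 1 := ⟨k - 1, by omega⟩
    obtain ⟨g, hg, hg'⟩ := exists_fix_smul_eq_of_multi hk (by omega) s (by omega) ha hb.2
    have h1 := (Cfsg.Agent.S0711.result G (by omega) hkn.le hk g g.2
      (fun e => hb.1 (by rw [← hg']; exact congrArg (fun σ : Perm α => σ a) e)) (by
        have := Finset.card_le_card (show (g : Perm α).support ⊆ sᶜ from fun y hy =>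
          Finset.mem_compl.2 fun h => Perm.mem_support.1 hy (hg y h))
        rw [Finset.card_compl] at this
        omega)).2
    exact ⟨_, (Fin.castLEEmb hkn).trans (Fintype.equivFin α).symm.toEmbedding |>.injective,
      altOn_of_alt_le h1 ((Fin.castLEEmb hkn).trans (Fintype.equivFin α).symm.toEmbedding).injective⟩
  rcases Nat.even_or_odd (Nat.card α - k) with hpar | hpar
  · exfalso
    obtain ⟨Λ, hΛ⟩ := ex (k - 4) (by omega)
    have hc := card_ofFixing (G := G) Λ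
    refine false_of_odd4_even (ofFixingSubgroup.isMultiplyPretransitive G (m := 4) (n := k)
      (Λ : Set α) (by simp; omega)) (odd4_ofFixing Λ (by rwa [hΛ, Nat.sub_add_cancel hk4]))
      (by obtain ⟨m, hm⟩ := hpar; exact ⟨m + 2, by omega⟩) (by omega)
      fun p q r s x h x1 x2 x3 x4 g g1 g2 g3 g4 g5 => ?_
    obtain ⟨t, h1, h2⟩ := exists_finset_fix Λ {x, p, q, r, s}
    rw [Finset.card_insert_of_notMem (by simp [*]), h.card] at h1
    exact Subtype.ext (htriv t (by omega) g (h2 g (by simp [*])))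
  · obtain ⟨Δ, h1, h2⟩ := swaps_of_odd hk hk4 (by omega) hpar hodd
    exact exists_altOn_of_swaps Δ h1 h2

open H12 in
/-- The normaliser of a maximal `p`-subgroup fixing more than `k` points is `k`-transitive on the
fixed points. -/
theorem multi_normalizer [Finite G] [Finite α] {k p : ℕ} (hp : p.Prime) (hk1 : 1 ≤ k)
    (hk : IsMultiplyPretransitive G α k) {Q : Subgroup G} (hQ : IsPGroup p Q)
    (hF : k < (fixedPoints Q α).ncard)
    (hmax : ∀ R : Subgroup G, IsPGroup p R → Q < R → (fixedPoints R α).ncard ≤ k)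
    (x y : Fin k → α) (hx : Function.Injective x) (hy : Function.Injective y)
    (hx' : ∀ i, x i ∈ fixedPoints Q α) (hy' : ∀ i, y i ∈ fixedPoints Q α) :
    ∃ g ∈ normalizer (Q : Set G), ∀ i, g • x i = y i := by
  classical
  have := Fact.mk hp
  by_cases hS : ∃ x₀ : Fin k → α, Function.Injective x₀ ∧
      SylIn p Q (fixingSubgroup G (Set.range x₀))
  · obtain ⟨x₀, h0, hS⟩ := hS
    have key : ∀ y : Fin k → α, Function.Injective y → (∀ i, y i ∈ fixedPoints Q α) →
        ∃ g ∈ normalizer (Q : Set G), ∀ i, g • y i = x₀ i := by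
      intro y hy hy'
      obtain ⟨g, hg⟩ := multi_iff_fun.1 hk y x₀ hy h0
      obtain ⟨h, hh, hle⟩ := hS.exists_cj_le (R := cj(g, Q)) (hQ.map _) (fun t ht =>
        (mem_fixingSubgroup_iff _).2 (by
          rintro _ ⟨i, rfl⟩
          have := hy' i ⟨_, H7.mem_cj.1 ht⟩
          rwa [Subgroup.mk_smul, mul_smul, mul_smul, inv_smul_eq_iff, hg] at this))
      rw [H7.cj_cj] at hle
      refine ⟨h * g, H7.cj_eq_self_iff.1 (eq_of_le_of_card_ge hle (H7.card_cj _ _).ge), fun i => ?_⟩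
      rw [mul_smul, hg, (mem_fixingSubgroup_iff _).1 hh _ ⟨i, rfl⟩]
    obtain ⟨g, hg, hg'⟩ := key x hx hx'
    obtain ⟨h, hh, hh'⟩ := key y hy hy'
    exact ⟨h⁻¹ * g, mul_mem (inv_mem hh) hg, fun i => by rw [mul_smul, hg', inv_smul_eq_iff, hh']⟩
  push Not at hS
  let F := subMulActionOfInv (normalizer (Q : Set G)) (fixedPoints Q α) fun g hg x hx q => by
    have := hx ⟨_, (mem_normalizer_iff''.1 hg q).1 q.2⟩
    rwa [Subgroup.mk_smul, mul_smul, mul_smul, inv_smul_eq_iff] at this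
  have := Fintype.ofFinite F
  have hc : Fintype.card F = (fixedPoints Q α).ncard := by rw [← Nat.card_eq_fintype_card]; rfl
  have h := Cfsg.Agent.S0743.result (toPermHom (normalizer (Q : Set G)) F).range hp hk1
    (by omega) fun s hs => by
      let x₀ : Fin k → α := fun i => ((s.equivFinOfCardEq hs).symm i).1.1
      have h0 : Function.Injective x₀ := Subtype.val_injective.comp
        (Subtype.val_injective.comp (s.equivFinOfCardEq hs).symm.injective)
      have hQle : Q ≤ fixingSubgroup G (Set.range x₀) := fun q hq =>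
        (mem_fixingSubgroup_iff _).2 (by
          rintro _ ⟨i, rfl⟩
          exact ((s.equivFinOfCardEq hs).symm i).1.2 ⟨q, hq⟩)
      obtain ⟨T, hT, hQT⟩ := exists_sylIn_ge hQ hQle
      have hlt := lt_inf_normalizer hT.pgrp (lt_of_le_of_ne hQT fun e => hS x₀ h0 (e ▸ hT))
      have hR := hmax _ hT.pgrp.to_inf_left hlt
      have hsub : Set.range x₀ ⊆ fixedPoints (T ⊓ normalizer (Q : Set G) : Subgroup G) α := by
        intro y hy t
        exact (mem_fixingSubgroup_iff _).1 (hT.le t.2.1) y hy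
      have heq := Set.eq_of_subset_of_ncard_le hsub (by
        rwa [Set.ncard_range_of_injective h0, Nat.card_fin])
      refine ⟨(T.subgroupOf _).map (toPermHom (normalizer (Q : Set G)) F).rangeRestrict,
        hT.pgrp.comap_subtype.map _, ?_⟩
      ext y
      constructor
      · intro hy
        have : y.1 ∈ Set.range x₀ := by
          rw [heq]
          intro t
          exact congrArg Subtype.val (hy ⟨_, ⟨t.1, t.2.2⟩, t.2.1, rfl⟩)
        obtain ⟨i, hi⟩ := this
        rw [← Subtype.ext hi]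
        exact ((s.equivFinOfCardEq hs).symm i).2
      · rintro hy ⟨_, t, ht, rfl⟩
        exact Subtype.ext (hsub ⟨s.equivFinOfCardEq hs ⟨y, hy⟩, by simp [x₀]⟩ ⟨t, ht, t.2⟩)
  obtain ⟨⟨_, g, rfl⟩, hg⟩ := multi_iff_fun.1 h (fun i => ⟨x i, hx' i⟩) (fun i => ⟨y i, hy' i⟩)
    (fun i j e => hx (congrArg Subtype.val e)) (fun i j e => hy (congrArg Subtype.val e))
  exact ⟨g, g.2, fun i => congrArg Subtype.val (hg i)⟩

theorem exists_altOn {k : ℕ} (hk4 : 4 ≤ k) (n : ℕ) : ∀ {α : Type v} [Fintype α] [DecidableEq α]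
    (G : Subgroup (Perm α)), Fintype.card α = n → k < n → IsMultiplyPretransitive G α k →
    ∃ x : Fin (k + 1) → α, Function.Injective x ∧ AltOn G x := by
  induction n using Nat.strong_induction_on with
  | _ n ih =>
  intro α _ _ G hn hkn hk
  by_cases htriv : ∀ s : Finset α, s.card = k + 1 → ∀ g : G, (∀ x ∈ s, g • x = x) → g = 1
  · exact exists_altOn_base hk4 G (hn ▸ hkn) hk htriv
  classical
  push Not at htriv
  obtain ⟨s, hs, g, hg, hg1⟩ := htriv
  obtain ⟨p, hp, hpd⟩ := Nat.exists_prime_and_dvd (mt orderOf_eq_one_iff.1 hg1)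
  have := Fact.mk hp
  have ho := orderOf_pow_orderOf_div (orderOf_pos g).ne' hpd
  obtain ⟨Q, hle, hQ⟩ := exists_maximal_ge_of_wellFoundedGT
    (fun Q : Subgroup G => IsPGroup p Q ∧ k < (fixedPoints Q α).ncard)
    (zpowers (g ^ (orderOf g / p))) ⟨IsPGroup.of_card (n := 1) (by
      rw [Nat.card_zpowers, ho, pow_one]), by
      refine lt_of_lt_of_le (by simp [hs]) (Set.ncard_le_ncard (s := (s : Set α)) fun x hx t => ?_)
      exact zpowers_le.2 (pow_mem (show g ∈ stabilizer G x from hg x hx) _) t.2⟩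
  let F := subMulActionOfInv (normalizer (Q : Set G)) (fixedPoints Q α) fun g hg x hx q => by
    have := hx ⟨_, (mem_normalizer_iff''.1 hg q).1 q.2⟩
    rwa [Subgroup.mk_smul, mul_smul, mul_smul, inv_smul_eq_iff] at this
  have := Fintype.ofFinite F
  have hc : Fintype.card F = (fixedPoints Q α).ncard := by rw [← Nat.card_eq_fintype_card]; rfl
  obtain ⟨x, hx, hA⟩ := ih _ (by
      rw [hc, ← hn, ← Nat.card_eq_fintype_card]
      refine Set.ncard_lt_card fun e => hp.one_lt.ne' ?_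
      rw [← ho, orderOf_eq_one_iff]
      ext y
      exact (e.ge (Set.mem_univ y)) ⟨_, hle (mem_zpowers _)⟩)
    (toPermHom (normalizer (Q : Set G)) F).range rfl (hc ▸ hQ.1.2) (multi_iff_fun.2 fun x y hx hy => by
      obtain ⟨g, hg, hg'⟩ := multi_normalizer hp (by omega) hk hQ.1.1 hQ.1.2
        (fun R h1 h2 => not_lt.1 fun h3 => h2.not_ge (hQ.2 ⟨h1, h3⟩ h2.le)) (fun i => x i)
        (fun i => y i) (Subtype.val_injective.comp hx) (Subtype.val_injective.comp hy)
        (fun i => (x i).2) (fun i => (y i).2)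
      exact ⟨⟨_, ⟨g, hg⟩, rfl⟩, fun i => Subtype.ext (hg' i)⟩)
  refine ⟨fun i => x i, Subtype.val_injective.comp hx, fun σ hσ => ?_⟩
  obtain ⟨⟨_, g, rfl⟩, hg⟩ := hA σ hσ
  exact ⟨g, fun i => congrArg Subtype.val (hg i)⟩

end H25
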