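import Cfsg.Agent.H26.Rv1

/-! A class-size times centralizer-order bound in a coprime semidirect product. -/

set_option autoImplicit false

namespace H25.Cen

open Cfsg H17 H19 H26Rv Subgroup

variable {p : ℕ} [Fact p.Prime]

theorem card_mul_le {X : Type*} [Group X] [Finite X] {V A U : Subgroup X} (hA : A ≤ V)
    (hU : U ≤ V) : Nat.card A * Nat.card U ≤ Nat.card V * Nat.card (U ⊓ A : Subgroup X) := by
  have h1 : Nat.card (U ⊓ A : Subgroup X) * U.relIndex A = Nat.card A := by
    have := Subgroup.card_mul_index (U.subgroupOf A)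
    rw [← this, Subgroup.relIndex]
    congr 1
    rw [← Subgroup.inf_subgroupOf_right]
    exact (Nat.card_congr (Subgroup.subgroupOfEquivOfLe (inf_le_right : U ⊓ A ≤ A)).toEquiv).symm
  have h2 : Nat.card U * U.relIndex V = Nat.card V := by
    have := Subgroup.card_mul_index (U.subgroupOf V)
    rw [← this, Subgroup.relIndex]
    congr 1
    exact (Nat.card_congr (Subgroup.subgroupOfEquivOfLe hU).toEquiv).symm
  have h3 : U.relIndex A ≤ U.relIndex V :=
    Subgroup.relIndex_le_of_le_right hA Subgroup.index_ne_zero_of_finite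
  rw [← h1, ← h2]
  calc Nat.card (U ⊓ A : Subgroup X) * U.relIndex A * Nat.card U
      ≤ Nat.card (U ⊓ A : Subgroup X) * U.relIndex V * Nat.card U := by gcongr
    _ = _ := by ring

theorem cen {X : Type*} [Group X] [Finite X] {V : Subgroup X} [V.Normal] (hVexp : ∀ v ∈ V, v ^ p = 1) (hidx : ¬ p ∣ V.index) (hself : centralizer (V : Set X) = V) {G : Subgroup X} (hGV : IsComplement' V G) {v : X} (hv : v ∈ V) {U : Subgroup X} (hUV : U ≤ V) (h : ↥(G ⊓ centralizer ({v} : Set X))) : Nat.card {j : ↥(G ⊓ centralizer ({v} : Set X)) // IsConj (v * (h : X)) (v * (j : X))} * Nat.card (centralizer ({v * (h : X)} : Set X)) * Nat.card U ≤ Nat.card ↥(G ⊓ centralizer ({v} : Set X)) * Nat.card V * Nat.card {u : X // u ∈ U ∧ (h : X) * u * (h : X)⁻¹ = u} := by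
  classical
  have hp : p.Prime := Fact.out
  have vcomm : ∀ {a b : X}, a ∈ V → b ∈ V → a * b = b * a := fun {a b} ha hb => by
    rw [← hself] at hb
    exact hb a ha
  obtain ⟨n, hn⟩ := exists_pow_eq_self_of_coprime (x := v) (n := V.index)
    (Nat.Coprime.coprime_dvd_right (orderOf_dvd_of_pow_eq_one (hVexp v hv))
      ((Nat.Prime.coprime_iff_not_dvd hp).2 hidx).symm)
  have hpart : ∀ c : ↥(G ⊓ centralizer ({v} : Set X)), ((v * (c : X)) ^ V.index) ^ n = v := by
    intro c
    have cv : Commute (c : X) v := mem_centralizer_singleton_iff.1 c.2.2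
    have hm : (c : X) ^ V.index = 1 := by
      rw [hGV.symm.index_eq_card]
      exact congrArg Subtype.val (pow_card_eq_one' (G := G) (x := ⟨c, c.2.1⟩))
    rw [cv.symm.mul_pow, hm, mul_one, hn]
  set A : Subgroup X := V ⊓ centralizer ({(h : X)} : Set X) with hA
  have key : ∀ (x : X) (j : ↥(G ⊓ centralizer ({v} : Set X))),
      x * (v * (h : X)) * x⁻¹ = v * (j : X) →
      ∃ q : ↥(G ⊓ centralizer ({v} : Set X)) × A, (q.1 : X) * q.2 = x := by
    intro x j hx
    have h1 : x * v * x⁻¹ = v := by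
      have e := hpart j
      rw [← hx, conj_pow, conj_pow, hpart h] at e
      exact e
    obtain ⟨⟨g, u⟩, rfl⟩ := hGV.symm.2 x
    simp only at hx h1
    have huv : (u : X) * v = v * u := vcomm u.2 hv
    have h2 : (g : X) * v = v * g := by
      have : (g : X) * v * (g : X)⁻¹ = v := by
        calc (g : X) * v * (g : X)⁻¹ = g * (v * u) * (u : X)⁻¹ * (g : X)⁻¹ := by group
          _ = g * (u * v) * (u : X)⁻¹ * (g : X)⁻¹ := by rw [huv]
          _ = (g : X) * u * v * ((g : X) * u)⁻¹ := by group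
          _ = v := h1
      rw [mul_inv_eq_iff_eq_mul] at this
      exact this
    have h3 : (u : X) * h * (u : X)⁻¹ = (g : X)⁻¹ * j * g := by
      have e : v * ((u : X) * h * (u : X)⁻¹) = v * ((g : X)⁻¹ * j * g) := by
        calc v * ((u : X) * h * (u : X)⁻¹) = (v * u) * h * (u : X)⁻¹ := by group
          _ = (u * v) * h * (u : X)⁻¹ := by rw [huv]
          _ = (g : X)⁻¹ * ((g : X) * u * (v * h) * ((g : X) * u)⁻¹) * g := by group
          _ = (g : X)⁻¹ * (v * j) * g := by rw [hx]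
          _ = (g : X)⁻¹ * (v * g) * ((g : X)⁻¹ * j * g) := by group
          _ = (g : X)⁻¹ * (g * v) * ((g : X)⁻¹ * j * g) := by rw [h2]
          _ = _ := by group
      exact mul_left_cancel e
    have h4 : (u : X) * h * (u : X)⁻¹ * (h : X)⁻¹ = 1 := by
      have a1 : (u : X) * h * (u : X)⁻¹ * (h : X)⁻¹ ∈ V := by
        have := V.mul_mem u.2 (Normal.conj_mem inferInstance _ (V.inv_mem u.2) (h : X))
        simpa [mul_assoc] using this
      have a2 : (u : X) * h * (u : X)⁻¹ * (h : X)⁻¹ ∈ G := by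
        rw [h3]
        exact G.mul_mem (G.mul_mem (G.mul_mem (G.inv_mem g.2) j.2.1) g.2) (G.inv_mem h.2.1)
      exact (Subgroup.disjoint_def.1 hGV.disjoint) a1 a2
    have h5 : (u : X) * h = h * u := by
      rw [mul_inv_eq_one, mul_inv_eq_iff_eq_mul] at h4
      exact h4
    exact ⟨(⟨g, g.2, mem_centralizer_singleton_iff.2 h2⟩,
      ⟨u, u.2, mem_centralizer_singleton_iff.2 h5⟩), rfl⟩
  have hc : ∀ j : {j : ↥(G ⊓ centralizer ({v} : Set X)) // IsConj (v * (h : X)) (v * (j : X))},
      ∃ x : X, x * (v * (h : X)) * x⁻¹ = v * (j.1 : X) := fun j => isConj_iff.1 j.2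
  choose xx hxx using hc
  have hc2 : ∀ q : {j : ↥(G ⊓ centralizer ({v} : Set X)) // IsConj (v * (h : X)) (v * (j : X))} ×
      centralizer ({v * (h : X)} : Set X),
      xx q.1 * q.2 * (v * (h : X)) * (xx q.1 * q.2)⁻¹ = v * (q.1.1 : X) := by
    intro q
    have e : (q.2 : X) * (v * h) = (v * h) * q.2 := mem_centralizer_singleton_iff.1 q.2.2
    calc xx q.1 * q.2 * (v * (h : X)) * (xx q.1 * q.2)⁻¹
        = xx q.1 * ((q.2 : X) * (v * h)) * (q.2 : X)⁻¹ * (xx q.1)⁻¹ := by group
      _ = xx q.1 * ((v * h) * (q.2 : X)) * (q.2 : X)⁻¹ * (xx q.1)⁻¹ := by rw [e]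
      _ = xx q.1 * (v * h) * (xx q.1)⁻¹ := by group
      _ = _ := hxx q.1
  choose f hf using fun q => key _ _ (hc2 q)
  have finj : Function.Injective f := by
    intro q q' e
    have e1 : xx q.1 * q.2 = xx q'.1 * q'.2 := by rw [← hf q, ← hf q', e]
    have e2 : q.1 = q'.1 := by
      have := hc2 q
      rw [e1, hc2 q'] at this
      exact Subtype.ext (Subtype.ext (mul_left_cancel this).symm)
    rw [e2] at e1
    exact Prod.ext e2 (Subtype.ext (mul_left_cancel e1))
  have b1 := Nat.card_le_card_of_injective f finj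
  rw [Nat.card_prod, Nat.card_prod] at b1
  have b2 := card_mul_le (V := V) (A := A) (U := U) inf_le_left hUV
  have b3 : Nat.card (U ⊓ A : Subgroup X) =
      Nat.card {u : X // u ∈ U ∧ (h : X) * u * (h : X)⁻¹ = u} := by
    refine Nat.card_congr (Equiv.subtypeEquivRight fun u => ?_)
    rw [hA, mem_inf, mem_inf, mem_centralizer_singleton_iff, mul_inv_eq_iff_eq_mul]
    exact ⟨fun a => ⟨a.1, a.2.2.symm⟩, fun a => ⟨a.1, hUV a.1, a.2.symm⟩⟩
  rw [← b3]
  calc _ ≤ Nat.card ↥(G ⊓ centralizer ({v} : Set X)) * Nat.card A * Nat.card U := by gcongr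
    _ = Nat.card ↥(G ⊓ centralizer ({v} : Set X)) * (Nat.card A * Nat.card U) := by ring
    _ ≤ Nat.card ↥(G ⊓ centralizer ({v} : Set X)) *
        (Nat.card V * Nat.card (U ⊓ A : Subgroup X)) := by gcongr
    _ = _ := by ring

end H25.Cen
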