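import Cfsg.Agent.H25.Fisher

/-! The second doubly transitive action attached to an intransitive subgroup whose index is the
degree. -/

set_option autoImplicit false

namespace H25

open MulAction Subgroup

variable {G X : Type*} [Group G] [MulAction G X]

theorem trace_funLeft [Finite X] (g : G) :
    LinearMap.trace ℚ _ (LinearMap.funLeft ℚ ℚ fun x : X => g • x) = Nat.card (fixedBy X g) := by
  classical
  have := Fintype.ofFinite X
  rw [LinearMap.trace_eq_matrix_trace ℚ (Pi.basisFun ℚ X), Matrix.trace, Nat.card_eq_fintype_card,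
    Fintype.card_subtype]
  simp [LinearMap.toMatrix_apply, LinearMap.funLeft_apply, Pi.single_apply]

theorem dual_action [Finite G] [Finite X] [FaithfulSMul G X]
    (h2 : IsMultiplyPretransitive G X 2) (H : Subgroup G) (hH : H.index = Nat.card X)
    (hnt : ¬ IsPretransitive H X) : IsMultiplyPretransitive G (G ⧸ H) 2 ∧ FaithfulSMul G (G ⧸ H) ∧
      ∀ g : G, Nat.card (fixedBy X g) = Nat.card (fixedBy (G ⧸ H) g) := by
  classical
  have := Fintype.ofFinite X
  have := Fintype.ofFinite (G ⧸ H)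
  obtain ⟨a, b, hb⟩ : ∃ a b : X, b ∉ orbit H a := by
    by_contra h
    push Not at h
    exact hnt ⟨h⟩
  have inv : ∀ h ∈ H, ∀ x ∈ (orbit H a).toFinset, h • x ∈ (orbit H a).toFinset :=
    fun h hh x hx => by
      rw [Set.mem_toFinset] at hx ⊢
      exact mem_orbit_of_mem_orbit (⟨h, hh⟩ : H) hx
  have hinj := incMap_injective h2 inv (y₀ := a) (y₁ := b) (by simp) (by simpa using hb)
  have hsurj := (LinearMap.injective_iff_surjective_of_finrank_eq_finrank (by
    rw [Module.finrank_fintype_fun_eq_card, Module.finrank_fintype_fun_eq_card,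
      ← Nat.card_eq_fintype_card, ← Nat.card_eq_fintype_card, ← hH]; rfl)).1 hinj
  set I := incMap H (orbit H a).toFinset
  have eqv : ∀ (g : G) (f : X → ℚ), I (fun x => f (g • x)) = fun q => I f (g • q) := fun g f => by
    ext q
    obtain ⟨k, rfl⟩ := QuotientGroup.mk_surjective q
    rw [Quotient.smul_mk, incMap_mk inv, incMap_mk inv]
    simp [mul_smul]
  have hbij : Function.Bijective I := ⟨hinj, hsurj⟩
  have fx : ∀ g : G, Nat.card (fixedBy X g) = Nat.card (fixedBy (G ⧸ H) g) := fun g => by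
    rw [← Nat.cast_inj (R := ℚ), ← trace_funLeft, ← trace_funLeft,
      ← LinearMap.trace_conj' _ (LinearEquiv.ofBijective I hbij)]
    congr 1
    refine LinearMap.ext fun φ => ?_
    obtain ⟨f, rfl⟩ := hsurj φ
    rw [LinearEquiv.conj_apply_apply, LinearEquiv.ofBijective_symm_apply_apply]
    exact eqv g f
  refine ⟨?_, ⟨fun {g k} e => FaithfulSMul.eq_of_smul_eq_smul (α := X) fun x => ?_⟩, fx⟩
  swap
  · have := hinj ((eqv g (Pi.single (g • x) 1)).trans
      ((funext fun q => by rw [e]).trans (eqv k _).symm))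
    by_contra h
    simpa [Ne.symm h] using congrFun this x
  have key : ∀ φ : G ⧸ H → ℚ, (∀ h ∈ H, ∀ q, φ (h • q) = φ q) →
      ∃ α β : ℚ, ∀ q, φ q = α * I (fun x => if x ∈ orbit H a then 1 else 0) q + β := fun φ hφ => by
    obtain ⟨f, rfl⟩ := hsurj φ
    have hf : ∀ h : H, ∀ x, f (h • x) = f x := fun h =>
      congrFun (hinj ((eqv h f).trans (funext (hφ h h.2))))
    refine ⟨f a - f b, f b * (orbit H a).toFinset.card, fun q => ?_⟩
    have : f = (f a - f b) • (fun x => if x ∈ orbit H a then 1 else 0) + fun _ => f b := by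
      ext x
      by_cases hx : x ∈ orbit H a
      · obtain ⟨h, rfl⟩ := hx
        simp [hf]
      · obtain ⟨h, rfl⟩ : x ∈ orbit H b := by_contra (false_of_three_orbits h2 H hH hb hx)
        simp [hf, hx]
    nth_rw 1 [this]
    rw [map_add, map_smul]
    simp [I, incMap, mul_comm]
  have st : ∀ q r : G ⧸ H, q ≠ (1 : G) → r ≠ (1 : G) → ∃ h ∈ H, h • q = r := fun q r hq hr => by
    obtain ⟨α, β, h1⟩ := key (fun s => if s = (1 : G) then 1 else 0) fun h hh s => by
      have : h • ((1 : G) : G ⧸ H) = (1 : G) := by simpa [QuotientGroup.eq]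
      exact if_congr ⟨fun e => smul_left_cancel h (e.trans this.symm), fun e => e ▸ this⟩ rfl rfl
    obtain ⟨γ, δ, h3⟩ := key (fun s => if s ∈ orbit H q then 1 else 0) fun h hh s => by
      exact if_congr ⟨fun e => inv_smul_smul h s ▸ mem_orbit_of_mem_orbit (⟨h, hh⟩⁻¹ : H) e,
        mem_orbit_of_mem_orbit (⟨h, hh⟩ : H)⟩ rfl rfl
    have a0 : α ≠ 0 := by
      rintro rfl
      have e1 := h1 q
      have e2 := h1 (1 : G)
      rw [if_neg hq, zero_mul, zero_add] at e1
      rw [if_pos rfl, zero_mul, zero_add, ← e1] at e2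
      exact one_ne_zero e2
    have e := (h1 q).symm.trans (((if_neg hq).trans (if_neg hr).symm).trans (h1 r))
    have := h3 q
    rw [mul_left_cancel₀ a0 (add_right_cancel e), ← h3 r] at this
    obtain ⟨h, hh⟩ : r ∈ orbit H q := by_contra fun h => by simp [h] at this
    exact ⟨h, h.2, hh⟩
  rw [is_two_pretransitive_iff]
  intro q r q' r' h1 h3
  obtain ⟨g, rfl⟩ := QuotientGroup.mk_surjective q
  obtain ⟨g', rfl⟩ := QuotientGroup.mk_surjective q'
  have ne : ∀ {g : G} {r : G ⧸ H}, (g : G ⧸ H) ≠ r → g⁻¹ • r ≠ (1 : G) := fun h e =>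
    h (by rw [inv_smul_eq_iff] at e; simpa using e.symm)
  obtain ⟨h, hh, e⟩ := st _ _ (ne h1) (ne h3)
  exact ⟨g' * h * g⁻¹, by simpa [QuotientGroup.eq], by rw [mul_smul, mul_smul, e, smul_inv_smul]⟩

end H25
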