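import Cfsg.Agent.H25.AW8

/-! Alternating sections of `E₆`: the condition on rational elements of order 5. -/

set_option autoImplicit false

namespace H25.EF
open Module

/-- eigenspace dimensions of rational elements of order five -/
def H5 {k V X : Type*} [Field k] [AddCommGroup V] [Module k V] [Group X] (ρ : X →* End k V) : Prop :=
  ∀ d g : X, d ≠ 1 → d ^ 5 = 1 → g * d * g⁻¹ = d ^ 2 →
    finrank k ((ρ d).eigenspace 1) ≤ 7 ∧ ∀ ζ : k, ζ ^ 5 = 1 → ζ ≠ 1 → finrank k ((ρ d).eigenspace ζ) = 5

end H25.EF
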