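import Cfsg.Agent.H25.EF0

/-! Eigenspaces of diagonal and monomial operators. -/

set_option autoImplicit false
set_option linter.unusedSectionVars false

namespace H25.EF
open Module Finset H25.AW

section
variable {k : Type*} [Field k] {I : Type*} [Fintype I] [DecidableEq I]

theorem fr_diag {f : End k (I → k)} {μ : I → k} (hf : ∀ i, f (Pi.single i 1) = μ i • Pi.single i 1) (a : k)
    [DecidablePred fun i => μ i = a] : finrank k (f.eigenspace a) = (univ.filter fun i => μ i = a).card := by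
  have h1 : ∀ v i, f v i = μ i * v i := fun v i => by
    conv_lhs => rw [pi_eq_sum_univ' v, map_sum]
    simp [hf, Pi.single_apply]
    ring
  have h2 : f.eigenspace a = LinearMap.ker (LinearMap.funLeft k k (Subtype.val : {i // ¬ μ i = a} → I)) := by
    ext v
    simp only [End.mem_eigenspace_iff, LinearMap.mem_ker, funext_iff, h1, Pi.smul_apply, smul_eq_mul,
      LinearMap.funLeft_apply, Pi.zero_apply, Subtype.forall, mul_eq_mul_right_iff]
    exact forall_congr' fun i => or_iff_not_imp_left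
  have h3 := (LinearMap.funLeft k k (Subtype.val : {i // ¬ μ i = a} → I)).finrank_range_add_finrank_ker
  rw [LinearMap.range_eq_top.2 (LinearMap.funLeft_surjective_of_injective k k _ Subtype.val_injective),
    finrank_top, finrank_fintype_fun_eq_card, finrank_fintype_fun_eq_card, Fintype.card_subtype_compl,
    Fintype.card_subtype, ← h2] at h3
  have := card_filter_le univ fun i => μ i = a
  rw [card_univ] at this
  omega

theorem mono_pow {f : End k (I → k)} {σ : I → I}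
    (hf : ∀ i, ∃ c : k, f (Pi.single i 1) = c • Pi.single (σ i) 1) (j : ℕ) (i : I) :
    ∃ c : k, (f ^ j) (Pi.single i 1) = c • Pi.single (σ^[j] i) 1 := by
  induction j with
  | zero => exact ⟨1, by simp⟩
  | succ j ih =>
    obtain ⟨c, hc⟩ := ih
    obtain ⟨d, hd⟩ := hf (σ^[j] i)
    exact ⟨c * d, by rw [pow_succ', End.mul_apply, hc, map_smul, hd, smul_smul, Function.iterate_succ_apply']⟩

theorem fr_mono {f : End k (I → k)} {σ : I → I} (hf : ∀ i, ∃ c : k, f (Pi.single i 1) = c • Pi.single (σ i) 1)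
    {m n : ℕ} (h1 : f ^ (m + 1) = 1) (r : Fin n → I) (h2 : ∀ a b, ∀ j ≤ m, σ^[j] (r a) = r b → j = 0 ∧ a = b)
    {ζ : k} (hζ : ζ ^ (m + 1) = 1) : n ≤ finrank k (f.eigenspace ζ) := by
  have z0 : ζ ≠ 0 := fun e => by simp [e] at hζ
  have h3 := mono_pow hf
  let g : End k (I → k) := ζ⁻¹ • f
  have h4 : ∀ w, (∑ j ∈ range (m + 1), g ^ j) w ∈ f.eigenspace ζ := fun w => by
    have a1 : g ^ (m + 1) = 1 := by rw [smul_pow, h1, inv_pow, hζ, inv_one, one_smul]
    have a2 := congrArg (· w) (mul_geom_sum g (m + 1))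
    simp only [a1, sub_self, End.mul_apply, LinearMap.sub_apply, End.one_apply, LinearMap.zero_apply,
      sub_eq_zero] at a2
    rw [End.mem_eigenspace_iff]
    generalize (∑ j ∈ range (m + 1), g ^ j) w = u at *
    conv_rhs => rw [← a2]
    simp [g, smul_smul, z0]
  have h5 : ∀ a b, (∑ j ∈ range (m + 1), g ^ j) (Pi.single (r a) 1) (r b) = (Pi.single a 1 : Fin n → k) b :=
    fun a b => by
    rw [sum_range_succ', LinearMap.add_apply, pow_zero, End.one_apply, Pi.add_apply, LinearMap.sum_apply,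
      Finset.sum_apply, sum_eq_zero fun j hj => ?_, zero_add]
    · by_cases e : a = b
      · simp [e]
      · rw [Pi.single_eq_of_ne' e, Pi.single_eq_of_ne' fun e' : r a = r b => e (h2 a b 0 (by omega) e').2]
    · obtain ⟨c, hc⟩ := h3 (j + 1) (r a)
      rw [smul_pow, LinearMap.smul_apply, hc, Pi.smul_apply, Pi.smul_apply, Pi.single_eq_of_ne' fun e' =>
        absurd (h2 a b _ (by have := mem_range.1 hj; omega) e').1 (by omega), smul_zero, smul_zero]
  let L := (LinearMap.funLeft k k r).comp (f.eigenspace ζ).subtype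
  have h6 : LinearMap.range L = ⊤ := by
    rw [eq_top_iff, ← (Pi.basisFun k (Fin n)).span_eq, Submodule.span_le]
    rintro _ ⟨a, rfl⟩
    exact ⟨⟨_, h4 (Pi.single (r a) 1)⟩, by rw [Pi.basisFun_apply]; exact funext (h5 a)⟩
  have := L.finrank_range_le
  rwa [h6, finrank_top, finrank_fintype_fun_eq_card, Fintype.card_fin] at this

end

variable {k V X : Type*} [Field k] [AddCommGroup V] [Module k V] [FiniteDimensional k V] [Group X]
  {ρ : X →* End k V}

theorem fr_pow (d : X) (ζ : k) (j : ℕ) :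
    finrank k ((ρ d).eigenspace ζ) ≤ finrank k ((ρ (d ^ j)).eigenspace (ζ ^ j)) :=
  Submodule.finrank_mono fun v hv => by
    rw [End.mem_eigenspace_iff] at hv ⊢
    rw [map_pow, pow_apply_of hv]

theorem fr_conj (g d : X) (ζ : k) :
    finrank k ((ρ d).eigenspace ζ) ≤ finrank k ((ρ (g * d * g⁻¹)).eigenspace ζ) :=
  LinearMap.finrank_le_finrank_of_injective (f := (ρ g).restrict fun v hv => by
    rw [End.mem_eigenspace_iff] at hv ⊢
    rw [rho_conj, hv, map_smul]) fun a b e =>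
    Subtype.ext (by rw [← rho_inv (ρ := ρ) g a.1, ← rho_inv (ρ := ρ) g b.1]; exact congrArg (fun z => ρ g⁻¹ z.1) e)

theorem fr_conj' (g d : X) (ζ : k) :
    finrank k ((ρ (g * d * g⁻¹)).eigenspace ζ) = finrank k ((ρ d).eigenspace ζ) :=
  ((fr_conj g⁻¹ _ ζ).trans_eq (by rw [show g⁻¹ * (g * d * g⁻¹) * g⁻¹⁻¹ = d by group])).antisymm (fr_conj g d ζ)

theorem fr_sq {g d : X} (h : g * d * g⁻¹ = d ^ 2) (ζ : k) (n : ℕ) :
    finrank k ((ρ d).eigenspace ζ) ≤ finrank k ((ρ d).eigenspace (ζ ^ 2 ^ n)) := by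
  induction n with
  | zero => rw [pow_zero, pow_one]
  | succ n ih => exact ih.trans ((fr_pow d _ 2).trans_eq (by rw [← h, fr_conj', ← pow_mul, ← pow_succ]))

theorem fr_eq {g d : X} (h : g * d * g⁻¹ = d ^ 2) {s : ℕ} (hs : ∀ i < s, i ≠ 0 → ∀ j < s, j ≠ 0 → ∃ n < s, i * 2 ^ n % s = j)
    {ζ : k} (hζ : ζ ^ s = 1) {i j : ℕ} (h1 : i < s) (h2 : i ≠ 0) (h3 : j < s) (h4 : j ≠ 0) :
    finrank k ((ρ d).eigenspace (ζ ^ i)) = finrank k ((ρ d).eigenspace (ζ ^ j)) := by
  have : ∀ i < s, i ≠ 0 → ∀ j < s, j ≠ 0 →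
      finrank k ((ρ d).eigenspace (ζ ^ i)) ≤ finrank k ((ρ d).eigenspace (ζ ^ j)) := fun i a b j c e => by
    obtain ⟨n, -, rfl⟩ := hs i a b j c e
    rw [← pow_eq_pow_mod _ hζ, pow_mul]
    exact fr_sq h _ n
  exact (this i h1 h2 j h3 h4).antisymm (this j h3 h4 i h1 h2)

theorem sum5 {g d : X} (h : g * d * g⁻¹ = d ^ 2) (hV : finrank k V = 27) {ζ : k} (h2 : ζ ^ 5 = 1) (h3 : ζ ≠ 1) :
    finrank k ((ρ d).eigenspace 1) + 4 * finrank k ((ρ d).eigenspace ζ) ≤ 27 := by
  haveI : Fact (Nat.Prime 5) := ⟨by norm_num⟩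
  have hζ : IsPrimitiveRoot ζ 5 := orderOf_eq_prime h2 h3 ▸ IsPrimitiveRoot.orderOf ζ
  have a1 := sum_eig (ρ d) (fun i : Fin 5 => ζ ^ (i : ℕ)) (fun a b e => Fin.ext (hζ.pow_inj a.2 b.2 e))
    (U := ⊤) fun _ => le_top
  have a2 := fun j (a : j < 5) (b : j ≠ 0) => fr_eq (ρ := ρ) h (by decide) h2 a b (j := 1) (by decide) (by decide)
  rw [Fin.sum_univ_five, finrank_top, hV] at a1
  have b2 := a2 2 (by decide) (by decide)
  have b3 := a2 3 (by decide) (by decide)
  have b4 := a2 4 (by decide) (by decide)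
  change finrank k ((ρ d).eigenspace (ζ ^ 0)) + finrank k ((ρ d).eigenspace (ζ ^ 1)) +
    finrank k ((ρ d).eigenspace (ζ ^ 2)) + finrank k ((ρ d).eigenspace (ζ ^ 3)) +
    finrank k ((ρ d).eigenspace (ζ ^ 4)) ≤ 27 at a1
  rw [b2, b3, b4, pow_one, pow_zero] at a1
  omega

end H25.EF
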