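import Cfsg.Agent.H25.EF1
import Cfsg.Agent.H25.EF2
import Cfsg.Agent.Lead.AS4

/-! Rational elements of order 5 and 11 of `E₆` on the 27-dimensional module. -/

set_option autoImplicit false
set_option linter.unusedSectionVars false

namespace H25.EF
open Module Finset H25.AW H24 H24.C27 H24.RS Cfsg.Lie Lead.AS Subgroup

/-- the reflection in the root `r` on the weights -/
def tau (r j : ℕ) : ℕ := if tc (ng r) j ≠ 0 then tv (tc (ng r) j) else if tc r j ≠ 0 then tv (tc r j) else j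

variable {F k Γ : Type*} [Field F] [Field k] [Group Γ]

/-- the module of dimension 27 -/
structure Rp (S : St tabE6_chk.cd F Γ) (ρ : Γ →* End k (I27 → k)) : Prop where
  inj : ∀ g, ρ g = 1 → g = 1
  hh : ∀ r t, t ≠ 0 → ∃ u : kˣ, ∀ j, ρ (S.h r t) (e k j) = ((u ^ wA r j : kˣ) : k) • e k j
  nn : ∀ r j, ∃ c : k, ρ (S.n r 1) (e k j) = c • e k (tau r j)

theorem e_xi (i : I27) : e k (xi i) = Pi.single i 1 := by rw [e, ix_xi]

theorem e_ne (j : ℕ) : e k j ≠ 0 := fun h => by simpa [e] using congrFun h (ix j)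

theorem ext_e {f g : End k (I27 → k)} (h : ∀ j < 27, f (e k j) = g (e k j)) : f = g :=
  (Pi.basisFun k I27).ext fun i => by rw [Pi.basisFun_apply, ← e_xi, h _ (xi_lt i)]

theorem sum_xi (f : ℕ → ℕ) : ∑ i : I27, f (xi i) = ∑ j ∈ range 27, f j := by
  simp [Fintype.sum_prod_type, Fin.sum_univ_three, xi, sum_range_succ, add_assoc]

def w0 : List (Fin chevE6.rank) := [⟨0, by decide⟩, ⟨2, by decide⟩, ⟨3, by decide⟩, ⟨4, by decide⟩]

def sg0 (i : I27) : I27 := ix (w0.foldr (fun (a : Fin chevE6.rank) j => tau (tabE6.simple a) j) (xi i))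

theorem sg0_chk : ∀ l j a b : Fin 5,
    (sg0^[l])^[j] (ix (![0, 1, 3, 4, 8] a)) = ix (![0, 1, 3, 4, 8] b) → l = 0 ∨ j = 0 ∧ a = b := by decide +kernel

theorem kk_lt : ∀ i, kk i < 27 := by decide

theorem gg_mod (s x : ℕ) : gg s (x % s) = gg s x := congrArg (fun y => Nat.sub (Nat.pow 32 y) 1) (Nat.mod_mod x s)

theorem gg_zero (s : ℕ) : gg s 0 = 0 := congrArg (fun y => Nat.sub (Nat.pow 32 y) 1) (Nat.zero_mod s)

def c11 : Equiv.Perm (Fin 13) := ⟨![1, 2, 3, 4, 5, 6, 7, 8, 9, 10, 0, 11, 12], ![10, 0, 1, 2, 3, 4, 5, 6, 7, 8, 9, 11, 12],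
  by decide, by decide⟩

def g11 : Equiv.Perm (Fin 13) := ⟨![0, 2, 4, 6, 8, 10, 1, 3, 5, 7, 9, 12, 11], ![0, 6, 1, 7, 2, 8, 3, 9, 4, 10, 5, 12, 11],
  by decide, by decide⟩

theorem mul_mul_mul_comm' {R : Type*} [Group R] (h : ∀ x y : R, Commute x y) (a b c d : R) :
    a * b * (c * d) = a * c * (b * d) := (h b c).mul_mul_mul_comm a d

namespace Rp
variable {S : St tabE6_chk.cd F Γ} {ρ : Γ →* End k (I27 → k)} (h : Rp S ρ)
include h

theorem diag {g : Γ} (hg : g ∈ S.H) :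
    ∃ c : Fin 6 → kˣ, ∀ j < 27, ρ g (e k j) = (chi c (mw j) : k) • e k j := by
  let D : Subgroup Γ :=
    { carrier := {g | ∃ c : Fin 6 → kˣ, ∀ j < 27, ρ g (e k j) = (chi c (mw j) : k) • e k j}
      one_mem' := ⟨1, fun j _ => by simp [chi_one]⟩
      mul_mem' := by
        rintro a b ⟨c, hc⟩ ⟨d, hd⟩
        exact ⟨c * d, fun j hj => by
          rw [← rho_mul, hd j hj, map_smul, hc j hj, smul_smul, chi_mul, Units.val_mul, mul_comm]⟩
      inv_mem' := by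
        rintro a ⟨c, hc⟩
        exact ⟨c⁻¹, fun j hj => by
          conv_rhs => rw [← rho_inv (ρ := ρ) a (e k j), hc j hj, map_smul, smul_smul, chi_inv, Units.inv_mul,
            one_smul]⟩ }
  refine (S.H_le (M := D)).2 (fun r t ht => ?_) hg
  obtain ⟨u, hu⟩ := h.hh r t ht
  refine ⟨fun i => u ^ wA r (kk i), fun j hj => ?_⟩
  rw [hu, wA_mw r r.2 j hj, chi]
  simp only [← zpow_mul, Fin.sum_univ_six, Fin.prod_univ_six, zpow_add]

theorem comm {a b : Γ} (ha : a ∈ S.H) (hb : b ∈ S.H) : Commute a b := by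
  obtain ⟨c, hc⟩ := h.diag ha
  obtain ⟨d, hd⟩ := h.diag hb
  have : ρ (a * b) = ρ (b * a) := ext_e fun j hj => by
    rw [← rho_mul, ← rho_mul, hd j hj, hc j hj, map_smul, map_smul, hd j hj, hc j hj, smul_comm]
  exact mul_inv_eq_one.1 (h.inj _ (by rw [map_mul, this, ← map_mul, mul_inv_cancel, map_one]))

theorem c_pow {g : Γ} {s : ℕ} (g1 : g ^ s = 1) {c : Fin 6 → kˣ}
    (hc : ∀ j < 27, ρ g (e k j) = (chi c (mw j) : k) • e k j) (i : Fin 6) : c i ^ s = 1 := by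
  have := hc (kk i) (kk_lt i)
  rw [mw_kk, chi_single] at this
  exact Units.ext (pow_eq_one_of (by rw [← map_pow, g1, map_one]) (e_ne _) this)

theorem toral {s n : ℕ} [hs : Fact s.Prime] (h1 : chk s (∑ j ∈ range s, gg s j) n = true)
    (h2 : ∑ j ∈ range s, gg s j ≠ 0) (h3 : ∀ i < s, i ≠ 0 → ∀ j < s, j ≠ 0 → ∃ n < s, i * 2 ^ n % s = j)
    {g u : Γ} (hg : g ∈ S.H) (g0 : g ≠ 1) (g1 : g ^ s = 1) (hu : u * g * u⁻¹ = g ^ 2) :
    n ≠ 0 ∧ ∀ η : k, η ^ s = 1 → η ≠ 1 → finrank k ((ρ g).eigenspace η) = n := by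
  classical
  obtain ⟨c, hc⟩ := h.diag hg
  have c1 := h.c_pow g1 hc
  have s1 := hs.out.one_lt
  obtain ⟨i0, hi0⟩ : ∃ i, c i ≠ 1 := by
    by_contra e'
    push Not at e'
    exact g0 (h.inj _ (ext_e fun j hj => by rw [hc j hj, show c = 1 from funext e', chi_one]; simp))
  have pr : ∀ z : k, z ^ s = 1 → z ≠ 1 → IsPrimitiveRoot z s := fun z a b =>
    orderOf_eq_prime a b ▸ IsPrimitiveRoot.orderOf z
  have c2 : ∀ i, (c i : k) ^ s = 1 := fun i => by rw [← Units.val_pow_eq_pow_val, c1, Units.val_one]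
  obtain ⟨ζ, hζ, a0, a1, a2⟩ : ∃ ζ : k, IsPrimitiveRoot ζ s ∧ ∃ a < 2, ζ ^ a = c 0 := by
    by_cases e' : c 0 = 1
    · exact ⟨_, pr _ (c2 i0) (by simpa using hi0), 0, two_pos, by simp [e']⟩
    · exact ⟨_, pr _ (c2 0) (by simpa using e'), 1, one_lt_two, pow_one _⟩
  have : ∀ i, ∃ a < s, ζ ^ a = c i ∧ (i = 0 → a < 2) := fun i => by
    by_cases e' : i = 0
    · exact ⟨a0, by omega, e' ▸ a2, fun _ => a1⟩
    · obtain ⟨a, b1, b2⟩ := hζ.eq_pow_of_pow_eq_one (c2 i)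
      exact ⟨a, b1, b2, fun e => (e' e).elim⟩
  choose a b1 b2 b3 using this
  have d1 : ∀ j < 27, (chi c (mw j) : k) = ζ ^ ((∑ i, mN s j i * a i) % s) := fun j hj => by
    rw [← pow_eq_pow_mod _ hζ.pow_eq_one, ← prod_pow_eq_pow_sum, chi, Units.coe_prod]
    refine prod_congr rfl fun i _ => ?_
    rw [mul_comm, pow_mul, b2, mN]
    split_ifs with e'
    · rw [e', _root_.zpow_neg_one, Units.val_inv_eq_inv_val]
      refine inv_eq_of_mul_eq_one_left ?_
      rw [← pow_succ, Nat.sub_add_cancel s1.le, c2]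
    · rw [← Units.val_pow_eq_pow_val, ← zpow_natCast, Int.toNat_of_nonneg ((mw_mem j hj i).resolve_left e')]
  have d2 : ∀ t < s, finrank k ((ρ g).eigenspace (ζ ^ t)) =
      (univ.filter fun i : I27 => (∑ l, mN s (xi i) l * a l) % s = t).card := fun t ht => by
    rw [fr_diag (μ := fun i => ζ ^ ((∑ l, mN s (xi i) l * a l) % s)) fun i => by
      rw [← e_xi, hc _ (xi_lt i), d1 _ (xi_lt i)]]
    exact congrArg card (filter_congr fun i _ =>
      ⟨hζ.pow_inj (Nat.mod_lt _ hs.out.pos) ht, congrArg (ζ ^ ·)⟩)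
  have d3 : ∀ η : k, η ^ s = 1 → η ≠ 1 →
      finrank k ((ρ g).eigenspace η) = finrank k ((ρ g).eigenspace (ζ ^ 1)) := fun η e1 e2 => by
    obtain ⟨t, t1, rfl⟩ := hζ.eq_pow_of_pow_eq_one e1
    exact fr_eq hu h3 hζ.pow_eq_one t1 (fun e' => e2 (by rw [e', pow_zero])) s1 one_ne_zero
  have d4 : finrank k ((ρ g).eigenspace (ζ ^ 1)) ≠ 0 := by
    rw [← d3 _ (c2 i0) (by simpa using hi0)]
    have := hc (kk i0) (kk_lt i0)
    rw [mw_kk, chi_single] at this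
    exact fun e' => e_ne _ (congrArg Subtype.val
      (finrank_zero_iff_forall_zero.1 e' ⟨_, End.mem_eigenspace_iff.2 this⟩))
  have d5 := chk_spec h1 h2 a (b3 0 rfl) b1 (n := finrank k ((ρ g).eigenspace (ζ ^ 1))) (by
    rw [← sum_xi fun j => gg s (∑ i, mN s j i * a i), mul_sum]
    refine (sum_congr rfl fun i _ => ?_).trans ((sum_fiberwise_of_maps_to' (t := range s)
      (g := fun i : I27 => (∑ l, mN s (xi i) l * a l) % s)
      (fun i _ => mem_range.2 (Nat.mod_lt _ hs.out.pos)) (gg s)).symm.trans (sum_congr rfl fun t ht => ?_))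
    · exact (gg_mod _ _).symm
    · rw [sum_const, smul_eq_mul, ← d2 t (mem_range.1 ht)]
      by_cases e' : t = 0
      · simp [e', gg_zero]
      · rw [fr_eq hu h3 hζ.pow_eq_one (mem_range.1 ht) e' s1 one_ne_zero])
  have d6 := d5.resolve_left d4
  exact ⟨d6 ▸ d4, fun η e1 e2 => (d3 η e1 e2).trans d6⟩

theorem nw_e (l : List (Fin chevE6.rank)) (j : ℕ) :
    ∃ c : k, ρ (S.nw l) (e k j) = c • e k (l.foldr (fun (a : Fin chevE6.rank) j => tau (tabE6.simple a) j) j) := by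
  induction l with
  | nil => exact ⟨1, by simp [St.nw]⟩
  | cons a l ih =>
    obtain ⟨c, hc⟩ := ih
    obtain ⟨d, hd⟩ := h.nn (tabE6_chk.cd.sim a) (l.foldr (fun (a : Fin chevE6.rank) j => tau (tabE6.simple a) j) j)
    exact ⟨c * d, by rw [S.nw_cons, ← rho_mul, hc, map_smul, hd, smul_smul, List.foldr_cons, ← tabE6_chk.val_sim]; rfl⟩

variable [Finite Γ]

theorem nontoral {x : S.N} (x0 : (x : Γ) ∉ S.H) (x1 : x ^ 5 = 1) {ζ : k} (hζ : ζ ^ 5 = 1) :
    5 ≤ finrank k ((ρ x).eigenspace ζ) := by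
  haveI : Fact (Nat.Prime 5) := ⟨by norm_num⟩
  let m : S.N := ⟨S.nw w0, S.nw_mem w0⟩
  have o1 : orderOf (S.piW m) = 5 := by
    rw [← orderOf_coe, S.piW_eq (S.nw_rep w0)]
    exact tabE6_chk.ord_spec w0 (by decide +kernel)
  obtain ⟨u, -, hu⟩ := conj_into_T (T := zpowers (S.piW m)) (C := ⊤) (p := 5) (Y := zpowers (S.piW x))
    (fun e' => by
      have := (zpowers (S.piW m)).card_mul_index
      rw [Nat.card_zpowers, o1, show Nat.card tabE6_chk.cd.W = 51840 from cardWE6] at this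
      omega) le_top (pgroup_zp (by rw [← map_pow, x1, map_one])) le_top
  obtain ⟨n, rfl⟩ := S.piW_surjective u
  obtain ⟨l, l1, l2⟩ := mem_image.1 (mem_zpowers_iff_mem_range_orderOf.1 (hu _ (mem_zpowers _)))
  rw [o1, mem_range] at l1
  have a1 : ((m ^ l)⁻¹ * (n * x * n⁻¹) : S.N) ∈ S.H.subgroupOf S.N := by
    rw [← S.ker_piW, MonoidHom.mem_ker]
    simp only [map_mul, map_inv, map_pow, l2, inv_mul_cancel]
  obtain ⟨c, hc⟩ := h.diag a1
  rw [← fr_conj' (n : Γ)]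
  refine fr_mono (m := 4) (σ := sg0^[l]) (fun i => ?_) ?_ _ (fun a b j hj e' => ((sg0_chk ⟨l, l1⟩ ⟨j, by omega⟩ a b e').resolve_left
    fun e' => x0 ?_).imp_left (congrArg Fin.val)) hζ
  · obtain ⟨d, hd⟩ := mono_pow (f := ρ m) (σ := sg0) (fun i => by rw [← e_xi]; exact h.nw_e w0 _) l i
    refine ⟨chi c (mw (xi i)) * d, ?_⟩
    rw [← smul_smul, ← hd, ← map_smul, ← e_xi, ← hc _ (xi_lt i), ← map_pow, rho_mul]
    simp
  · rw [← map_pow, conj_pow, ← Subgroup.coe_pow, x1]; simp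
  · obtain rfl : l = 0 := congrArg Fin.val e'
    simpa [mul_assoc] using S.conj_mem_H' n.2 a1

theorem h5 (hN : ¬ 5 ∣ S.N.index) (hk : ∃ ζ : k, ζ ^ 5 = 1 ∧ ζ ≠ 1) : H5 ρ := fun d g d0 d1 hg => by
  haveI : Fact (Nat.Prime 5) := ⟨by norm_num⟩
  obtain ⟨u, -, hu⟩ := conj_into_T hN le_top (pgroup_zp d1) le_top
  have a0 := hu _ (mem_zpowers d)
  have a1 : (u * d * u⁻¹) ^ 5 = 1 := by rw [conj_pow, d1]; simp
  have a2 : u * g * u⁻¹ * (u * d * u⁻¹) * (u * g * u⁻¹)⁻¹ = (u * d * u⁻¹) ^ 2 := by rw [conj_pow, ← hg]; group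
  obtain ⟨ζ, z1, z2⟩ := hk
  have a3 := fun ζ : k => sum5 (ρ := ρ) hg (by simp) (ζ := ζ)
  by_cases e' : u * d * u⁻¹ ∈ S.H
  · have := (h.toral chk5 (by decide) (by decide) e' (by simpa using d0) a1 a2).2
    simp only [fr_conj'] at this
    exact ⟨by have b1 := a3 ζ z1 z2; have b2 := this ζ z1 z2; omega, this⟩
  · have := fun ζ : k => h.nontoral (x := ⟨_, a0⟩) e' (Subtype.ext a1) (ζ := ζ)
    simp only [fr_conj'] at this
    refine ⟨by have b1 := a3 ζ z1 z2; have b2 := this ζ z1; omega, fun η e1 e2 => ?_⟩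
    have b1 := a3 η e1 e2
    have b2 := this η e1
    have b3 := this 1 (one_pow 5)
    omega

theorem r5 (hN : ¬ 5 ∣ S.N.index) (A : Subgroup Γ) (hA : ∀ a ∈ A, a ^ 5 = 1) : Nat.card A ≤ 5 ^ 7 := by
  haveI : Fact (Nat.Prime 5) := ⟨by norm_num⟩
  have pA : IsPGroup 5 A := fun a => ⟨1, Subtype.ext (by simpa using hA a a.2)⟩
  obtain ⟨u, -, hu⟩ := conj_into_T hN le_top pA le_top
  let ν : A →* S.N := ((MulAut.conj u).toMonoidHom.comp A.subtype).codRestrict _ fun x => hu _ x.2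
  have a1 : Nat.card (S.piW.comp ν).range ≤ 5 := by
    obtain ⟨n, hn⟩ := IsPGroup.iff_card.1 (pA.of_surjective _ (S.piW.comp ν).rangeRestrict_surjective)
    have := card_subgroup_dvd_card (S.piW.comp ν).range
    rw [hn, show Nat.card tabE6_chk.cd.W = 51840 from cardWE6] at this
    rw [hn]
    exact (Nat.pow_le_pow_right (by norm_num) (by
      by_contra e'; exact absurd ((pow_dvd_pow 5 (show 2 ≤ n by omega)).trans this) (by norm_num))).trans_eq (pow_one 5)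
  choose c hc using fun x : (S.piW.comp ν).ker => h.diag (g := ν x) (S.ker_piW.le x.2)
  have a2 := Nat.card_le_card_of_injective (β := Fin 6 → rootsOfUnity 5 k)
    (fun (x : (S.piW.comp ν).ker) i => ⟨c x i, h.c_pow (by
      rw [← Subgroup.coe_pow, ← map_pow, show x.1 ^ 5 = 1 from Subtype.ext (hA _ x.1.2), map_one, Subgroup.coe_one]) (hc x) i⟩)
    fun x y e' => by
      have b1 : c x = c y := funext fun i => congrArg Subtype.val (congrFun e' i)
      have b2 : ρ (ν x) = ρ (ν y) := ext_e fun j hj => by rw [hc x j hj, hc y j hj, b1]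
      have b3 := mul_inv_eq_one.1 (h.inj (ν x * (ν y : Γ)⁻¹) (by rw [map_mul, b2, ← map_mul, mul_inv_cancel, map_one]))
      exact Subtype.ext (Subtype.ext ((MulAut.conj u).injective b3))
  rw [Nat.card_fun, Nat.card_eq_fintype_card (α := Fin 6), Fintype.card_fin] at a2
  have a3 := Nat.pow_le_pow_left (card_rootsOfUnity k 5) 6
  rw [← (S.piW.comp ν).ker.card_mul_index, index_ker, pow_succ]
  exact Nat.mul_le_mul (a2.trans a3) a1

theorem no13 (hN : ¬ 11 ∣ S.N.index) : ¬ Sec (alternatingGroup (Fin 13)) Γ := by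
  haveI : Fact (Nat.Prime 11) := ⟨by norm_num⟩
  rintro ⟨X, f, hf⟩
  let c : alternatingGroup (Fin 13) := ⟨c11, Equiv.Perm.mem_alternatingGroup.2 (by decide +kernel)⟩
  let γ : alternatingGroup (Fin 13) := ⟨g11, Equiv.Perm.mem_alternatingGroup.2 (by decide +kernel)⟩
  have c1 : c ^ 11 = 1 := Subtype.ext (by decide +kernel)
  have c2 : γ * c * γ⁻¹ = c ^ 2 := Subtype.ext (by decide +kernel)
  have c0 : c ≠ 1 := fun e' => absurd (congrArg Subtype.val e') (by decide +kernel)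
  have c3 : ∀ x ∈ zpowers c, γ * x * γ⁻¹ = x ^ 2 := by
    rintro _ ⟨i, rfl⟩
    rw [← conj_zpow, c2, ← zpow_natCast, ← zpow_natCast, ← zpow_mul, ← zpow_mul, mul_comm]
  have t : (⊤ : Subgroup X).map f = ⊤ := map_top_of_surjective f hf
  obtain ⟨R, -, r1, r2, r3⟩ := Lead.AS.lift f (M := ⊤) (pgroup_zp c1) (t ▸ le_top)
  obtain ⟨g, -, g1, g2⟩ := r3 γ (t ▸ mem_top γ) (mem_norm_of fun x hx => c3 x hx ▸ pow_mem hx 2)
  obtain ⟨u, -, hu⟩ := conj_into_T hN le_top (r1.map X.subtype) le_top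
  have a1 : ∀ x ∈ R, u * x * u⁻¹ ∈ S.H := fun x hx => by
    obtain ⟨n, hn⟩ := r1 ⟨x, hx⟩
    have b1 : S.piW ⟨_, hu _ ⟨x, hx, rfl⟩⟩ ^ 11 ^ n = 1 := by
      rw [← map_pow, ← map_one S.piW]
      refine congrArg _ (Subtype.ext ?_)
      have := congrArg (fun y : R => u * y * u⁻¹) hn
      simpa [conj_pow] using this
    have b2 := orderOf_dvd_natCard (S.piW ⟨_, hu _ ⟨x, hx, rfl⟩⟩)
    rw [show Nat.card tabE6_chk.cd.W = 51840 from cardWE6] at b2
    exact S.ker_piW.le (orderOf_eq_one_iff.1 (Nat.eq_one_of_dvd_coprimes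
      (Nat.Coprime.pow_left n (by norm_num)) (orderOf_dvd_of_pow_eq_one b1) b2))
  have a2 : ∀ x y : R, Commute x y := fun x y => Subtype.ext (Subtype.ext ((MulAut.conj u).injective (by
    simpa [mul_assoc] using (h.comm (a1 _ x.2) (a1 _ y.2)).eq)))
  let α : R →* R := MonoidHom.mk' (fun x => ⟨_, g1 x x.2⟩ * (x ^ 2)⁻¹) fun x y => by
    rw [(a2 x y).mul_pow, mul_inv_rev, (a2 (y ^ 2)⁻¹ _).eq, mul_mul_mul_comm' a2]
    congr 1
    ext; simp [mul_assoc]
  have a3 : ¬ Function.Injective α := fun e' => by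
    obtain ⟨r, r4, r5⟩ := r2.ge (mem_zpowers c)
    obtain ⟨x, hx⟩ := Finite.surjective_of_injective e' ⟨r, r4⟩
    refine c0 (r5 ▸ ?_)
    have : g * x * g⁻¹ * ((x : X) ^ 2)⁻¹ = r := congrArg Subtype.val hx
    rw [← this]
    simp only [map_mul, map_inv, map_pow, g2, c3 _ (r2.le ⟨_, x.2, rfl⟩), mul_inv_cancel]
  rw [injective_iff_map_eq_one] at a3
  push Not at a3
  obtain ⟨x, x1, x2⟩ := a3
  have x3 : g * x * g⁻¹ = x ^ 2 := congrArg Subtype.val (mul_inv_eq_one.1 x1)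
  obtain ⟨n, hn⟩ := IsPGroup.iff_orderOf.1 r1 x
  obtain ⟨m, rfl⟩ := Nat.exists_eq_succ_of_ne_zero (show n ≠ 0 from fun e' => x2 (orderOf_eq_one_iff.1 (by simpa [e'] using hn)))
  have y0 : x ^ 11 ^ m ≠ 1 := pow_ne_one_of_lt_orderOf (by positivity) (hn ▸ Nat.pow_lt_pow_right (by norm_num) m.lt_succ_self)
  have y1 : (x ^ 11 ^ m) ^ 11 = 1 := by rw [← pow_mul, ← pow_succ, ← hn, pow_orderOf_eq_one]
  have y2 : g * (x ^ 11 ^ m : R) * g⁻¹ = (x ^ 11 ^ m : R) ^ 2 := by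
    rw [Subgroup.coe_pow, ← conj_pow, x3, ← pow_mul, ← pow_mul, mul_comm]
  generalize x ^ 11 ^ m = y at *
  refine (h.toral chk11 (by decide) (by decide) (a1 y y.2) (u := u * g * u⁻¹) (by simpa using y0) ?_ ?_).1 rfl
  · rw [conj_pow, ← Subgroup.coe_pow, ← Subgroup.coe_pow, y1]; simp
  · rw [conj_pow, ← Subgroup.coe_pow, ← y2]; simp [mul_assoc]

end Rp

end H25.EF
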