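import Cfsg.Agent.H25.ES3

/-! Alternating groups of degree 14 and 15 as sections of `E₇`. -/

set_option autoImplicit false
set_option linter.unusedSectionVars false

namespace H25.ES
open Subgroup Equiv Multiplicative H24 Cfsg.Lie Lead.AS

section
variable (k s : ℕ) [hs : Fact s.Prime] [h2 : Fact (2 < s)]

/-- translations in each block -/
def tr : Multiplicative (Fin k → ZMod s) →* Perm (Fin k × ZMod s) :=
  MonoidHom.mk' (fun v => Equiv.prodCongrRight fun i => Equiv.addRight (v.toAdd i)) fun a b => by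
    ext x <;> simp [add_comm, add_left_comm]

theorem ex_s (v : Multiplicative (Fin k → ZMod s)) : v ^ s = 1 := toAdd.injective (by ext; simp)

def TH : Multiplicative (Fin k → ZMod s) →* alternatingGroup (Fin k × ZMod s) :=
  (tr k s).codRestrict _ fun v => by
    have := congrArg (Perm.sign ∘ tr k s) (ex_s k s v)
    simp only [Function.comp_apply, map_pow, map_one] at this
    rcases Int.units_eq_one_or (Perm.sign (tr k s v)) with e | e
    · exact e
    · rw [e, (hs.out.odd_of_ne_two h2.out.ne').neg_one_pow] at this; exact absurd this (by decide)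

abbrev BB := normalizer ((TH k s).range : Set (alternatingGroup (Fin k × ZMod s)))

def th : Multiplicative (Fin k → ZMod s) →* BB k s := (TH k s).codRestrict _ fun v => le_normalizer ⟨v, rfl⟩

variable {k s}

def gam (π : Perm (Fin k)) (a : Fin k → (ZMod s)ˣ) : Perm (Fin k × ZMod s) :=
  Equiv.prodShear π fun i => (a i).mulLeft

def mon (π : Perm (Fin k)) (a : Fin k → (ZMod s)ˣ) (v : Fin k → ZMod s) : Fin k → ZMod s :=
  fun j => a (π.symm j) * v (π.symm j)

def Re (M : (Fin k → ZMod s) → Fin k → ZMod s) : Prop :=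
  ∃ σ : BB k s, ∀ v, σ * th k s v * σ⁻¹ = th k s (ofAdd (M v.toAdd))

theorem Re.mon {π : Perm (Fin k)} {a : Fin k → (ZMod s)ˣ} (h : Perm.sign (gam π a) = 1) : Re (mon π a) := by
  have : ∀ v, gam π a * tr k s v * (gam π a)⁻¹ = tr k s (ofAdd (ES.mon π a v.toAdd)) := fun v => by
    rw [mul_inv_eq_iff_eq_mul]
    ext x <;> simp [gam, tr, ES.mon, mul_add]
  exact ⟨⟨⟨_, h⟩, mem_norm_of (by rintro _ ⟨v, rfl⟩; exact ⟨_, Subtype.ext (this v).symm⟩)⟩,
    fun v => Subtype.ext (Subtype.ext (this v))⟩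

theorem Re.comp {M N : (Fin k → ZMod s) → Fin k → ZMod s} (h : Re M) (h' : Re N) : Re (M ∘ N) := by
  obtain ⟨a, ha⟩ := h
  obtain ⟨b, hb⟩ := h'
  exact ⟨a * b, fun v => by
    rw [show a * b * th k s v * (a * b)⁻¹ = a * (b * th k s v * b⁻¹) * a⁻¹ by group, hb, ha]; rfl⟩

theorem Re.iter {M : (Fin k → ZMod s) → Fin k → ZMod s} (h : Re M) (n : ℕ) : Re M^[n] := by
  induction n with
  | zero => exact ⟨1, fun v => by simp⟩
  | succ n ih => exact ih.comp h

def wt (v : Fin k → ZMod s) : ℕ := (Finset.univ.filter fun i => v i ≠ 0).card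
def rp (k s : ℕ) (n : ℕ) : Fin k → ZMod s := fun i => if i.val < n then 1 else 0

theorem hb (hw : ∀ v, ∃ M, Re M ∧ M v = rp k s (wt v)) (hk : 2 ≤ k) (hi : ¬ s ^ (k + 1) ∣ (k * s).factorial)
    (sc : k ≤ 2 → ∃ a : ℕ, Re (k := k) (s := s) (fun v => a • v) ∧ a * a % s = 2) :
    HB s (th k s) ∧ ∀ v v', wt v.toAdd = wt v'.toAdd → IsConj (th k s v) (th k s v') := by
  have a0 : ∀ v, IsConj (th k s v) (th k s (ofAdd (rp k s (wt v.toAdd)))) := fun v => by
    obtain ⟨M, ⟨σ, h1⟩, h2⟩ := hw v.toAdd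
    exact isConj_iff.2 ⟨σ, h2 ▸ h1 v⟩
  have a1 : ∀ v v', wt v.toAdd = wt v'.toAdd → IsConj (th k s v) (th k s v') := fun v v' e =>
    (a0 v).trans (e ▸ (a0 v').symm)
  have t : (2 : ZMod s) ≠ 0 := fun e => (Nat.le_of_dvd two_pos ((ZMod.natCast_eq_zero_iff 2 s).1 e)).not_gt h2.out
  have i1 : Function.Injective (TH k s) := fun a b e => toAdd.injective (funext fun i => by
    simpa [TH, tr] using congrArg (fun g : alternatingGroup (Fin k × ZMod s) => (g.1 (i, 0)).2) e)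
  have i2 : (th k s).range = (TH k s).range.subgroupOf (BB k s) := by
    ext x; exact ⟨fun ⟨v, e⟩ => ⟨v, congrArg Subtype.val e⟩, fun ⟨v, e⟩ => ⟨v, Subtype.ext e⟩⟩
  have cE : Nat.card (Multiplicative (Fin k → ZMod s)) = s ^ k := by simp
  have s1 := hs.out.one_lt
  refine ⟨⟨fun a b e => i1 (congrArg Subtype.val e), i2 ▸ normal_in_normalizer, ex_s k s, fun e => hi ?_,
    fun U hU => or_iff_not_imp_left.2 fun e => ?_, cE ▸ (pow_one s).ge.trans_lt (Nat.pow_lt_pow_right s1 hk),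
    fun e => a1 _ _ (by simp [wt, two_mul, ← two_mul, t]), fun e => ?_⟩, a1⟩
  · haveI : Nontrivial (Fin k) := Fin.nontrivial_iff_two_le.2 hk
    have b1 := (TH k s).range.card_mul_index
    have b2 := two_mul_nat_card_alternatingGroup (α := Fin k × ZMod s)
    rw [← Nat.card_congr (MonoidHom.ofInjective i1).toEquiv, cE] at b1
    rw [Nat.card_perm, ← b1, Nat.card_prod, Nat.card_zmod, Nat.card_eq_fintype_card, Fintype.card_fin] at b2
    rw [← b2, pow_succ]
    exact (mul_dvd_mul_left _ ((i2 ▸ e).trans (relIndex_dvd_index_of_le le_normalizer))).mul_left 2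
  · obtain ⟨⟨v, hv⟩, v0⟩ := ne_bot_iff_exists_ne_one.1 e
    obtain ⟨i, hi⟩ : ∃ i, v.toAdd i ≠ 0 := Function.ne_iff.1 fun e => v0 (Subtype.ext (toAdd.injective e))
    have w1 : ∀ j (x : ZMod s), x ≠ 0 → wt (Pi.single j x : Fin k → ZMod s) = 1 := fun j x hx =>
      Finset.card_eq_one.2 ⟨j, by ext l; by_cases e : l = j <;> simp [e, hx]⟩
    have b1 := (U.mul_mem_cancel_left hv).1 (hU v hv (v * ofAdd (Pi.single i (v.toAdd i))) (a1 _ _ (by
      unfold wt; congr 1; ext l; by_cases e : l = i <;> simp [e, hi, ← two_mul, t])))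
    refine top_le_iff.1 fun x _ => ?_
    rw [← ofAdd_toAdd x, ← Finset.univ_sum_single x.toAdd, ofAdd_sum]
    refine U.prod_mem fun j _ => ?_
    by_cases e : x.toAdd j = 0
    · rw [e, Pi.single_zero]; exact U.one_mem
    · exact hU _ b1 _ (a1 _ _ ((w1 _ _ hi).trans (w1 _ _ e).symm))
  · obtain ⟨a, ⟨σ, b1⟩, b2⟩ := sc (by rwa [cE, ← sq, Nat.pow_le_pow_iff_right s1] at e)
    exact ⟨σ, a, b1, b2⟩

theorem sec_BB {G : Type*} [Group G] {r : ℕ} (h : Sec (alternatingGroup (Fin r)) G) (hr : k * s ≤ r) :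
    Sec (BB k s) G :=
  ((h.alt hr).left (Fintype.equivFinOfCardEq (α := Fin k × ZMod s) (by simp)).altCongrHom.toMonoidHom
    (MulEquiv.injective _)).left _ (subtype_injective _)

theorem fin_E7 {F : Type*} [Field F] [Fintype F] (hF : (Fintype.card F : ZMod (s * s)) = 1)
    (h1 : s ∣ 2903040) (hW : ¬ s * s ∣ 2903040) {l : List ℕ} (hq : ∀ m : ZMod s → ℕ, ∑ a, m a = 8 → QQ s l m)
    (w : List (Fin 7)) (w1 : ∀ k ∈ w, k ≠ 1) (w2 : tabE7.chkOrd (w.map Fin.val) s = true)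
    (w3 : s ≤ ((Finset.range 7).image fun k => (fun i => w.foldr sw i)^[k] 1).card)
    (h : HB s (th k s) ∧ ∀ v v', wt v.toAdd = wt v'.toAdd → IsConj (th k s v) (th k s v'))
    (hB : Sec (alternatingGroup (Fin (k * s))) (chevE7.group F)) (hr : ∀ v, wt (rp k s (wt v)) = wt (s := s) (k := k) v) :
    ∃ n : ℕ → ℕ, n 0 = 112 ∧ (∀ v : Fin k → ZMod s, v ≠ 0 → n (wt v) ∈ l) ∧
      ∃ m, ((Finset.univ.val.map (wt (k := k) (s := s))).map n).sum * s = s ^ k * (112 + (s - 1) * m) := by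
  obtain ⟨n, a1, a2, a3, m, a4⟩ := torE7 F hF h1 hW hq h2.out.ne' w w1 w2 w3 h.1 (sec_BB hB le_rfl)
  have b1 : ∀ v, n (ofAdd (rp k s (wt v))) = n (ofAdd v) := fun v => a3 _ _ (h.2 _ _ (hr v))
  refine ⟨fun j => n (ofAdd (rp k s j)), a1 ▸ congrArg n (by ext; simp [rp]), fun v hv => by
    beta_reduce; rw [b1]; exact a2 (ofAdd v) hv, m, ?_⟩
  rw [Multiset.map_map, ← show Fintype.card (Multiplicative (Fin k → ZMod s)) = s ^ k by simp, ← a4]
  exact congrArg (· * s) (Fintype.sum_equiv ofAdd (fun v => n (ofAdd (rp k s (wt v)))) n b1)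

end

instance fact7 : Fact (Nat.Prime 7) := ⟨by norm_num⟩
instance fact5 : Fact (Nat.Prime 5) := ⟨by norm_num⟩
instance fact27 : Fact (2 < 7) := ⟨by norm_num⟩
instance fact25 : Fact (2 < 5) := ⟨by norm_num⟩

def u3 : (ZMod 7)ˣ := ⟨3, 5, by decide, by decide⟩
def u2 : (ZMod 5)ˣ := ⟨2, 3, by decide, by decide⟩

theorem E7_14 {F : Type*} [Field F] [Fintype F] (hF : (Fintype.card F : ZMod (7 * 7)) = 1) :
    ¬ Sec (alternatingGroup (Fin 14)) (chevE7.group F) := fun hB => by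
  have r1 : Re (mon (1 : Perm (Fin 2)) ![u3, u3]) := Re.mon (by decide +kernel)
  have r2 : Re (mon (1 : Perm (Fin 2)) ![u3 * u3, 1]) := Re.mon (by decide +kernel)
  have r3 : Re (mon (swap (0 : Fin 2) 1) ![u3, 1]) := Re.mon (by decide +kernel)
  have c : ∀ v, ∃ i < 6, ∃ j < 3, ∃ l < 2, ((mon (1 : Perm (Fin 2)) ![u3, u3])^[i] ∘
      (mon (1 : Perm (Fin 2)) ![u3 * u3, 1])^[j] ∘ (mon (swap (0 : Fin 2) 1) ![u3, 1])^[l]) v = rp 2 7 (wt v) := by
    decide +kernel
  obtain ⟨n, a1, a2, m, a3⟩ := fin_E7 (k := 2) hF (by decide) (by decide) QQ7 [0, 2, 3, 4, 5, 6] (by decide)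
    (by decide +kernel) (by decide +kernel) (hb (fun v => by
      obtain ⟨i, -, j, -, l, -, e⟩ := c v
      exact ⟨_, (r1.iter i).comp ((r2.iter j).comp (r3.iter l)), e⟩) le_rfl (by decide +kernel)
      fun _ => ⟨3, by convert r1 using 2; decide +kernel +revert, rfl⟩) hB (by decide +kernel)
  rw [show Finset.univ.val.map (wt (k := 2) (s := 7)) = {0} + Multiset.replicate 12 1 + Multiset.replicate 36 2 by
    decide +kernel] at a3
  have b1 : n 1 ∈ _ := a2 ![1, 0] (by decide)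
  have b2 : n 2 ∈ _ := a2 ![1, 1] (by decide)
  simp only [Multiset.map_add, Multiset.sum_add, Multiset.map_replicate, Multiset.sum_replicate,
    Multiset.map_singleton, Multiset.sum_singleton, smul_eq_mul, List.mem_cons, List.not_mem_nil,
    or_false] at a3 b1 b2
  rw [a1] at a3
  rcases b1 with b1 | b1 | b1 <;> rcases b2 with b2 | b2 | b2 <;> rw [b1, b2] at a3 <;> omega

theorem E7_15 {F : Type*} [Field F] [Fintype F] (hF : (Fintype.card F : ZMod (5 * 5)) = 1) :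
    ¬ Sec (alternatingGroup (Fin 15)) (chevE7.group F) := fun hB => by
  have r1 : Re (mon (1 : Perm (Fin 3)) ![u2, u2, 1]) := Re.mon (by decide +kernel)
  have r2 : Re (mon (1 : Perm (Fin 3)) ![1, u2, u2]) := Re.mon (by decide +kernel)
  have r3 : Re (mon (1 : Perm (Fin 3)) ![-1, 1, (1 : (ZMod 5)ˣ)]) := Re.mon (by decide +kernel)
  have r4 : Re (mon (finRotate 3) ![1, 1, (1 : (ZMod 5)ˣ)]) := Re.mon (by decide +kernel)
  have r5 : Re (mon (swap (0 : Fin 3) 1) ![u2, 1, 1]) := Re.mon (by decide +kernel)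
  have c : ∀ v, ∃ i < 4, ∃ j < 4, ∃ l < 2, ∃ m < 3, ∃ n < 2, ((mon (1 : Perm (Fin 3)) ![u2, u2, 1])^[i] ∘
      (mon (1 : Perm (Fin 3)) ![1, u2, u2])^[j] ∘ (mon (1 : Perm (Fin 3)) ![-1, 1, (1 : (ZMod 5)ˣ)])^[l] ∘
      (mon (finRotate 3) ![1, 1, (1 : (ZMod 5)ˣ)])^[m] ∘ (mon (swap (0 : Fin 3) 1) ![u2, 1, 1])^[n]) v =
      rp 3 5 (wt v) := by
    decide +kernel
  obtain ⟨n, a1, a2, m, a3⟩ := fin_E7 (k := 3) hF (by decide) (by decide) QQ5 [0, 2, 3, 4] (by decide)
    (by decide +kernel) (by decide +kernel) (hb (fun v => by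
      obtain ⟨i, -, j, -, l, -, m, -, n, -, e⟩ := c v
      exact ⟨_, (r1.iter i).comp ((r2.iter j).comp ((r3.iter l).comp ((r4.iter m).comp (r5.iter n)))), e⟩)
      (by decide) (by decide) fun e => absurd e (by decide)) hB (by decide +kernel)
  rw [show Finset.univ.val.map (wt (k := 3) (s := 5)) = {0} + Multiset.replicate 12 1 + Multiset.replicate 48 2 +
    Multiset.replicate 64 3 by decide +kernel] at a3
  have b1 : n 1 ∈ _ := a2 ![1, 0, 0] (by decide)
  have b2 : n 2 ∈ _ := a2 ![1, 1, 0] (by decide)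
  have b3 : n 3 ∈ _ := a2 ![1, 1, 1] (by decide)
  simp only [Multiset.map_add, Multiset.sum_add, Multiset.map_replicate, Multiset.sum_replicate,
    Multiset.map_singleton, Multiset.sum_singleton, smul_eq_mul, List.mem_singleton] at a3 b1 b2 b3
  omega

theorem euler {p n : ℕ} (h : p.Coprime n) (a : ℕ) : (((p ^ a) ^ n.totient : ℕ) : ZMod n) = 1 :=
  ((ZMod.natCast_eq_natCast_iff _ _ _).2 (Nat.ModEq.pow_totient (h.pow_left a))).trans Nat.cast_one

end H25.ES
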