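import Cfsg.Agent.H25.EF3
import Cfsg.Agent.H20.BT
import Cfsg.Agent.S1084
import Cfsg.Agent.H21.Spl2
import Cfsg.Agent.H26.Nsp2
import Cfsg.Agent.H2.Red2
import Cfsg.Agent.H25.ES4

/-! Alternating sections of `E₆`: minimal covers and the simply connected group. -/

set_option autoImplicit false
set_option linter.unusedSectionVars false

namespace H25.EF
open Module H25.AW H24 H24.C27 H24.RS Cfsg.Lie Lead.AS Subgroup Equiv Equiv.Perm Matrix

section
variable {ι Φ : Type} [Fintype ι] [DecidableEq ι] [Fintype Φ] [DecidableEq Φ] {R : CD ι Φ} {F : Type*} [Field F]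
  [Fintype F] {Γ : Type*} [Group Γ] (S : St R F Γ) (hG : S.Gr = ⊤)
include hG

theorem idx_N {n : ℕ} (hF : (Fintype.card F : ZMod n) = 1) :
    ((Nat.card R.W * S.N.index : ℕ) : ZMod n) = Nat.card R.W := by
  haveI := S.finite hG S.r3_of_finite
  have a1 := relIndex_mul_index S.H_le_N
  rw [relIndex, ← S.ker_piW, index_ker, MonoidHom.range_eq_top.2 S.piW_surjective, card_top] at a1
  have a2 := S.card_Gr
  rw [hG, card_top, ← S.H.card_mul_index, mul_comm (_ ^ _), mul_assoc] at a2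
  rw [a1, Nat.eq_of_mul_eq_mul_left Nat.card_pos a2, ← RS.WJ_univ, ← RS.PJ_one, RS.PJ, RS.PJ,
    Nat.card_eq_fintype_card]
  push_cast
  simp only [hF, one_pow, one_mul]

theorem minsec (p : ℕ) [hp : Fact p.Prime] [CharP F p] (h3 : p ≠ 3) (hs : Sec (alternatingGroup (Fin 12)) Γ) :
    ∃ (X : Subgroup Γ) (φ : X →* Perm (Fin 12)), Hy φ ∧
      (∀ K : Subgroup X, (∀ g, Perm.sign g = 1 → ∃ x ∈ K, φ x = g) → K = ⊤) ∧ ∀ z, φ z = 1 → ¬ p ∣ orderOf z := by
  classical
  haveI := S.finite hG S.r3_of_finite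
  have ex : ∃ n, ∃ (X : Subgroup Γ) (φ : X →* Perm (Fin 12)), Hy φ ∧ Nat.card X = n := by
    obtain ⟨X, f, hf⟩ := hs
    exact ⟨_, X, (alternatingGroup _).subtype.comp f, ⟨fun x => (f x).2, fun g hg => by
      obtain ⟨x, hx⟩ := hf ⟨g, hg⟩
      exact ⟨x, congrArg Subtype.val hx⟩⟩, rfl⟩
  obtain ⟨X, φ, h, hX⟩ := Nat.find_spec ex
  have mn0 : ∀ (Y : Subgroup Γ) (ψ : Y →* Perm (Fin 12)), Hy ψ → Nat.card X ≤ Nat.card Y := fun Y ψ a =>
    hX ▸ Nat.find_min' ex ⟨Y, ψ, a, rfl⟩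
  have mn : ∀ K : Subgroup X, (∀ g, Perm.sign g = 1 → ∃ x ∈ K, φ x = g) → K = ⊤ := fun K hK => by
    let e := K.equivMapOfInjective X.subtype X.subtype_injective
    have := mn0 _ ((φ.comp K.subtype).comp e.symm.toMonoidHom) ⟨fun x => h.sg _, fun g hg => by
      obtain ⟨x, hx, rfl⟩ := hK g hg
      exact ⟨e ⟨x, hx⟩, by simp⟩⟩
    exact eq_top_of_le_card _ (this.trans_eq (Nat.card_congr e.toEquiv).symm)
  refine ⟨X, φ, h, mn, fun z hz hd => ?_⟩
  have f1 : φ.ker ≤ frattini X := le_iInf₂ fun H hH => by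
    by_contra e
    refine hH.1 (mn H fun g hg => ?_)
    obtain ⟨x, rfl⟩ := h.sj g hg
    have : x ∈ ((H ⊔ φ.ker : Subgroup X) : Set X) := (hH.2 _ (left_lt_sup.2 e)).symm ▸ mem_top x
    rw [mul_normal] at this
    obtain ⟨a, ha, b, hb, rfl⟩ := this
    exact ⟨a, ha, by rw [map_mul, show φ b = 1 from hb, mul_one]⟩
  haveI := frattini_nilpotent (G := X)
  obtain ⟨P⟩ : Nonempty (Sylow p (frattini X)) := inferInstance
  haveI : (P : Subgroup (frattini X)).Normal := inferInstance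
  haveI := P.characteristic_of_normal this
  have nD : ((P : Subgroup (frattini X)).map (frattini X).subtype).Normal := inferInstance
  have pD := P.isPGroup'.map (frattini X).subtype
  have D0 : (P : Subgroup (frattini X)).map (frattini X).subtype ≠ ⊥ := fun e =>
    P.ne_bot_of_dvd_card (hd.trans (orderOf_dvd_natCard _ (f1 hz)))
      ((map_eq_bot_iff_of_injective _ (subtype_injective _)).1 e)
  generalize (P : Subgroup (frattini X)).map (frattini X).subtype = D at *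
  obtain ⟨g, J, -, b1, b2⟩ := H20.BT.borel_tits S hG p (pD.map X.subtype) fun e =>
    D0 ((map_eq_bot_iff_of_injective _ (subtype_injective _)).1 e)
  have b3 : ∀ x : X, g⁻¹ * x * g ∈ S.PJ J := fun x => b1 x (mem_norm_of (by
    rintro _ ⟨y, hy, rfl⟩; exact ⟨_, nD.conj_mem y hy x, rfl⟩))
  have u1 : S.UJ J ≤ S.PJ J := S.UJ_sup_LJ J ▸ le_sup_left
  haveI : ((S.UJ J).subgroupOf (S.PJ J)).Normal := (normal_subgroupOf_iff_le_normalizer u1).2 (S.PJ_le_normalizer J)
  have c : ((S.UJ J).subgroupOf (S.PJ J)).IsComplement' ((S.LJ J).subgroupOf (S.PJ J)) :=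
    isComplement'_of_disjoint_and_mul_eq_univ (disjoint_def.2 fun {x} a b =>
      Subtype.ext (mem_bot.1 (S.UJ_inf_LJ J ▸ ⟨a, b⟩))) (by
      rw [← normal_mul, ← subgroupOf_sup u1 (S.LJ_le_PJ J), S.UJ_sup_LJ, subgroupOf_self, coe_top])
  let ν : X →* S.PJ J := ((MulAut.conj g⁻¹).toMonoidHom.comp X.subtype).codRestrict _ fun x => by simpa using b3 x
  let ψ : X →* Γ := ((S.PJ J).subtype.comp (Subgroup.subtype _)).comp
    (c.symm.QuotientMulEquiv.toMonoidHom.comp ((QuotientGroup.mk' _).comp ν))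
  have k1 : ∀ x, ψ x = 1 ↔ g⁻¹ * x * g ∈ S.UJ J := fun x => by
    have : ψ x = 1 ↔ ν x ∈ (S.UJ J).subgroupOf (S.PJ J) := by
      rw [← QuotientGroup.eq_one_iff, ← c.symm.QuotientMulEquiv.map_eq_one_iff]
      exact ⟨fun e => Subtype.ext (Subtype.ext e), fun e => congrArg (fun y => (y.1.1 : Γ)) e⟩
    simpa [ν, mem_subgroupOf] using this
  have k2 : ψ.ker ≤ φ.ker := (h.nd (by simp) ψ.ker).resolve_right fun e => by
    obtain ⟨x, x1, x2⟩ := e (c3 0 1 2) (c3_sign (by decide))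
    obtain ⟨n, hn⟩ := S.isPGroup_U p ⟨_, S.XS_mono (fun _ h => h.1) ((k1 x).1 x1)⟩
    have a1 : x ^ p ^ n = 1 := Subtype.ext (by
      have : (g⁻¹ * x * g⁻¹⁻¹) ^ p ^ n = 1 := by rw [inv_inv]; exact congrArg Subtype.val hn
      rwa [conj_pow, conj_eq_one_iff] at this)
    have a2 := orderOf_dvd_of_pow_eq_one (show φ x ^ p ^ n = 1 by rw [← map_pow, a1, map_one])
    rw [x2, (c3_three (by decide)).orderOf] at a2
    exact h3 ((Nat.prime_dvd_prime_iff_eq Nat.prime_three hp.out).1 (Nat.prime_three.dvd_of_dvd_pow a2)).symm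
  let φ' := ψ.rangeRestrict.liftOfSurjective ψ.rangeRestrict_surjective ⟨φ, by rwa [MonoidHom.ker_rangeRestrict]⟩
  have k3 : ∀ x, φ' (ψ.rangeRestrict x) = φ x := fun x => MonoidHom.liftOfRightInverse_comp_apply _ _ _ _ x
  have k4 := mn0 _ φ' ⟨fun y => by
    obtain ⟨x, rfl⟩ := ψ.rangeRestrict_surjective y
    rw [k3, h.sg], fun g hg => by
    obtain ⟨x, rfl⟩ := h.sj g hg
    exact ⟨_, k3 x⟩⟩
  have k5 := (ψ.rangeRestrict_surjective.bijective_of_nat_card_le k4).1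
  refine D0 (eq_bot_iff.2 fun d hd => k5 (Subtype.ext ?_))
  exact ((k1 d).2 (b2 d ⟨d, hd, rfl⟩)).trans (map_one ψ).symm

end

variable {F k : Type*} [Field F] [Field k]

theorem n_e (r : Fin chevE6.nroots) (j : ℕ) : ∃ c : F, ((st F).n r 1).1 *ᵥ e F j = c • e F (tau r j) := by
  have hr : (r : ℕ) < 72 := r.2
  have hn : ((st F).n r 1).1 = (1 + (1 : F) • Em F r) * (1 + -(1 : F)⁻¹ • Em F (ng r)) * (1 + (1 : F) • Em F r) := by
    simp only [St0.n, Units.val_mul, coe_x, val_neg, X]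
  rw [hn, tau]
  split_ifs with h h'
  · obtain ⟨-, a1, a2, a3, a4, a5⟩ := tc_sp (ng_lt r) h
    rw [ng_ng hr] at a1 a3 a4 a5
    exact ⟨_, (h_pair (A := Em F r) (B := Em F (ng r)) (p := e F j) (q := e F (tv (tc (ng r) j)))
      (sg_sq (tc (ng r) j)) (by simp [Em_e, ve, a1]) (by simp [Em_e, ve, a3, a4, a5, e_mod]) (by simp [Em_e, ve, h])
      (by simp [Em_e, ve, a2]) one_ne_zero).1⟩
  · obtain ⟨-, a1, a2, a3, a4, a5⟩ := tc_sp hr h'
    exact ⟨_, (h_pair (A := Em F r) (B := Em F (ng r)) (q := e F j) (p := e F (tv (tc r j)))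
      (sg_sq (tc r j)) (by simp [Em_e, ve, a2]) (by simp [Em_e, ve, h']) (by simp [Em_e, ve, a3, a4, a5, e_mod])
      (by simp [Em_e, ve, a1]) one_ne_zero).2⟩
  · exact ⟨1, by simp [← mulVec_mulVec, add_mulVec, neg_mulVec, Em_e, ve, not_not.1 h, not_not.1 h']⟩

theorem rp_of {Γ : Type*} [Group Γ] (S : St tabE6_chk.cd F Γ) (θ : Γ →* GL I27 F) (hi : ∀ g, θ g = 1 → g = 1)
    (hθ : ∀ r t, θ (S.x r t) = (st F).x r t) (ι : F →+* k) : ∃ ρ : Γ →* End k (I27 → k), Rp S ρ := by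
  let ρ : Γ →* End k (I27 → k) := (Matrix.toLinAlgEquiv' (R := k)).toRingEquiv.toMonoidHom.comp
    (ι.mapMatrix.toMonoidHom.comp ((Units.coeHom _).comp θ))
  have h0 : ∀ g v, ρ g v = (θ g).1.map ι *ᵥ v := fun _ _ => rfl
  have h1 : ∀ g j j' c, (θ g).1 *ᵥ e F j = c • e F j' → ρ g (e k j) = ι c • e k j' := fun g j j' c h => by
    funext i
    have := congrArg ι (congrFun h i)
    rw [h0]
    simp only [e, mulVec_single_one, col_apply, map_apply, Pi.smul_apply, smul_eq_mul, map_mul,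
      Pi.single_apply] at this ⊢
    rw [this]; split_ifs <;> simp
  refine ⟨ρ, fun g hg => hi g (Units.ext (Matrix.map_injective ι.injective ?_)), fun r t ht =>
    ⟨Units.mk0 (ι t) ((map_ne_zero ι).2 ht), fun j => ?_⟩, fun r j => ?_⟩
  · have : (θ g).1.map ι = 1 := (Matrix.toLinAlgEquiv' (R := k)).injective (hg.trans (map_one _).symm)
    simpa using this
  · rw [h1 _ j j _ (by rw [St0.map_h θ hθ, h_e r ht])]; simp
  · obtain ⟨c, hc⟩ := n_e (F := F) r j
    exact ⟨_, h1 _ _ _ _ (by rw [St0.map_n θ hθ, hc])⟩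

variable (F) in
/-- the simply connected group -/
noncomputable abbrev SC := ((tabE6_chk.grp F).pr (st F)).res

theorem sc_rp (ι : F →+* k) : ∃ ρ, Rp (k := k) (SC F) ρ := by
  let π := (MonoidHom.fst _ _).comp ((tabE6_chk.grp F).pr (st F)).Gr.subtype
  let θ := (MonoidHom.snd _ _).comp ((tabE6_chk.grp F).pr (st F)).Gr.subtype
  have hπ : ∀ r t, π ((SC F).x r t) = (tabE6_chk.grp F).x r t := fun _ _ => rfl
  have sπ : Function.Surjective π := St.surjective_of _ (tabE6_chk.grp_Gr F) π hπ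
  refine rp_of _ θ (fun g hg => ?_) (fun _ _ => rfl) ι
  haveI := (Cfsg.Agent.S1054.result (F := F) chevE6 (by simp)).1
  rcases (θ.normal_ker.map π sπ).eq_bot_or_eq_top with e | e
  · exact Subtype.ext (Prod.ext (mem_bot.1 (e ▸ mem_map_of_mem π hg)) hg)
  · obtain ⟨y, y1, y2⟩ := e.ge (mem_top (π ((SC F).x ⟨1, by decide⟩ 1)))
    have := congrArg θ (mem_center_iff.1 ((SC F).ker_le_center (St.res_Gr _) _ π hπ
      (show y⁻¹ * (SC F).x ⟨1, by decide⟩ 1 ∈ π.ker by rw [MonoidHom.mem_ker, map_mul, map_inv, y2, inv_mul_cancel]))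
      ((SC F).x ⟨70, by decide⟩ 1))
    simp only [map_mul, map_inv, show θ y = 1 from y1, inv_one, one_mul] at this
    exact (Cfsg.Agent.S1084.noncomm F (congrArg Units.val this).symm).elim

theorem sc_sec {A : Type*} [Group A] (h : Sec A (chevE6.group F)) : Sec A ((tabE6_chk.grp F).pr (st F)).Gr := by
  let π := (MonoidHom.fst _ _).comp ((tabE6_chk.grp F).pr (st F)).Gr.subtype
  have sπ : Function.Surjective π := St.surjective_of (S := (SC F).toSt0) _ (tabE6_chk.grp_Gr F) π fun _ _ => rfl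
  obtain ⟨H, f, hf⟩ := h
  exact ⟨H.comap π, f.comp (π.subgroupComap H), hf.comp (π.subgroupComap_surjective_of_surjective _ sπ)⟩

theorem E6_13 [Fintype F] (hF : (Fintype.card F : ZMod 11) = 1) :
    ¬ Sec (alternatingGroup (Fin 13)) (chevE6.group F) := fun h => by
  haveI := (SC F).finite (St.res_Gr _) (SC F).r3_of_finite
  obtain ⟨ρ, hρ⟩ := sc_rp (RingHom.id F)
  refine hρ.no13 (fun e => ?_) (sc_sec h)
  have := idx_N (SC F) (St.res_Gr _) hF
  rw [(ZMod.natCast_eq_zero_iff _ _).2 (e.mul_left _), show Nat.card tabE6_chk.cd.W = 51840 from cardWE6] at this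
  exact absurd this (by decide)

theorem E6_12 [Fintype F] (p : ℕ) [hp : Fact p.Prime] [CharP F p] (h2 : p ≠ 2) (h3 : p ≠ 3) (h5 : p ≠ 5)
    (hF : (Fintype.card F : ZMod 25) = 1) (h : Sec (alternatingGroup (Fin 12)) (chevE6.group F)) :
    ∃ (X : Subgroup ((tabE6_chk.grp F).pr (st F)).Gr) (_ : Finite X)
      (ρ : X →* End (AlgebraicClosure (ZMod p)) (I27 → AlgebraicClosure (ZMod p))) (φ : X →* Perm (Fin 12)),
      Mn ρ φ ∧ H5 ρ ∧ (30 : AlgebraicClosure (ZMod p)) ≠ 0 ∧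
      (∀ z, φ z = 1 → (orderOf z : AlgebraicClosure (ZMod p)) ≠ 0) ∧
      ∀ A : Subgroup X, (∀ a ∈ A, a ^ 5 = 1) → Nat.card A ≤ 5 ^ 7 := by
  haveI := (SC F).finite (St.res_Gr _) (SC F).r3_of_finite
  letI := ZMod.algebra F p
  obtain ⟨ρ, hρ⟩ := sc_rp (IsAlgClosed.lift (R := ZMod p) (S := F) (M := AlgebraicClosure (ZMod p))).toRingHom
  obtain ⟨X, φ, a1, a2, a3⟩ := minsec (SC F) (St.res_Gr _) p h3 (sc_sec h)
  have hN : ¬ 5 ∣ (SC F).N.index := fun e => by
    have := idx_N (SC F) (St.res_Gr _) hF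
    rw [show Nat.card tabE6_chk.cd.W = 51840 from cardWE6, (ZMod.natCast_eq_zero_iff _ _).2
      (mul_dvd_mul (show 5 ∣ 51840 by norm_num) e)] at this
    exact absurd this (by decide)
  have c : ∀ n : ℕ, ¬ p ∣ n → (n : AlgebraicClosure (ZMod p)) ≠ 0 := fun n a b =>
    a ((CharP.cast_eq_zero_iff _ p n).1 b)
  have c5 := c 5 fun e => h5 ((Nat.prime_dvd_prime_iff_eq hp.out Nat.prime_five).1 e)
  haveI := NeZero.mk c5
  obtain ⟨ζ, hζ⟩ := HasEnoughRootsOfUnity.exists_primitiveRoot (AlgebraicClosure (ZMod p)) 5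
  have b := hρ.h5 hN ⟨ζ, hζ.pow_eq_one, hζ.ne_one (by norm_num)⟩
  refine ⟨X, inferInstance, ρ.comp X.subtype, φ, ⟨a1, by simp, a2, fun x hx => Subtype.ext (hρ.inj _ hx)⟩,
    fun d g d0 d1 hg => b d g (fun e => d0 (Subtype.ext e)) (congrArg Subtype.val d1) (congrArg Subtype.val hg),
    (Nat.cast_ofNat (n := 30)).symm.trans_ne (c 30 fun e => ?_), fun z hz => c _ (a3 z hz), fun A hA => ?_⟩
  · rcases (hp.out.dvd_mul (m := 2 * 3) (n := 5)).1 e with e | e
    · rcases (hp.out.dvd_mul).1 e with e | e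
      · exact h2 ((Nat.prime_dvd_prime_iff_eq hp.out Nat.prime_two).1 e)
      · exact h3 ((Nat.prime_dvd_prime_iff_eq hp.out Nat.prime_three).1 e)
    · exact h5 ((Nat.prime_dvd_prime_iff_eq hp.out Nat.prime_five).1 e)
  · rw [Nat.card_congr (A.equivMapOfInjective X.subtype X.subtype_injective).toEquiv]
    refine hρ.r5 hN _ ?_
    rintro _ ⟨a, ha, rfl⟩
    exact congrArg Subtype.val (hA a ha)

theorem exists_T {X : Type*} [Group X] {φ : X →* Perm (Fin 12)} (h : Hy φ) (ce : ∀ z, φ z = 1 → ∀ x, Commute z x) :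
    ∃ T : Fin 12 → Fin 12 → Fin 12 → X, ∀ a b c, D3 a b c → Lf φ 3 (T a b c) (c3 a b c) := by
  have : ∀ a b c : Fin 12, ∃ t, D3 a b c → Lf φ 3 t (c3 a b c) := fun a b c => by
    by_cases d : D3 a b c
    · obtain ⟨x, hx⟩ := fresh [a, b, c] (by simp)
      obtain ⟨y, hy⟩ := fresh [a, b, c, x] (by simp)
      simp only [List.mem_cons, List.not_mem_nil, or_false, not_or] at hx hy
      obtain ⟨t, ht⟩ := h.exists_lf ce (m := 3) (by decide) (c3_sign d) (c3_pow d)
        (g := swap b c * swap x y) (by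
          rw [Perm.sign_mul, sign_swap d.2.2, sign_swap (Ne.symm hy.2.2.2)]; rfl) (by
          rw [c3_conj, c3_inv]
          simp only [Perm.mul_apply]
          rw [swap_apply_of_ne_of_ne (Ne.symm hx.1) (Ne.symm hy.1),
            swap_apply_of_ne_of_ne (Ne.symm hx.2.1) (Ne.symm hy.2.1),
            swap_apply_of_ne_of_ne (Ne.symm hx.2.2) (Ne.symm hy.2.2.1), swap_apply_left,
            swap_apply_right, swap_apply_of_ne_of_ne d.1 d.2.1])
      exact ⟨t, fun _ => ht⟩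
    · exact ⟨1, fun e => (d e).elim⟩
  choose T hT using this
  exact ⟨T, hT⟩

theorem tw_le (W : Set (List (ℕ × F))) : chevE6.genSubgroup F W ≤ chevE6.group F := by
  refine (closure_le _).2 ?_
  rintro g ⟨w, -, hw⟩
  induction w generalizing g with
  | nil => rw [show g = 1 from Units.ext hw]; exact one_mem _
  | cons a w ih =>
    obtain ⟨y, y1, y2⟩ : ∃ y ∈ chevE6.group F, (y : Matrix chevE6.Idx chevE6.Idx F) = chevE6.x F a.1 a.2 := by
      by_cases h : a.1 < chevE6.nroots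
      · exact ⟨_, ((tabE6_chk.grp F).x ⟨_, h⟩ a.2).2, tabE6_chk.coe_grp_x F ⟨_, h⟩ a.2⟩
      · exact ⟨1, one_mem _, by rw [ChevalleyDatum.x, dif_neg h]; rfl⟩
    refine (mul_mem_cancel_left (inv_mem y1)).1 (ih (g := y⁻¹ * g) ?_)
    rw [Units.val_mul, hw, ChevalleyDatum.wordMat, List.map_cons, List.prod_cons, ← y2, Units.inv_mul_cancel_left]
    rfl

theorem E6_12' [Fintype F] (p : ℕ) [hp : Fact p.Prime] [CharP F p] (h2 : p ≠ 2) (h3 : p ≠ 3) (h5 : p ≠ 5)
    (hF : (Fintype.card F : ZMod 25) = 1) : ¬ Sec (alternatingGroup (Fin 12)) (chevE6.group F) := fun h => by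
  obtain ⟨X, _, ρ, φ, a1, a2, a3, a4, a5⟩ := E6_12 p h2 h3 h5 hF h
  have hV : finrank (AlgebraicClosure (ZMod p)) (I27 → AlgebraicClosure (ZMod p)) = 27 := by simp
  have c := H2.Red.reduce a1 hV a2 (fun e => a3 (by linear_combination 6 * e)) a4 fun A _ => a5 A
  have ce : ∀ z, φ z = 1 → ∀ x, Commute z x := fun z hz x => (mem_center_iff.1 (c hz) x).symm
  obtain ⟨T, hT⟩ := exists_T a1.toHy ce
  by_cases e : (T 0 1 2 * T 0 1 3) ^ 2 = 1
  · exact H21.Spl.split a1.toHy ce a1.inj hV a2 a3 T hT e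
  · exact H26.Nsp.nsplit a1.toHy ce a1.inj hV a2 a3 T hT e

theorem E6_bd [Fintype F] (p : ℕ) [hp : Fact p.Prime] [CharP F p] {r : ℕ}
    (hs : Sec (alternatingGroup (Fin r)) (chevE6.group F)) : r ≤ 11 + (if p = 2 ∨ p = 3 ∨ p = 5 then 1 else 0) := by
  obtain ⟨a, hp', ha⟩ := FiniteField.card F p
  by_contra hr
  split_ifs at hr with h
  · haveI := Fintype.ofFinite (FiniteField.Extension F p 10)
    refine E6_13 (F := FiniteField.Extension F p 10) ?_ ((hs.alt (by omega)).group (algebraMap F _))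
    rw [Fintype.card_eq_nat_card, FiniteField.natCard_extension, Nat.card_eq_fintype_card, ha]
    exact ES.euler (n := 11) (by rcases h with rfl | rfl | rfl <;> norm_num) a
  · simp only [not_or] at h
    haveI := Fintype.ofFinite (FiniteField.Extension F p 20)
    haveI := charP_of_injective_algebraMap (algebraMap F (FiniteField.Extension F p 20)).injective p
    refine E6_12' (F := FiniteField.Extension F p 20) p h.1 h.2.1 h.2.2 ?_ ((hs.alt (by omega)).group (algebraMap F _))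
    rw [Fintype.card_eq_nat_card, FiniteField.natCard_extension, Nat.card_eq_fintype_card, ha]
    have := (Nat.coprime_primes hp' Nat.prime_five).2 h.2.2
    exact ES.euler (n := 5 * 5) (this.mul_right this) a

end H25.EF
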