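import Cfsg.Agent.Lead.AS2
import Cfsg.Agent.H7.Maschke

/-! Lifting an elementary abelian normal Sylow subgroup of a section into a torus. -/

set_option autoImplicit false
set_option linter.unusedSectionVars false

namespace H25.ES
open Subgroup
open scoped commutatorElement Pointwise

variable {X B E C : Type*} [Group X] [Finite X] [Group B] [Finite B] [CommGroup E] [Group C] [Finite C]
  {s : ℕ} [hs : Fact s.Prime]

/-- the shape of the section -/
structure HB (s : ℕ) (θ : E →* B) : Prop where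
  inj : Function.Injective θ
  nm : θ.range.Normal
  ex : ∀ e : E, e ^ s = 1
  idx : ¬ s ∣ θ.range.index
  irr : ∀ U : Subgroup E, (∀ e ∈ U, ∀ e', IsConj (θ e) (θ e') → e' ∈ U) → U = ⊥ ∨ U = ⊤
  big : s < Nat.card E
  sq : ∀ e, IsConj (θ e) (θ (e ^ 2))
  sc : Nat.card E ≤ s * s → ∃ σ : B, ∃ a : ℕ, (∀ e, σ * θ e * σ⁻¹ = θ (e ^ a)) ∧ a * a % s = 2

theorem core_min {θ : E →* B} (h : HB s θ) (f : X →* B) (hf : Function.Surjective f)
    (mn : ∀ K : Subgroup X, K.map f = ⊤ → K = ⊤) (T : Subgroup X) (ab : ∀ a ∈ T, ∀ b ∈ T, Commute a b)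
    (P : Sylow s X) (ψ : P →* C) (hC : Nat.card C ∣ s) (hψ : ∀ r, ψ r = 1 ↔ (r : X) ∈ T)
    (hz : ∀ z ∈ T, z ≠ 1 → z ^ s = 1 → ∀ x ∈ P, x ∉ T → Commute x z → ¬ IsConj z (z ^ 2)) :
    ∃ θ' : E →* X, Function.Injective θ' ∧ (∀ e, θ' e ∈ T) ∧
      ∀ e e', IsConj (θ e) (θ e') → IsConj (θ' e) (θ' e') := by
  haveI := h.nm
  have hE : IsPGroup s θ.range := by
    rintro ⟨_, e, rfl⟩
    exact ⟨1, Subtype.ext (by simp [← map_pow, h.ex])⟩
  haveI := Sylow.unique_of_normal (hE.toSylow h.idx) h.nm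
  have fR : (P : Subgroup X).map f = θ.range :=
    congrArg Sylow.toSubgroup (Subsingleton.elim (P.mapSurjective hf) (hE.toSylow h.idx))
  have cop := P.card_coprime_index
  have pR := P.isPGroup'
  have nR : (P : Subgroup X).Normal := normalizer_eq_top_iff.1 (mn _ (by
    have := congrArg (map f) (P.normalizer_sup_eq_top' (N := θ.range.comap f) (map_le_iff_le_comap.1 fR.le))
    rw [Subgroup.map_sup, map_comap_eq_self_of_surjective hf, ← fR, map_top_of_surjective f hf] at this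
    exact (sup_eq_left.2 (map_mono le_normalizer)).symm.trans this))
  change ∀ z ∈ T, _ → _ → ∀ x ∈ (P : Subgroup X), _ at hz
  generalize (P : Subgroup X) = R at *
  obtain ⟨D, hD⟩ := exists_right_complement'_of_coprime cop
  have cD : (Nat.card D).Coprime s := by
    rw [← hD.symm.index_eq_card]
    refine (Nat.coprime_comm.1 ((Nat.Prime.coprime_iff_not_dvd hs.out).2 fun e => ?_))
    obtain ⟨n, hn⟩ := IsPGroup.iff_card.1 pR
    rcases n with _ | n
    · have := card_dvd_of_surjective _ (f.subgroupMap_surjective R)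
      rw [fR, hn, ← Nat.card_congr (MonoidHom.ofInjective h.inj).toEquiv] at this
      have := h.big
      have := hs.out.one_lt
      have := Nat.le_of_dvd one_pos ‹Nat.card E ∣ _›
      omega
    · exact hs.out.one_lt.ne' (Nat.eq_one_of_dvd_coprimes cop (hn ▸ dvd_pow_self s n.succ_ne_zero) e)
  have M : ∀ W ≤ R, D ≤ normalizer (W : Set X) → θ.range ≤ W.map f → W = R := fun W a b c =>
    a.antisymm fun r hr => by
      have : W ⊔ D = ⊤ := mn _ (top_le_iff.1 (by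
        rw [← map_top_of_surjective f hf, ← hD.sup_eq_top, Subgroup.map_sup, Subgroup.map_sup, fR]
        exact sup_le_sup_right c _))
      have : r ∈ ((W ⊔ D : Subgroup X) : Set X) := this ▸ mem_top r
      rw [coe_mul_of_right_le_normalizer_left W D b] at this
      obtain ⟨w, hw, d, hd, rfl⟩ := this
      rw [disjoint_def.1 hD.disjoint ((R.mul_mem_cancel_left (a hw)).1 hr) hd]
      simpa using hw
  have I : ∀ W : Subgroup X, W.Normal → W ≤ R → W ≠ R → ∀ x ∈ W, f x = 1 := fun W n a b x hx => by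
    rcases h.irr ((W.map f).comap θ) (fun e he e' c => by
      obtain ⟨c, hc⟩ := isConj_iff.1 c
      exact mem_comap.2 (hc ▸ (n.map f hf).conj_mem _ he c)) with e | e
    · obtain ⟨y, hy⟩ := fR.le ⟨x, a hx, rfl⟩
      rw [← hy, mem_bot.1 (e ▸ ⟨x, hx, hy.symm⟩ : y ∈ (⊥ : Subgroup E)), map_one]
    · exact (b (M W a (le_top.trans (normalizer_eq_top W).ge) (by
        rintro _ ⟨y, rfl⟩; exact (e ▸ mem_top y : y ∈ (W.map f).comap θ)))).elim
  have K : ∀ W : Subgroup X, W.Normal → W ≤ R → W ≠ R → ⁅R, R⁆ ≤ W → (∀ v ∈ R, v ^ s ∈ W) →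
      ∀ x ∈ R, f x = 1 → x ∈ W := fun W n a b c d x hx hx' => by
    obtain ⟨V, v1, -, v3, v4⟩ := H7.maschke_amb hs.out cD (D := W) (E := R ⊓ f.ker) (F := R)
      (le_inf a (I W n a b)) inf_le_left (le_top.trans (normalizer_eq_top W).ge)
      (le_top.trans (normalizer_eq_top _).ge) (le_top.trans (normalizer_eq_top R).ge) c d
    rw [M V (le_sup_right.trans v4.le) v1 (by
      rw [← fR, ← v4, Subgroup.map_sup]
      exact sup_le (map_le_iff_le_comap.2 fun y hy => by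
        rw [mem_comap, show f y = 1 from hy.2]; exact one_mem _) le_rfl)] at v3
    exact v3 ▸ ⟨⟨hx, hx'⟩, hx⟩
  choose r r1 r2 using fun e => fR.ge ⟨e, rfl⟩
  replace r1 : ∀ e, r e ∈ R := r1
  haveI := isCyclic_of_card_dvd_prime hC
  have cC := Nat.le_of_dvd hs.out.pos hC
  have big := h.big
  have fe : ∀ x ∈ R, ∃ e, θ e = f x := fun x hx => fR.le ⟨x, hx, rfl⟩
  by_cases hab : ∀ a ∈ R, ∀ b ∈ R, Commute a b
  · have ex : ∃ n, ∀ x ∈ R, x ^ s ^ n = 1 := by
      obtain ⟨n, hn⟩ := IsPGroup.iff_card.1 pR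
      exact ⟨n, fun x hx => congrArg Subtype.val (hn ▸ pow_card_eq_one' (x := (⟨x, hx⟩ : R)))⟩
    classical
    obtain ⟨m, hm⟩ := Nat.exists_eq_succ_of_ne_zero (show Nat.find ex ≠ 0 from fun e => by
      have a1 := e ▸ Nat.find_spec ex
      haveI : Subsingleton E := ⟨fun a b => h.inj (by
        rw [← r2, ← r2, ← pow_one (r a), ← pow_one (r b), ← pow_zero s, a1 _ (r1 a), a1 _ (r1 b)])⟩
      have := Finite.card_le_one_iff_subsingleton.2 this
      have := hs.out.one_lt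
      omega)
    have m1 := hm ▸ Nat.find_spec ex
    have m2 := Nat.find_min ex (hm ▸ m.lt_succ_self)
    let Ω : Subgroup X :=
      { carrier := {x | x ∈ R ∧ x ^ s ^ m = 1}
        one_mem' := ⟨R.one_mem, one_pow _⟩
        mul_mem' := fun {a b} ha hb => ⟨R.mul_mem ha.1 hb.1, by
          rw [(hab a ha.1 b hb.1).mul_pow, ha.2, hb.2, mul_one]⟩
        inv_mem' := fun {a} ha => ⟨R.inv_mem ha.1, by rw [inv_pow, ha.2, inv_one]⟩ }
    have nΩ : Ω.Normal := ⟨fun a ha g => ⟨nR.conj_mem a ha.1 g, by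
      rw [conj_pow, ha.2, mul_one, mul_inv_cancel]⟩⟩
    have o1 : Ω ≠ R := fun e => m2 fun x hx => (e.ge hx).2
    have k : ∀ x ∈ R, ∀ y ∈ R, f x = f y ↔ x ^ s ^ m = y ^ s ^ m := fun x hx y hy => by
      have a1 := R.mul_mem (R.inv_mem hx) hy
      rw [← inv_mul_eq_one, ← map_inv, ← map_mul, ← inv_mul_eq_one (a := x ^ _), ← inv_pow,
        ← (hab _ (R.inv_mem hx) _ hy).mul_pow]
      exact ⟨fun e => (K Ω nΩ (fun _ a => a.1) o1 (commutator_le.2 fun a ha b hb =>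
          (commutatorElement_eq_one_iff_commute.2 (hab a ha b hb)).symm ▸ Ω.one_mem)
          (fun v hv => ⟨R.pow_mem hv s, by rw [← pow_mul, ← pow_succ', m1 v hv]⟩) _ a1 e).2,
        fun e => I Ω nΩ (fun _ a => a.1) o1 _ ⟨a1, e⟩⟩
    let θ' : E →* X := MonoidHom.mk' (fun e => r e ^ s ^ m) fun a b => by
      rw [← (hab _ (r1 a) _ (r1 b)).mul_pow, ← k _ (r1 _) _ (R.mul_mem (r1 a) (r1 b)), map_mul, r2, r2,
        r2, map_mul]
    have t1 : Function.Injective θ' := fun a b e => h.inj (by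
      rw [← r2, ← r2]; exact (k _ (r1 a) _ (r1 b)).2 e)
    have t2 : ∀ e e', IsConj (θ e) (θ e') → IsConj (θ' e) (θ' e') := fun e e' c => by
      obtain ⟨c, hc⟩ := isConj_iff.1 c
      obtain ⟨g, rfl⟩ := hf c
      refine isConj_iff.2 ⟨g, (conj_pow (a := g)).symm.trans ?_⟩
      refine (k _ (nR.conj_mem _ (r1 e) g) _ (r1 e')).1 ?_
      rw [map_mul, map_mul, map_inv, r2, r2, hc]
    have t3 : ∀ e, θ' e ∈ R := fun e => R.pow_mem (r1 e) _
    refine ⟨θ', t1, fun e0 => by_contra fun e1 => ?_, t2⟩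
    have : ¬ Function.Injective (ψ.comp (θ'.codRestrict R t3)) := fun e =>
      (Nat.card_le_card_of_injective _ e).not_gt (by omega)
    rw [injective_iff_map_eq_one] at this
    push Not at this
    obtain ⟨e, a1, a2⟩ := this
    exact hz _ ((hψ _).1 a1) (fun a => a2 (t1 (a.trans (map_one _).symm)))
      (by show θ' e ^ s = 1; rw [← map_pow, h.ex, map_one]) _ (t3 e0) e1 (hab _ (t3 _) _ (t3 _))
      (map_pow θ' e 2 ▸ t2 _ _ (h.sq e))
  exfalso
  have n1 : ¬ R ≤ T := fun e => hab fun a ha b hb => ab a (e ha) b (e hb)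
  have kT : ∀ x ∈ R, f x = 1 → x ∈ T := fun x hx e => (normalCore_le _ (K (R ⊓ T).normalCore inferInstance
    ((normalCore_le _).trans inf_le_left) (fun e => n1 (e.ge.trans ((normalCore_le _).trans inf_le_right)))
    (normal_le_normalCore.2 (le_inf (commutator_le_left R R) (commutator_le.2 fun a ha b hb =>
      (hψ ⁅(⟨a, ha⟩ : R), ⟨b, hb⟩⁆).1 (by
        rw [map_commutatorElement, commutatorElement_eq_one_iff_mul_comm, mul_comm']))))
    (fun v hv g => by
      have a1 := nR.conj_mem v hv g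
      rw [← conj_pow]
      exact ⟨R.pow_mem a1 s, (hψ (⟨_, a1⟩ ^ s)).1 (by
        rw [map_pow]; exact orderOf_dvd_iff_pow_eq_one.1 ((_root_.orderOf_dvd_natCard _).trans hC))⟩) x hx e)).2
  have ψe : ∀ x y : R, ψ x = ψ y → (x : X)⁻¹ * y ∈ T := fun x y e => (hψ (x⁻¹ * y)).1 (by simp [e])
  have rr : ∀ a b, f ((r a)⁻¹ * r b) = 1 → a = b := fun a b e => h.inj (by
    rwa [map_mul, map_inv, r2, r2, inv_mul_eq_one] at e)
  obtain ⟨a', ha', g, hg⟩ : ∃ a ∈ R ⊓ T, ∃ g, g * a * g⁻¹ ∉ T := by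
    by_contra e
    push Not at e
    refine (Nat.card_le_card_of_injective (fun e => ψ ⟨_, r1 e⟩) fun a b c => rr a b (I (R ⊓ T)
      ⟨fun x hx g => ⟨nR.conj_mem x hx.1 g, e x hx g⟩⟩ inf_le_left (fun e => n1 (inf_eq_left.1 e)) _
      ⟨R.mul_mem (R.inv_mem (r1 a)) (r1 b), ψe _ _ c⟩)).not_gt (by omega)
  have y1 := nR.conj_mem _ ha'.1 g
  have cen : ∀ x ∈ R, x ∈ T → g⁻¹ * x * g ∈ T → ∀ y ∈ R, Commute y x := fun x _ a b y hy => by
    obtain ⟨i, hi⟩ := mem_zpowers_of_prime_card (p := s) (((Nat.dvd_prime hs.out).1 hC).resolve_left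
      fun e => hg ((hψ ⟨_, y1⟩).1 ((Finite.card_le_one_iff_subsingleton.1 e.le).elim _ _)))
      (g := ψ ⟨_, y1⟩) (fun e => hg ((hψ _).1 e)) (g' := ψ ⟨y, hy⟩)
    have a1 := ψe (⟨_, y1⟩ ^ i) ⟨y, hy⟩ (by rw [map_zpow]; exact hi)
    have a2 : Commute (g * a' * g⁻¹) x := by
      simpa [mul_assoc] using (ab _ ha'.2 _ b).map (MulAut.conj g)
    simpa [mul_assoc] using (a2.zpow_left i).mul_left (ab _ a1 _ a)
  have cen' : ∀ x ∈ R, f x = 1 → ∀ y ∈ R, Commute y x := fun x hx e =>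
    cen x hx (kT x hx e) (kT _ (nR.conj_mem' x hx g) (by simp [e]))
  obtain ⟨σ, a, a1, a2⟩ := h.sc ((Nat.card_le_card_of_injective
    (fun e => (ψ ⟨_, r1 e⟩, ψ ⟨_, nR.conj_mem' _ (r1 e) g⟩)) fun a b c => rr a b (I (R ⊓ centralizer R)
      inferInstance inf_le_left (fun e => hab fun a ha b hb => (e.ge hb).2 a ha) _
      ⟨R.mul_mem (R.inv_mem (r1 a)) (r1 b), cen _ (R.mul_mem (R.inv_mem (r1 a)) (r1 b))
        (ψe _ _ (congrArg Prod.fst c)) (by
          simpa [mul_assoc] using ψe _ _ (congrArg Prod.snd c))⟩)).trans (by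
      rw [Nat.card_prod]; exact Nat.mul_le_mul cC cC))
  have c0 : ∀ u ∈ R, ∀ v ∈ R, f ⁅u, v⁆ = 1 := fun u hu v hv => by
    obtain ⟨a, ha⟩ := fe u hu
    obtain ⟨b, hb⟩ := fe v hv
    rw [map_commutatorElement, ← ha, ← hb, ← map_commutatorElement,
      commutatorElement_eq_one_iff_mul_comm.2 (mul_comm a b), map_one]
  have c1 : ∀ u ∈ R, ∀ v ∈ R, ⁅u, v⁆ ∈ R := fun u hu v hv =>
    commutator_le_left R R (commutator_mem_commutator hu hv)
  have L1 : ∀ u ∈ R, ∀ u' ∈ R, ∀ v ∈ R, ⁅u * u', v⁆ = ⁅u', v⁆ * ⁅u, v⁆ := fun u hu u' hu' v hv => by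
    rw [show ⁅u * u', v⁆ = u * ⁅u', v⁆ * u⁻¹ * ⁅u, v⁆ by simp only [commutatorElement_def]; group,
      (cen' _ (c1 _ hu' _ hv) (c0 _ hu' _ hv) u hu).eq, mul_inv_cancel_right]
  have L2 : ∀ u ∈ R, ∀ v ∈ R, ∀ u' ∈ R, ∀ n, f u' = f (u ^ n) → ⁅u', v⁆ = ⁅u, v⁆ ^ n := by
    intro u hu v hv u' hu' n e
    have b1 := R.mul_mem (R.inv_mem (R.pow_mem hu n)) hu'
    rw [← mul_inv_cancel_left (u ^ n) u', L1 _ (R.pow_mem hu n) _ b1 _ hv,
      commutatorElement_eq_one_iff_commute.2 (cen' _ b1 (by rw [map_mul, map_inv, e, inv_mul_cancel]) v hv).symm,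
      one_mul]
    clear e b1
    induction n with
    | zero => simp
    | succ n ih => rw [pow_succ, L1 _ (R.pow_mem hu n) _ hu _ hv, ih, pow_succ']
  push Not at hab
  obtain ⟨u, hu, v, hv, huv⟩ := hab
  obtain ⟨c, rfl⟩ := hf σ
  have L3 : ∀ u ∈ R, f (c * u * c⁻¹) = f (u ^ a) := fun u hu => by
    obtain ⟨e, he⟩ := fe u hu
    rw [map_mul, map_mul, map_inv, map_pow, ← he, a1, map_pow]
  have z1 : ⁅u, v⁆ ^ s = 1 := by
    obtain ⟨e, he⟩ := fe u hu
    rw [← L2 u hu v hv 1 R.one_mem s (by rw [map_pow, ← he, ← map_pow, h.ex, map_one, map_one]),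
      commutatorElement_one_left]
  refine hz _ (kT _ (c1 u hu v hv) (c0 u hu v hv)) (fun e => huv (commutatorElement_eq_one_iff_commute.1 e))
    z1 _ y1 hg (cen' _ (c1 u hu v hv) (c0 u hu v hv) _ y1) (isConj_iff.2 ⟨c, ?_⟩)
  rw [conjugate_commutatorElement, L2 u hu _ (nR.conj_mem v hv c) _ (nR.conj_mem u hu c) a (L3 u hu),
    ← commutatorElement_inv, L2 v hv u hu _ (nR.conj_mem v hv c) a (L3 v hv), ← inv_pow,
    commutatorElement_inv, ← pow_mul, pow_eq_pow_mod _ z1, a2]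

theorem core {G W : Type*} [Group G] [Finite G] [Group W] [Finite W] {θ : E →* B} (h : HB s θ)
    (hB : Lead.AS.Sec B G) {T N : Subgroup G} (ab : ∀ a ∈ T, ∀ b ∈ T, Commute a b) (hN : ¬ s ∣ N.index)
    (π : N →* W) (hπ : π.ker = T.subgroupOf N) (hW : ¬ s * s ∣ Nat.card W)
    (hz : ∀ z ∈ T, z ≠ 1 → z ^ s = 1 → ∀ x : N, π x ≠ 1 → π x ^ s = 1 → Commute (x : G) z →
      ¬ IsConj z (z ^ 2)) :
    ∃ θ' : E →* G, Function.Injective θ' ∧ (∀ e, θ' e ∈ T) ∧
      ∀ e e', IsConj (θ e) (θ e') → IsConj (θ' e) (θ' e') := by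
  obtain ⟨H, f, hf⟩ := hB
  obtain ⟨K, k1, k2⟩ := WellFoundedLT.exists_minimal inferInstance {K : Subgroup H | K.map f = ⊤}
    ⟨⊤, map_top_of_surjective f hf⟩
  obtain ⟨P⟩ : Nonempty (Sylow s K) := inferInstance
  obtain ⟨c, -, hc⟩ := Lead.AS.conj_into_T hN (le_top (a := N))
    (P.isPGroup'.map (H.subtype.comp K.subtype)) le_top
  let j : K →* G := (MulAut.conj c).toMonoidHom.comp (H.subtype.comp K.subtype)
  have hj : Function.Injective j :=
    (MulAut.conj c).injective.comp (H.subtype_injective.comp K.subtype_injective)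
  let ν : P →* N := (j.comp (P : Subgroup K).subtype).codRestrict N fun x => hc _ ⟨x, x.2, rfl⟩
  have hC : Nat.card (π.comp ν).range ∣ s := by
    obtain ⟨n, hn⟩ := IsPGroup.iff_card.1 (P.isPGroup'.of_surjective _ (π.comp ν).rangeRestrict_surjective)
    have := card_subgroup_dvd_card (π.comp ν).range
    rw [hn] at this ⊢
    exact (pow_dvd_pow s (by
      by_contra e; exact hW (((sq s).symm.dvd.trans (pow_dvd_pow s (by omega))).trans this))).trans (pow_one s).dvd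
  have hν : ∀ x, π (ν x) = 1 ↔ j x ∈ T := fun x => (MonoidHom.mem_ker.symm.trans (hπ ▸ Iff.rfl))
  have hp : ∀ x, π (ν x) ^ s = 1 := fun x => congrArg Subtype.val
    (show (π.comp ν).rangeRestrict x ^ s = 1 from
      orderOf_dvd_iff_pow_eq_one.1 ((_root_.orderOf_dvd_natCard _).trans hC))
  obtain ⟨θ', a1, a2, a3⟩ := core_min h (f.comp K.subtype) (fun b => by
      obtain ⟨x, hx, e⟩ := k1.ge (mem_top b); exact ⟨⟨x, hx⟩, e⟩)
    (fun L hL => top_le_iff.1 fun x _ => by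
      obtain ⟨y, hy, e⟩ := k2 (y := L.map K.subtype) (show map f _ = ⊤ by rw [map_map, hL])
        (map_subtype_le L) x.2
      exact Subtype.ext e ▸ hy)
    (T.comap j) (fun a ha b hb => hj (by rw [map_mul, map_mul, (ab _ ha _ hb).eq])) P
    (π.comp ν).rangeRestrict hC (fun x => Subtype.ext_iff.trans (hν x))
    fun z z1 z2 z3 x x1 x2 x3 x4 => hz (j z) z1 (fun e => z2 (hj (e.trans (map_one j).symm)))
      (by rw [← map_pow, z3, map_one]) (ν ⟨x, x1⟩) (fun e => x2 ((hν _).1 e))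
      (hp ⟨x, x1⟩) (x3.map j) (map_pow j z 2 ▸ j.map_isConj x4)
  exact ⟨j.comp θ', hj.comp a1, a2, fun e e' c => j.map_isConj (a3 e e' c)⟩

end H25.ES
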