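import Cfsg.Agent.H24.St

/-! The 56 weights of `E₇` evaluated on rational elements of order 5 and 7. -/

set_option autoImplicit false
set_option linter.unusedSectionVars false

namespace H25.ES
open Finset H24.RS

def Cm : Fin 7 → Fin 7 → ℤ := ![![2, 0, -1, 0, 0, 0, 0], ![0, 2, 0, -1, 0, 0, 0], ![-1, 0, 2, -1, 0, 0, 0],
  ![0, -1, -1, 2, -1, 0, 0], ![0, 0, 0, -1, 2, -1, 0], ![0, 0, 0, 0, -1, 2, -1], ![0, 0, 0, 0, 0, -1, 2]]
def xi : Fin 8 → Fin 7 → ℤ := ![![-4, -7, -8, -12, -9, -6, -3], ![4, 1, 4, 4, 3, 2, 1], ![0, 1, 4, 4, 3, 2, 1],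
  ![0, 1, 0, 4, 3, 2, 1], ![0, 1, 0, 0, 3, 2, 1], ![0, 1, 0, 0, -1, 2, 1], ![0, 1, 0, 0, -1, -2, 1],
  ![0, 1, 0, 0, -1, -2, -3]]
abbrev Lam := Bool × Fin 8 × Fin 8
def LL : Finset Lam := univ.filter fun l => l.2.1 ≠ l.2.2
def pm {A : Type*} [Add A] [Neg A] (x : Fin 8 → A) (l : Lam) : A :=
  if l.1 then x l.2.1 + x l.2.2 else -(x l.2.1 + x l.2.2)
def rf (k : Fin 7) (v : Fin 7 → ℤ) : Fin 7 → ℤ := v - (∑ j, Cm k j * v j) • Pi.single k 1
def sw (k : Fin 7) : Fin 8 → Fin 8 := Equiv.swap (![1, 0, 2, 3, 4, 5, 6] k) (![2, 0, 3, 4, 5, 6, 7] k)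
def sg (k : Fin 7) (l : Lam) : Lam :=
  if k = 1 ∧ l.2.1.val / 4 = l.2.2.val / 4 then
    (if l.2.1 ^^^ l.2.2 = 1 then (!l.1, l.2.1 ^^^ 2, l.2.2 ^^^ 2) else (!l.1, l.2.1 ^^^ 1, l.2.2 ^^^ 1))
  else (l.1, sw k l.2.1, sw k l.2.2)

theorem sg_chk : ∀ k, ∀ l ∈ LL, sg k l ∈ LL ∧ sg k (sg k l) = l ∧ rf k (pm xi l) = pm xi (sg k l) := by
  decide +kernel

theorem sw_chk : ∀ k ≠ 1, ∀ i, rf k (xi i) = xi (sw k i) := by decide +kernel

theorem xi_chk : ∑ i, xi i = 0 ∧ ∀ k, xi 4 + xi 5 + xi 6 + xi 7 = (4 : ℤ) • Pi.single k 1 ∨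
    ∃ a b, xi a + -xi b = (4 : ℤ) • Pi.single k 1 := by decide +kernel

theorem card_LL : LL.card = 112 := by decide +kernel

section
variable {s : ℕ} [NeZero s]

def gg (y t : ZMod s) : ℕ := (if t = y then 1 else 0) + if -t = y then 1 else 0
def FF (m : ZMod s → ℕ) (y : ZMod s) : ℕ := ∑ a, m a * ∑ b, m b * gg y (a + b) - ∑ a, m a * gg y (a + a)
def nn (x : Fin 8 → ZMod s) (y : ZMod s) : ℕ := (LL.filter fun l => pm x l = y).card
def ml (x : Fin 8 → ZMod s) (a : ZMod s) : ℕ := (univ.filter fun i => x i = a).card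
def QQ (s : ℕ) [NeZero s] (l : List ℕ) (m : ZMod s → ℕ) : Prop := ∑ a, (m a : ZMod s) * a = 0 → m 0 ≠ 8 →
  FF m 2 = FF m 1 → FF m 4 = FF m 2 → (∀ a, m a < s) ∧ FF m 0 ∈ l
instance instDecQQ (l : List ℕ) (m : ZMod s → ℕ) : Decidable (QQ s l m) := by unfold QQ; infer_instance
def qb (s : ℕ) [NeZero s] (l : List ℕ) (m : ZMod s → ℕ) : Bool := decide (QQ s l m)

theorem sum_ml {A : Type*} [NonAssocSemiring A] (x : Fin 8 → ZMod s) (g : ZMod s → A) :
    ∑ i, g (x i) = ∑ a, (ml x a : A) * g a := by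
  rw [← sum_fiberwise univ x]
  exact sum_congr rfl fun a _ => by
    rw [sum_congr rfl fun i hi => congrArg g (mem_filter.1 hi).2, sum_const, nsmul_eq_mul, ml]

theorem nn_eq (x : Fin 8 → ZMod s) (y : ZMod s) : nn x y = FF (ml x) y := by
  have a1 := sum_ml x fun a => gg y (a + a)
  have a2 := sum_ml x fun a => ∑ b, ml x b * gg y (a + b)
  have a3 := fun a => sum_ml x fun b => gg y (a + b)
  simp only [Nat.cast_id] at a1 a2 a3
  rw [FF, ← a1, ← a2]
  simp only [← a3]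
  refine (Nat.sub_eq_of_eq_add ?_).symm
  rw [nn, LL, filter_filter, card_filter, Fintype.sum_prod_type, Fintype.sum_bool, ← sum_add_distrib,
    Fintype.sum_prod_type, ← sum_add_distrib]
  refine sum_congr rfl fun i _ => ?_
  rw [← sum_erase_add _ _ (mem_univ i), ← sum_erase_add _ _ (mem_univ i)]
  simp only [ne_eq, not_true, false_and, if_false, add_zero, add_left_inj]
  exact sum_congr rfl fun j hj => by simp [gg, pm, (mem_erase.1 hj).1.symm]

end

theorem chk5 : ∀ a < 9, ∀ b < 9 - a, ∀ c < 9 - a - b, ∀ d < 9 - a - b - c,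
    qb 5 [32] (![a, b, c, d, 8 - a - b - c - d] : Fin 5 → ℕ) = true := by decide +kernel

theorem chk7 : ∀ a < 9, ∀ b < 9 - a, ∀ c < 9 - a - b, ∀ d < 9 - a - b - c, ∀ e < 9 - a - b - c - d,
    ∀ f < 9 - a - b - c - d - e,
    qb 7 [40, 16, 4] (![a, b, c, d, e, f, 8 - a - b - c - d - e - f] : Fin 7 → ℕ) = true := by decide +kernel

theorem QQ5 (m : Fin 5 → ℕ) (h : ∑ a, m a = 8) : QQ 5 [32] m := by
  rw [Fin.sum_univ_five] at h
  rw [show m = ![m 0, m 1, m 2, m 3, 8 - m 0 - m 1 - m 2 - m 3] by funext i; fin_cases i <;> simp; omega]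
  exact @of_decide_eq_true _ (instDecQQ _ _) (chk5 (m 0) (by omega) (m 1) (by omega) (m 2) (by omega) (m 3) (by omega))

theorem QQ7 (m : Fin 7 → ℕ) (h : ∑ a, m a = 8) : QQ 7 [40, 16, 4] m := by
  rw [Fin.sum_univ_seven] at h
  rw [show m = ![m 0, m 1, m 2, m 3, m 4, m 5, 8 - m 0 - m 1 - m 2 - m 3 - m 4 - m 5] by
    funext i; fin_cases i <;> simp; omega]
  exact @of_decide_eq_true _ (instDecQQ _ _) (chk7 (m 0) (by omega) (m 1) (by omega) (m 2) (by omega) (m 3) (by omega) (m 4)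
    (by omega) (m 5) (by omega))

variable {F : Type*} [Field F] {s : ℕ} [hs : Fact s.Prime]

/-- the character of the torus given by a lattice vector -/
def chm (v : Fin 7 → ℤ) : (Fin 7 → Fˣ) →* Fˣ := MonoidHom.mk' (chi · v) (chi_mul · · v)

open Classical in
/-- multiplicity of an eigenvalue -/
noncomputable def NN (c : Fin 7 → Fˣ) (y : Fˣ) : ℕ := (LL.filter fun l => chi c (pm xi l) = y).card

theorem NN_rat {l : List ℕ} (hq : ∀ m : ZMod s → ℕ, ∑ a, m a = 8 → QQ s l m) (h2 : s ≠ 2) {ζ : Fˣ}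
    (hζ : IsPrimitiveRoot ζ s) {c : Fin 7 → Fˣ} (hc : c ^ s = 1) (c1 : c ≠ 1)
    (h : ∀ y, NN (c ^ 2) y = NN c y) :
    (∀ S : Finset (Fin 8), (∀ i ∈ S, ∀ j ∈ S, chi c (xi i) = chi c (xi j)) → S.card < s) ∧ NN c 1 ∈ l := by
  classical
  let ε := AddChar.zmodChar s hζ.pow_eq_one
  have e1 : Function.Injective ε := fun a b e => ZMod.val_injective s
    (hζ.pow_inj (ZMod.val_lt a) (ZMod.val_lt b) e)
  choose x hx using fun i => show ∃ a, ε a = chi c (xi i) by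
    obtain ⟨k, -, e⟩ := hζ.eq_pow_of_mem_rootsOfUnity (ξ := chi c (xi i)) ((mem_rootsOfUnity _ _).2 (by
      show chm (xi i) c ^ s = 1
      rw [← map_pow, hc, map_one]))
    exact ⟨k, (AddChar.zmodChar_apply' _ k).trans e⟩
  have e2 : ∀ l, chi c (pm xi l) = ε (pm x l) := fun l => by
    unfold pm; split_ifs <;> simp only [chi_add, chi_neg, AddChar.map_add_eq_mul, AddChar.map_neg_eq_inv, hx]
  have e3 : ∀ y, NN c (ε y) = nn x y := fun y => by simp only [NN, nn, e2, e1.eq_iff]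
  have t : (2 : ZMod s) ≠ 0 := fun e => h2 ((Nat.prime_dvd_prime_iff_eq hs.out Nat.prime_two).1
    ((ZMod.natCast_eq_zero_iff 2 s).1 e))
  have e4 : ∀ y, nn x (2 * y) = nn x y := fun y => by
    rw [← e3, ← h, NN, nn]
    congr 1
    ext l
    rw [mem_filter, mem_filter, sq, chi_mul, e2, ← AddChar.map_add_eq_mul, e1.eq_iff, ← two_mul, mul_right_inj' t]
  have e5 : ∑ i, x i = 0 := e1 (by
    have := congrArg (chi c) xi_chk.1
    simp only [Fin.sum_univ_eight, chi_add, chi_zero, ← hx, ← AddChar.map_add_eq_mul] at this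
    rw [Fin.sum_univ_eight, this, AddChar.map_zero_eq_one])
  obtain ⟨a1, a2⟩ := hq (ml x) (by simpa using (sum_ml x fun _ => (1 : ℕ)).symm)
    ((sum_ml x id).symm.trans e5) (fun e => c1 (funext fun k => by
      have b1 : ∀ i, chi c (xi i) = 1 := fun i => by
        rw [← hx, (mem_filter.1 ((eq_univ_of_card _ e).ge (mem_univ i))).2, AddChar.map_zero_eq_one]
      have b2 : c k ^ 4 = 1 := by
        rw [← chi_single c k, ← zpow_natCast, ← chi_smul]
        rcases xi_chk.2 k with e | ⟨a, b, e⟩ <;> erw [← e] <;> simp only [chi_add, chi_neg, b1, mul_one, inv_one]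
      exact (pow_eq_one_iff_of_coprime ((Nat.coprime_primes Nat.prime_two hs.out).2 h2.symm |>.pow_left 2)).1
        ⟨b2, congrFun hc k⟩))
    (by rw [← nn_eq, ← nn_eq, ← e4 1, mul_one]) (by rw [← nn_eq, ← nn_eq, ← e4 2]; congr 1; ring)
  refine ⟨fun S hS => ?_, by rwa [← nn_eq, ← e3, AddChar.map_zero_eq_one] at a2⟩
  rcases S.eq_empty_or_nonempty with rfl | ⟨i, hi⟩
  · exact hs.out.pos
  · exact (card_le_card fun j hj => mem_filter.2 ⟨mem_univ j, e1 (by rw [hx, hx, hS j hj i hi])⟩).trans_lt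
      (a1 (x i))

theorem NN_sum {E : Type*} [CommGroup E] [Fintype E] (hE : ∀ e : E, e ^ s = 1) (κ : E →* (Fin 7 → Fˣ)) :
    ∃ m, (∑ e, NN (κ e) 1) * s = Fintype.card E * (112 + (s - 1) * m) := by
  classical
  have : ∀ l : Lam, ∃ m, (univ.filter fun e => chi (κ e) (pm xi l) = 1).card * s =
      Fintype.card E * (1 + (s - 1) * m) := fun l => by
    set χ := (chm (pm xi l)).comp κ
    have a1 := χ.ker.card_mul_index
    rw [Subgroup.index_ker, Nat.card_eq_fintype_card (α := E), Nat.card_eq_fintype_card,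
      Fintype.card_subtype] at a1
    have a2 : Nat.card χ.range ∣ s := by
      rw [← IsCyclic.exponent_eq_card, Monoid.exponent_dvd_iff_forall_pow_eq_one]
      rintro ⟨_, e, rfl⟩
      exact Subtype.ext (by simp [← map_pow, hE])
    rcases (Nat.dvd_prime hs.out).1 a2 with e | e <;> rw [e] at a1
    · exact ⟨1, by rw [← a1, mul_one, mul_one, Nat.add_sub_cancel' hs.out.pos]; congr⟩
    · exact ⟨0, by rw [← a1, mul_zero, add_zero, mul_one]; congr⟩
  choose m hm using this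
  refine ⟨∑ l ∈ LL, m l, ?_⟩
  simp only [NN, card_filter] at hm ⊢
  rw [sum_comm, sum_mul, sum_congr rfl fun l _ => hm l, ← mul_sum, sum_add_distrib, ← mul_sum, sum_const,
    card_LL, smul_eq_mul, mul_one]

end H25.ES
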