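import Cfsg.Agent.H25.ES1
import Cfsg.Agent.H25.ES2
import Cfsg.Agent.Lead.AS4
import Cfsg.Agent.S1064

/-! Rational toral subgroups of `E₇`. -/

set_option autoImplicit false
set_option linter.unusedSectionVars false

namespace H25.ES
open Subgroup H24 H24.RS Cfsg.Lie Lead.AS

section
variable {Φ : Type} [Fintype Φ] [DecidableEq Φ] {R : CD (Fin 7) Φ} {F : Type*} [Field F]
  {G : Type*} [Group G] [Finite G] (S : St R F G) {s : ℕ} [hs : Fact s.Prime]

theorem chi_lin (c : Fin 7 → Fˣ) (w : Φ → Φ) (v : Fin 7 → ℤ) :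
    chi c (R.lin w v) = chi (fun i => chi c (R.rt (w (R.sim i)))) v := by
  simp only [R.lin_apply, Fin.sum_univ_seven, chi_add, chi_smul]
  rw [chi.eq_1 _ v, Fin.prod_univ_seven]

theorem chi_conj {n : G} {w : Equiv.Perm Φ} (hn : S.Rep n w) (t t' : S.H) (e : n * t * n⁻¹ = t')
    (v : Fin 7 → ℤ) : chi (S.chiH t') (R.lin w v) = chi (S.chiH t) v := by
  obtain ⟨-, c, -, hc⟩ := hn
  have a1 := (hc.mul (S.chiH_acts t)).mul hc.inv
  rw [e, mul_one, mul_inv_cancel] at a1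
  rw [chi_lin]
  congr 1
  funext i
  simpa [R.rt_sim, chi_single] using congrFun (S.acts_unique (S.chiH_acts t') a1) (w (R.sim i))

variable (hC : ∀ i j, R.C i j = Cm i j)
include hC

theorem lin_rf (k : Fin 7) (v : Fin 7 → ℤ) : R.lin (R.s k) v = rf k v := by
  rw [R.lin_s, R.wt_apply, rf]; simp only [hC]

theorem NN_W {w : Equiv.Perm Φ} (hw : w ∈ R.W) : ∀ c c' : Fin 7 → Fˣ,
    (∀ v, chi c' (R.lin w v) = chi c v) → ∀ y, NN c' y = NN c y := by
  induction hw using closure_induction with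
  | mem w hw =>
    obtain ⟨k, rfl⟩ := hw
    intro c c' h y
    refine Finset.card_nbij' (sg k) (sg k) (fun l hl => ?_) (fun l hl => ?_) (fun l hl => ?_) fun l hl => ?_ <;>
      simp only [Finset.coe_filter, Set.mem_setOf_eq] at hl ⊢ <;> obtain ⟨a1, a2, a3⟩ := sg_chk k l hl.1
    · exact ⟨a1, by rw [← h, lin_rf hC, (sg_chk k _ a1).2.2, a2, hl.2]⟩
    · exact ⟨a1, by rw [← a3, ← lin_rf hC, h, hl.2]⟩
    · exact a2
    · exact a2
  | one => intro c c' h y; rw [show c' = c from funext fun i => by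
      simpa only [chi_single, lin_one] using h (Pi.single i 1)]
  | mul a b ha hb h1 h2 =>
    intro c c' h y
    rw [h1 _ c' (fun v => chi_lin c' a v) y, h2 c _ (fun v => by
      rw [← chi_lin, ← Aut.lin_mul (R.W_le_Aut ha) (R.W_le_Aut hb), h]) y]
  | inv a ha h1 =>
    intro c c' h y
    exact (h1 c' c (fun v => by rw [← h, Aut.lin_inv_lin (R.W_le_Aut ha)]) y).symm

theorem lin_wd (l : List (Fin 7)) (hl : ∀ k ∈ l, k ≠ 1) (i : Fin 8) :
    R.lin (R.wd l) (xi i) = xi (l.foldr sw i) := by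
  induction l with
  | nil => exact lin_one _
  | cons k l ih =>
    rw [R.wd_cons, Aut.lin_mul (R.s_mem_Aut k) (R.wd_mem_Aut l), ih fun k hk => hl k (List.mem_cons_of_mem _ hk),
      lin_rf hC, sw_chk k (hl k List.mem_cons_self), List.foldr_cons]

theorem NN_conj (hG : S.Gr = ⊤) (t t' : S.H) (h : IsConj (t : G) t') (y : Fˣ) :
    NN (S.chiH t') y = NN (S.chiH t) y := by
  obtain ⟨g, hg⟩ := isConj_iff.1 h
  obtain ⟨w, v, hv, n, hn, hr, u, hu, rfl⟩ := dec_Gr S g (hG ▸ mem_top g)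
  obtain ⟨w', hw, hr'⟩ := S.exists_rep hn.1
  exact NN_W hC hw _ _ (chi_conj S hr' t t' (conj_eq S hv hn.1 hr hu t.2 t'.2 hg)) y

theorem tor (hG : S.Gr = ⊤) (ha : S.Adj) (hN : ¬ s ∣ S.N.index) (hW : ¬ s * s ∣ Nat.card R.W)
    {l : List ℕ} (hq : ∀ m : ZMod s → ℕ, ∑ a, m a = 8 → QQ s l m) (h2 : s ≠ 2) {ζ : Fˣ}
    (hζ : IsPrimitiveRoot ζ s) (w : List (Fin 7)) (w1 : ∀ k ∈ w, k ≠ 1) (w2 : R.wd w ^ s = 1)
    (w3 : s ≤ ((Finset.range 7).image fun k => (fun i => w.foldr sw i)^[k] 1).card)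
    {E B : Type*} [CommGroup E] [Fintype E] [Group B] [Finite B] {θ : E →* B} (h : HB s θ) (hB : Sec B G) :
    ∃ n : E → ℕ, n 1 = 112 ∧ (∀ e ≠ 1, n e ∈ l) ∧ (∀ e e', IsConj (θ e) (θ e') → n e = n e') ∧
      ∃ m, (∑ e, n e) * s = Fintype.card E * (112 + (s - 1) * m) := by
  have inj : ∀ t : S.H, S.chiH t = 1 → (t : G) = 1 := fun t e => by
    have : t ∈ S.Z.subgroupOf S.H := S.ker_chiH ▸ e
    rwa [ha.Z_eq, mem_subgroupOf, mem_bot] at this
  have rat := fun (t : S.H) (a : (t : G) ≠ 1) (b : (t : G) ^ s = 1) (c : IsConj (t : G) (t ^ 2)) =>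
    NN_rat hq h2 hζ (c := S.chiH t) (by rw [← map_pow, show t ^ s = 1 from Subtype.ext b, map_one])
      (fun e => a (inj t e)) fun y => by rw [← map_pow]; exact NN_conj S hC hG t (t ^ 2) c y
  obtain ⟨θ', a1, a2, a3⟩ := core h hB (fun a ha' b hb => S.commute_H (S.r3_of_adj ha) ha' hb) hN S.piW
    S.ker_piW hW fun z z1 z2 z3 x x1 x2 x3 x4 => by
      obtain ⟨u, -, hu⟩ := conj_into_T (T := zpowers (S.piW x)) (C := ⊤) (p := s)
        (Y := zpowers (⟨R.wd w, R.wd_mem_W w⟩ : R.W)) (fun e => hW (by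
          rw [← (zpowers (S.piW x)).card_mul_index, Nat.card_zpowers, orderOf_eq_prime x2 x1]
          exact mul_dvd_mul_left s e)) le_top (pgroup_zp (Subtype.ext w2)) le_top
      obtain ⟨j, hj⟩ := hu _ (mem_zpowers _)
      obtain ⟨n, rfl⟩ := S.piW_surjective u
      let t : S.H := ⟨_, S.conj_mem_H' n.2 z1⟩
      have b1 : S.Rep (n⁻¹ * x ^ j * n : S.N) (R.wd w) := by
        have := S.rep_piW (n⁻¹ * x ^ j * n)
        rwa [map_mul, map_mul, map_inv, map_zpow, show S.piW x ^ j = _ from hj, ← mul_assoc, ← mul_assoc,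
          inv_mul_cancel, one_mul, inv_mul_cancel_right] at this
      have b2 := chi_conj S b1 t t (by
        have := (x3.zpow_left j).eq
        simp only [t, coe_mul, coe_inv, coe_zpow, mul_inv_rev, inv_inv, mul_assoc, mul_inv_cancel_left]
        rw [← mul_assoc _ z, this, mul_assoc, mul_inv_cancel_left])
      have b3 : ∀ k, chi (S.chiH t) (xi ((fun i => w.foldr sw i)^[k] 1)) = chi (S.chiH t) (xi 1) := fun k => by
        induction k with
        | zero => rfl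
        | succ k ih => rw [Function.iterate_succ_apply', ← lin_wd hC w w1, b2, ih]
      have b4 : IsConj z t := isConj_iff.2 ⟨(n : G)⁻¹, by rw [inv_inv]⟩
      refine ((rat t (fun e => z2 (isConj_one_left.1 (e ▸ b4)))
        (isConj_one_right.1 (z3 ▸ b4.pow s)) (b4.symm.trans (x4.trans (b4.pow 2)))).1 _
        fun i hi j hj => ?_).not_ge w3
      obtain ⟨a, -, rfl⟩ := Finset.mem_image.1 hi
      obtain ⟨b, -, rfl⟩ := Finset.mem_image.1 hj
      rw [b3, b3]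
  refine ⟨fun e => NN (S.chiH ⟨_, a2 e⟩) 1, ?_, fun e he => (rat ⟨_, a2 e⟩
    (fun c => he (a1 (c.trans (map_one θ').symm))) (by show θ' e ^ s = 1; rw [← map_pow, h.ex, map_one])
    (by simpa using a3 _ _ (h.sq e))).2, fun e e' c => (NN_conj S hC hG _ _ (a3 e e' c) 1).symm,
    NN_sum h.ex (S.chiH.comp (θ'.codRestrict _ a2))⟩
  show NN (S.chiH.comp (θ'.codRestrict _ a2) 1) 1 = _
  rw [map_one]
  simp [NN, chi_one, card_LL]

end

variable (F : Type*) [Field F] [Fintype F]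

theorem idxE7 {q : ℕ} (hq : Fintype.card F = q) : (tabE7_chk.st F).H.relIndex (tabE7_chk.st F).Gr =
    q ^ 63 * (∑ i ∈ Finset.range 2, q ^ i) * (∑ i ∈ Finset.range 6, q ^ i) * (∑ i ∈ Finset.range 8, q ^ i) *
      (∑ i ∈ Finset.range 10, q ^ i) * (∑ i ∈ Finset.range 12, q ^ i) * (∑ i ∈ Finset.range 14, q ^ i) *
      ∑ i ∈ Finset.range 18, q ^ i := by
  have h1 : 1 < q := hq ▸ Fintype.one_lt_card
  have a1 : Nat.gcd 2 (q - 1) * Nat.card (tabE7_chk.st F).H = (q - 1) ^ 7 := by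
    rw [← tabE7_chk.diagonalSubgroup_eq]
    exact Cfsg.Agent.S1035.result hq (chevE7, Nat.gcd 2 (q - 1)) (by simp)
  refine relIndex_eq (a := Nat.card (tabE7_chk.st F).H) (by rw [inf_eq_left.2 (St0.H_le_Gr _)]) ?_
    fun e => pow_ne_zero 7 (show q - 1 ≠ 0 by omega) (by rw [← a1, e, mul_zero])
  refine Nat.eq_of_mul_eq_mul_left (Nat.gcd_pos_of_pos_left (q - 1) two_pos) ?_
  rw [← mul_assoc, a1, ← tabE7_chk.group_eq, Cfsg.Agent.S1064.result hq, sub1 (by omega) 2, sub1 (by omega) 6,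
    sub1 (by omega) 8, sub1 (by omega) 10, sub1 (by omega) 12, sub1 (by omega) 14, sub1 (by omega) 18]
  ring

theorem CE7 : ∀ i j : Fin 7, tabE7.wtv (tabE7.simple j) i = Cm i j := by decide +kernel

theorem torE7 {s : ℕ} [hs : Fact s.Prime] (hF : (Fintype.card F : ZMod (s * s)) = 1)
    (h1 : s ∣ 2903040) (hW : ¬ s * s ∣ 2903040)
    {l : List ℕ} (hq : ∀ m : ZMod s → ℕ, ∑ a, m a = 8 → QQ s l m) (h2 : s ≠ 2)
    (w : List (Fin 7)) (w1 : ∀ k ∈ w, k ≠ 1) (w2 : tabE7.chkOrd (w.map Fin.val) s = true)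
    (w3 : s ≤ ((Finset.range 7).image fun k => (fun i => w.foldr sw i)^[k] 1).card)
    {E B : Type*} [CommGroup E] [Fintype E] [Group B] [Finite B] {θ : E →* B} (h : HB s θ)
    (hB : Sec B (chevE7.group F)) :
    ∃ n : E → ℕ, n 1 = 112 ∧ (∀ e ≠ 1, n e ∈ l) ∧ (∀ e e', IsConj (θ e) (θ e') → n e = n e') ∧
      ∃ m, (∑ e, n e) * s = Fintype.card E * (112 + (s - 1) * m) := by
  classical
  rw [tabE7_chk.group_eq] at hB
  obtain ⟨ζ, hζ⟩ := exists_prime_orderOf_dvd_card (G := Fˣ) s (by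
    rw [Fintype.card_units]
    refine (Dvd.intro s rfl).trans ((ZMod.natCast_eq_zero_iff _ _).1 ?_)
    rw [Nat.cast_sub Fintype.card_pos, hF, Nat.cast_one, sub_self])
  set S := tabE7_chk.st F
  refine tor (R := tabE7_chk.cd) S.res CE7 S.res_Gr (S.res_adj (tabE7_chk.adj F)) (fun e => hW ?_)
    (cardWE7.symm ▸ hW) hq h2 (hζ ▸ IsPrimitiveRoot.orderOf ζ) w w1
    (tabE7_chk.ord_spec w w2 ▸ pow_orderOf_eq_one _) w3 h hB
  have a1 := relIndex_mul_index S.res.H_le_N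
  rw [relIndex, ← S.res.ker_piW, index_ker, MonoidHom.range_eq_top.2 S.res.piW_surjective, card_top, S.res_H,
    ← relIndex, idxE7 F rfl] at a1
  have a2 := (ZMod.natCast_eq_zero_iff _ _).2 (a1 ▸ mul_dvd_mul (cardWE7.symm ▸ h1) e)
  push_cast at a2
  simp only [hF, one_pow, Finset.sum_const, Finset.card_range, nsmul_one] at a2
  refine (ZMod.natCast_eq_zero_iff _ _).1 ?_
  rw [← a2]; push_cast; ring

end H25.ES
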