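import Cfsg.Agent.H25.FCS2
import Cfsg.Agent.H2.BG33
import Cfsg.Agent.H8.Sdp

/-! A Frobenius complement contains no Frobenius group. -/

set_option autoImplicit false

namespace H25

open Subgroup

universe u

variable {G : Type u} [Group G]

namespace FC

variable [Finite G] (h : FC G)
include h

theorem eq_bot_of_frob {K R : Subgroup G} (hRK : R ≤ normalizer (K : Set G)) (hR : R ≠ ⊥)
    (hfrob : ∀ r ∈ R, r ≠ 1 → K ⊓ centralizer ({r} : Set G) = ⊥) : K = ⊥ := by
  obtain ⟨⟨r, hr⟩, hr1⟩ := ne_bot_iff_exists_ne_one.1 hR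
  have hr2 : r ≠ 1 := fun e => hr1 (Subtype.ext e)
  have : Nontrivial G := ⟨⟨r, 1, hr2⟩⟩
  obtain ⟨E, _, _, ρ, q⟩ := h.exists_qf
  have := Fintype.ofFinite K
  have := Fintype.ofFinite R
  have h0 : ∑ s : R, ρ.comp R.subtype s = 0 := by
    refine (q.isUnit hr2).mul_right_eq_zero.1 ?_
    rw [sub_mul, one_mul, Finset.mul_sum, sub_eq_zero]
    exact (Fintype.sum_equiv (Equiv.mulLeft (⟨r, hr⟩ : R)) _ _ fun s => by simp).symm
  refine eq_bot_iff.2 fun k hk => q.eq_one ?_
  have h1 := H2.norm_identity_zero (ρ.comp K.subtype) (ρ.comp R.subtype) (H2.cjAut K R hRK)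
    (H2.cjAut_compat ρ hRK) (H2.cjAut_fpf hRK hfrob) h0 ⟨k, hk⟩
  have h2 : IsUnit (Fintype.card K : E) :=
    isUnit_of_mul_eq_natCast (b := 1) Fintype.card_ne_zero (mul_one _) (one_mul _)
  exact h2.mul_right_cancel (h1.trans (one_mul _).symm)

theorem mem_centralizer_of_prime {K : Subgroup G} (hK : IsZGroup K) {u : G}
    (hp : (orderOf u).Prime) (hu : u ∈ normalizer (K : Set G))
    (hc : (orderOf u).Coprime (Nat.card K)) : u ∈ centralizer (K : Set G) := by
  have h1 := H8.zgroup_commutator_inf hK (zpowers_le.2 hu) (by rwa [Nat.card_zpowers])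
  have h2 : ⁅K, zpowers u⁆ = ⊥ := by
    refine h.eq_bot_of_frob (R := zpowers u) ?_ (by
      rw [Ne, zpowers_eq_bot]; rintro rfl; simp at hp; exact Nat.not_prime_one hp) fun r hr h3 => ?_
    · rw [commutator_comm]; exact H8.le_normalizer_commutator_left _ _
    · have := Fact.mk hp
      have h4 : zpowers r = zpowers u := eq_of_le_of_card_ge (zpowers_le.2 hr) (by
        rw [Nat.card_zpowers, Nat.card_zpowers,
          ((Nat.dvd_prime hp).1 (orderOf_dvd_of_mem_zpowers hr)).resolve_left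
            (by rwa [orderOf_eq_one_iff])])
      rw [← centralizer_closure, ← zpowers_eq_closure, h4, h1]
  rw [commutator_eq_bot_iff_le_centralizer, le_centralizer_iff] at h2
  exact h2 (mem_zpowers u)

end FC

end H25
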