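import Cfsg.Agent.H25.Basic
import Cfsg.Agent.H25.Fix

/-! Fisher's inequality for doubly transitive groups. -/

set_option autoImplicit false

namespace H25

open MulAction Subgroup

variable {G X : Type*} [Group G] [MulAction G X]

/-- The incidence map attached to a finite set `Δ`. -/
noncomputable def incMap (H : Subgroup G) (Δ : Finset X) : (X → ℚ) →ₗ[ℚ] (G ⧸ H → ℚ) where
  toFun f q := ∑ x ∈ Δ, f (q.out • x)
  map_add' f g := by ext q; simp [Finset.sum_add_distrib]
  map_smul' r f := by ext q; simp [Finset.mul_sum]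

theorem incMap_mk {H : Subgroup G} {Δ : Finset X} (hΔ : ∀ h ∈ H, ∀ x ∈ Δ, h • x ∈ Δ) (f : X → ℚ)
    (g : G) : incMap H Δ f (g : G ⧸ H) = ∑ x ∈ Δ, f (g • x) := by
  obtain ⟨h, hh⟩ := QuotientGroup.mk_out_eq_mul H g
  change ∑ x ∈ Δ, f ((g : G ⧸ H).out • x) = _
  rw [hh]
  exact Finset.sum_bij' (fun x _ => (h : G) • x) (fun x _ => (h : G)⁻¹ • x)
    (fun x hx => hΔ _ h.2 x hx) (fun x hx => hΔ _ (H.inv_mem h.2) x hx) (by simp) (by simp)
    (fun x _ => by rw [mul_smul])

theorem incMap_injective [Finite G] (h2 : IsMultiplyPretransitive G X 2) {H : Subgroup G}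
    {Δ : Finset X} (hΔ : ∀ h ∈ H, ∀ x ∈ Δ, h • x ∈ Δ) {y₀ y₁ : X} (h0 : y₀ ∈ Δ) (h1 : y₁ ∉ Δ) :
    Function.Injective (incMap H Δ) := by
  classical
  have := Fintype.ofFinite G
  have := isPretransitive_of_is_two_pretransitive (h2 := h2)
  rw [injective_iff_map_eq_zero]
  intro f hf
  ext x₀
  let F : X → X → ℚ := fun y x => ∑ g : G with g • y = x₀, f (g • x)
  have hF : ∀ (k : G) y x, F (k • y) (k • x) = F y x := fun k y x =>
    Finset.sum_bij' (fun g _ => g * k) (fun g _ => g * k⁻¹) (by simp [mul_smul])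
      (by simp [mul_smul]) (by simp) (by simp) (by simp [mul_smul])
  have hsum : ∀ y, ∑ x ∈ Δ, F y x = 0 := fun y => by
    rw [Finset.sum_comm]
    exact Finset.sum_eq_zero fun g _ => by rw [← incMap_mk hΔ, hf]; rfl
  have hne : y₁ ≠ y₀ := fun h => h1 (h ▸ h0)
  have hu : ∀ y x, y ≠ x → F y x = F y₁ y₀ := fun y x h => by
    obtain ⟨k, rfl, rfl⟩ := is_two_pretransitive_iff.1 h2 hne h
    exact hF _ _ _
  have hu0 : F y₁ y₀ = 0 := by
    have := hsum y₁
    rw [Finset.sum_congr rfl fun x hx => hu y₁ x fun h => h1 (h ▸ hx), Finset.sum_const,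
      nsmul_eq_mul, mul_eq_zero] at this
    exact this.resolve_left (Nat.cast_ne_zero.2 (Finset.card_ne_zero_of_mem h0))
  have := hsum y₀
  rw [Finset.sum_eq_single_of_mem y₀ h0 fun x _ hx => (hu _ _ hx.symm).trans hu0] at this
  simp only [F] at this
  rw [Finset.sum_congr rfl fun g hg => congrArg f (Finset.mem_filter.1 hg).2, Finset.sum_const,
    nsmul_eq_mul, mul_eq_zero] at this
  obtain ⟨g, hg⟩ := exists_smul_eq G y₀ x₀
  exact this.resolve_left (Nat.cast_ne_zero.2 (Finset.card_ne_zero_of_mem (a := g) (by simp [hg])))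

/-- An intransitive subgroup of a doubly transitive group has index at least the degree. -/
theorem card_le_index_of_inv [Finite G] [Finite X] (h2 : IsMultiplyPretransitive G X 2)
    (H : Subgroup G) {Δ : Set X} (hΔ : ∀ h ∈ H, ∀ x ∈ Δ, h • x ∈ Δ) {y₀ y₁ : X} (h0 : y₀ ∈ Δ)
    (h1 : y₁ ∉ Δ) : Nat.card X ≤ H.index := by
  obtain ⟨Δ, rfl⟩ := Δ.toFinite.exists_finset_coe
  have := Fintype.ofFinite X
  have := Fintype.ofFinite (G ⧸ H)
  have := LinearMap.finrank_le_finrank_of_injective (incMap_injective h2 hΔ h0 h1)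
  rwa [Module.finrank_fintype_fun_eq_card, Module.finrank_fintype_fun_eq_card,
    ← Nat.card_eq_fintype_card, ← Nat.card_eq_fintype_card] at this

/-- A subgroup of a doubly transitive group whose index is the degree has at most two orbits. -/
theorem false_of_three_orbits [Finite G] [Finite X] (h2 : IsMultiplyPretransitive G X 2)
    (H : Subgroup G) (hH : H.index = Nat.card X) {a b c : X} (hb : b ∉ orbit H a)
    (hc : c ∉ orbit H a) (hbc : c ∉ orbit H b) : False := by
  classical
  have := Fintype.ofFinite X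
  have := Fintype.ofFinite (G ⧸ H)
  have inv : ∀ a : X, ∀ h ∈ H, ∀ x ∈ (orbit H a).toFinset, h • x ∈ (orbit H a).toFinset :=
    fun a h hh x hx => by
      rw [Set.mem_toFinset] at hx ⊢
      exact mem_orbit_of_mem_orbit (⟨h, hh⟩ : H) hx
  have hinj := incMap_injective h2 (inv a) (y₀ := a) (y₁ := b) (by simp) (by simpa using hb)
  have hsurj := (LinearMap.injective_iff_surjective_of_finrank_eq_finrank (by
    rw [Module.finrank_fintype_fun_eq_card, Module.finrank_fintype_fun_eq_card,
      ← Nat.card_eq_fintype_card, ← Nat.card_eq_fintype_card, ← hH]; rfl)).1 hinj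
  choose E hE using fun x : X => hsurj (incMap H (orbit H b).toFinset (Pi.single x 1))
  have hEq : ∀ (k : G) x y, E (k • x) (k • y) = E x y := fun k x y => by
    have : (fun y => E (k • x) (k • y)) = E x := hinj (by
      ext q
      obtain ⟨g, rfl⟩ := QuotientGroup.mk_surjective q
      rw [hE, incMap_mk (inv a), incMap_mk (inv b)]
      simp only [← mul_smul]
      rw [← incMap_mk (inv a), hE, incMap_mk (inv b)]
      simp [Pi.single_apply, mul_smul])
    exact congrFun this y
  have key : ∀ x, ∑ y ∈ (orbit H a).toFinset, E x y =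
      if x ∈ (orbit H b).toFinset then 1 else 0 := fun x => by
    have := congrFun (hE x) ((1 : G) : G ⧸ H)
    rw [incMap_mk (inv a), incMap_mk (inv b)] at this
    simpa [Pi.single_apply] using this
  have e : ∑ y ∈ (orbit H a).toFinset, E b y = ∑ y ∈ (orbit H a).toFinset, E c y :=
    Finset.sum_congr rfl fun y hy => by
      rw [Set.mem_toFinset] at hy
      obtain ⟨k, h1, h2⟩ := is_two_pretransitive_iff.1 h2
        (show b ≠ y from fun h => hb (h ▸ hy)) (show c ≠ y from fun h => hc (h ▸ hy))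
      rw [← hEq k, h1, h2]
  rw [key, key] at e
  simp [hbc] at e

end H25
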