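import Mathlib

/-! Gauss' identity `4 Φ_l = A² + l B²`, and `-1` as a sum of three squares in `ℚ(ζ_p, √5)`. -/

set_option autoImplicit false

namespace H25

open Polynomial

theorem gauss_identity {l : ℕ} [hl : Fact l.Prime] (h3 : l % 4 = 3) :
    ∃ A B : ℚ[X], 4 * (X ^ l - 1) = (X - 1) * (A ^ 2 + (l : ℚ[X]) * B ^ 2) := by
  classical
  let L := CyclotomicField l ℚ
  have : IsCyclotomicExtension {l} ℚ L := CyclotomicField.isCyclotomicExtension l ℚ
  have : IsGalois ℚ L := IsCyclotomicExtension.isGalois {l} ℚ L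
  have : FiniteDimensional ℚ L := IsCyclotomicExtension.finiteDimensional {l} ℚ L
  have hη := IsCyclotomicExtension.zeta_spec l ℚ L
  set η := IsCyclotomicExtension.zeta l ℚ L
  have hψ := AddChar.zmodChar_primitive_of_primitive_root l hη
  set ψ := AddChar.zmodChar l ((IsPrimitiveRoot.iff_def η l).1 hη).1
  let χ := quadraticChar (ZMod l)
  have hc : ringChar (ZMod l) ≠ 2 := by rw [ZMod.ringChar_zmod_n]; omega
  let g := gaussSum (χ.ringHomComp (Int.castRingHom L)) ψ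
  have hg : g ^ 2 = -l := by
    rw [gaussSum_sq ((MulChar.ringHomComp_ne_one_iff (Int.castRingHom L).injective_int).2 (quadraticChar_ne_one hc))
      ((quadraticChar_isQuadratic _).comp _) hψ, MulChar.ringHomComp_apply, quadraticChar_neg_one hc,
      ZMod.card, ZMod.χ₄_nat_three_mod_four h3, eq_intCast, Int.cast_neg, Int.cast_one, neg_one_mul]
  have hg0 : g ≠ 0 := fun e => by
    rw [e, eq_comm, zero_pow two_ne_zero, neg_eq_zero, Nat.cast_eq_zero] at hg
    exact hl.out.ne_zero hg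
  let U : ℤ → L[X] := fun c => ∏ t : ZMod l, if χ t = c then X - C (ψ t) else 1
  have h1 : (X - 1) * (U 1 * U (-1)) = X ^ l - 1 := by
    have e1 : X - 1 = U 0 := by
      simp only [U, χ, quadraticChar_eq_zero_iff, Finset.prod_ite_eq', Finset.mem_univ, if_true,
        AddChar.map_zero_eq_one, map_one]
    have e2 := X_pow_sub_C_eq_prod hη hl.out.pos (one_pow l)
    rw [e1, ← Finset.prod_mul_distrib, ← Finset.prod_mul_distrib, ← C_1, e2]
    refine Finset.prod_bij' (fun t _ => t.val) (fun i _ => (i : ZMod l))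
      (fun t _ => Finset.mem_range.2 t.val_lt) (fun _ _ => Finset.mem_univ _)
      (fun t _ => ZMod.natCast_zmod_val t) (fun i hi => ZMod.val_cast_of_lt (Finset.mem_range.1 hi))
      fun t _ => ?_
    rw [mul_one, ← AddChar.zmodChar_apply ((IsPrimitiveRoot.iff_def η l).1 hη).1]
    rcases quadraticChar_isQuadratic _ t with e | e | e <;> simp [χ, e, ψ]
  have h2 : ∀ σ : Gal(L/ℚ), ∃ s : ℤ, (s = 1 ∨ s = -1) ∧ σ g = s * g ∧
      ∀ c, (U c).map (σ : L →+* L) = U (s * c) := fun σ => by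
    let a := hη.autToPow ℚ σ
    have e1 : ∀ t, σ (ψ t) = ψ (a * t) := fun t => by
      rw [AddChar.zmodChar_apply, map_pow, ← hη.autToPow_spec ℚ σ,
        ← AddChar.zmodChar_apply ((IsPrimitiveRoot.iff_def η l).1 hη).1, ← AddChar.map_nsmul_eq_pow,
        nsmul_eq_mul, ZMod.natCast_zmod_val, mul_comm]
    have e2 : χ a = 1 ∨ χ a = -1 := quadraticChar_dichotomy a.ne_zero
    have e3 : χ a * χ a = 1 := by rcases e2 with e | e <;> simp [e]
    refine ⟨χ a, e2, ?_, fun c => ?_⟩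
    · have := gaussSum_mulShift (χ.ringHomComp (Int.castRingHom L)) ψ a
      change _ = _ * gaussSum _ _
      rw [← this, ← mul_assoc, MulChar.ringHomComp_apply, eq_intCast, ← Int.cast_mul, e3,
        Int.cast_one, one_mul]
      simp only [g, gaussSum, map_sum, map_mul, MulChar.ringHomComp_apply, eq_intCast, map_intCast,
        e1, AddChar.mulShift_apply]
    · rw [Polynomial.map_prod]
      refine Fintype.prod_bijective _ a.mulLeft_bijective _ _ fun t => ?_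
      have : χ (a * t) = χ a * c ↔ χ t = c := by
        rw [map_mul]; rcases e2 with e | e <;> simp [e]
      simp only [this]
      split_ifs <;> simp [e1]
  have h4 : ∀ P : L[X], (∀ σ : Gal(L/ℚ), P.map (σ : L →+* L) = P) →
      ∃ A : ℚ[X], A.map (algebraMap ℚ L) = P := fun P hP =>
    (mem_lifts P).1 ((lifts_iff_coeff_lifts P).2 fun n =>
      (IsGalois.mem_range_algebraMap_iff_fixed _).2 fun σ => by
        conv_rhs => rw [← hP σ, coeff_map]
        rfl)
  obtain ⟨A, hA⟩ := h4 (U 1 + U (-1)) fun σ => by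
    obtain ⟨s, rfl | rfl, -, h⟩ := h2 σ <;> simp [h, add_comm]
  obtain ⟨B, hB⟩ := h4 (C g⁻¹ * (U 1 - U (-1))) fun σ => by
    obtain ⟨s, rfl | rfl, h5, h⟩ := h2 σ <;> simp [h, h5]
    ring
  refine ⟨A, B, map_injective _ (algebraMap ℚ L).injective ?_⟩
  have h5 : (l : L[X]) * C g⁻¹ ^ 2 = -1 := by
    rw [← C_pow, ← C_eq_natCast, ← C_mul, inv_pow, hg, inv_neg, mul_neg,
      mul_inv_cancel₀ (Nat.cast_ne_zero.2 hl.out.ne_zero), C_neg, C_1]
  simp only [Polynomial.map_mul, Polynomial.map_sub, Polynomial.map_add, Polynomial.map_pow, map_X,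
    Polynomial.map_one, Polynomial.map_ofNat, Polynomial.map_natCast, hA, hB, ← h1]
  linear_combination (-(X - 1) * (U 1 - U (-1)) ^ 2) * h5

theorem thue_five {l : ℕ} [hl : Fact l.Prime] (h : IsSquare (-5 : ZMod l)) :
    ∃ (a d : ℤ) (k : ℕ), 0 < k ∧ k < 6 ∧ a ^ 2 + 5 * d ^ 2 = k * l := by
  obtain ⟨r, hr⟩ := h
  let s := l.sqrt
  have hs : s * s < l := lt_of_le_of_ne (Nat.sqrt_le l) fun e =>
    hl.out.prime.not_isSquare ⟨s, e.symm⟩
  obtain ⟨⟨x, y⟩, ⟨x', y'⟩, hne, e⟩ := Fintype.exists_ne_map_eq_of_card_lt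
    (fun t : Fin (s + 1) × Fin (s + 1) => ((t.1 : ℕ) : ZMod l) - r * (t.2 : ℕ)) (by
      simpa using Nat.lt_succ_sqrt l)
  have h1 : (l : ℤ) ∣ ((x : ℤ) - x') ^ 2 + 5 * ((y : ℤ) - y') ^ 2 := by
    rw [← ZMod.intCast_zmod_eq_zero_iff_dvd]
    push_cast
    linear_combination ((x : ℕ) - (x' : ℕ) + r * ((y : ℕ) - (y' : ℕ)) : ZMod l) * e +
      ((y : ℕ) - (y' : ℕ) : ZMod l) ^ 2 * (-hr)
  obtain ⟨k, hk⟩ := h1
  have b : ∀ u v : Fin (s + 1), ((u : ℤ) - v) ^ 2 < l := fun u v => by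
    have := u.2; have := v.2
    have h3 : ((s * s : ℕ) : ℤ) < l := by exact_mod_cast hs
    push_cast at h3
    nlinarith [show (u : ℤ) ≤ s by omega, show (v : ℤ) ≤ s by omega, Int.natCast_nonneg u,
      Int.natCast_nonneg v]
  have h0 : (0 : ℤ) < l := by exact_mod_cast hl.out.pos
  have h2 : 0 < ((x : ℤ) - x') ^ 2 + 5 * ((y : ℤ) - y') ^ 2 := by
    by_contra h2
    exact hne (Prod.ext (Fin.ext (by nlinarith [sq_nonneg ((x : ℤ) - x'), sq_nonneg ((y : ℤ) - y')]))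
      (Fin.ext (by nlinarith [sq_nonneg ((x : ℤ) - x'), sq_nonneg ((y : ℤ) - y')])))
  have h3 : 0 < k := by nlinarith
  have h4 : k < 6 := by nlinarith [b x x', b y y']
  exact ⟨_, _, k.toNat, by omega, by omega, by rw [hk, Int.toNat_of_nonneg h3.le, mul_comm]⟩

theorem neg_one_three_squares {K : Type*} [CommRing K] [IsDomain K] [Algebra ℚ K] {ζ s : K} {p : ℕ}
    (hp : p.Coprime 10) (hζ : ζ ^ p = 1) (h1 : ζ ≠ 1) (hs : s ^ 2 = 5) :
    ∃ x y w : K, 1 + x ^ 2 + y ^ 2 + w ^ 2 = 0 := by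
  have hp0 : 0 < p := Nat.pos_of_ne_zero (by rintro rfl; simp at hp)
  have h20 : p.Coprime 20 := (hp.pow_right 2).coprime_dvd_right (by norm_num)
  obtain ⟨c, c1, c2⟩ := Nat.chineseRemainder h20 (p - 1) 3
  obtain ⟨l, -, hl, h2⟩ := Nat.forall_exists_prime_gt_and_modEq 0 (q := p * 20) (a := c)
    (by omega) (Nat.Coprime.mul_right (by
      rw [Nat.Coprime, c1.gcd_eq]; exact (Nat.coprime_self_sub_left hp0).2 (by simp)) (by
      rw [Nat.Coprime, c2.gcd_eq]; norm_num))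
  have := Fact.mk hl
  have h3 : l % 20 = 3 := (h2.of_mul_left p).trans c2
  have h4 : ζ ^ (l + 1) = 1 := by
    obtain ⟨k, hk⟩ : p ∣ l + 1 := (Nat.modEq_zero_iff_dvd).1 (by
      have := ((h2.of_mul_right 20).trans c1).add_right 1
      rw [Nat.sub_add_cancel hp0] at this
      exact this.trans (Nat.modEq_zero_iff_dvd.2 dvd_rfl))
    rw [hk, pow_mul, hζ, one_pow]
  obtain ⟨A, B, hAB⟩ := gauss_identity (l := l) (by omega)
  obtain ⟨a, d, k, k0, k6, hk⟩ := thue_five (l := l) (by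
    simpa using ZMod.isSquare_of_jacobiSym_eq_one (a := -5) (p := l) (by
      rw [jacobiSym.mod_right _ (Nat.odd_iff.2 (by omega)), show 4 * (-5 : ℤ).natAbs = 20 from rfl, h3]
      norm_num))
  obtain ⟨m, hm⟩ : Odd p := Nat.coprime_two_right.1 (hp.coprime_dvd_right (by norm_num))
  have e1 := congrArg (aeval ζ) hAB
  simp only [map_mul, map_sub, map_add, map_pow, aeval_X, map_one, map_ofNat, map_natCast] at e1
  set X' := aeval ζ A
  set Y' := aeval ζ B
  have e2 : ζ * (X' ^ 2 + l * Y' ^ 2) = -4 :=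
    mul_left_cancel₀ (sub_ne_zero.2 h1) (by linear_combination 4 * h4 - ζ * e1)
  have e3 : (ζ ^ (m + 1)) ^ 2 = ζ := by
    rw [← pow_mul, show (m + 1) * 2 = p + 1 by omega, pow_succ, hζ, one_mul]
  have hq : ∀ n : ℕ, n ≠ 0 → ∃ h : K, h * n = 1 := fun n hn => ⟨algebraMap ℚ K (n : ℚ)⁻¹, by
    rw [← map_natCast (algebraMap ℚ K), ← map_mul, inv_mul_cancel₀ (by exact_mod_cast hn), map_one]⟩
  obtain ⟨h, hh⟩ := hq 2 two_ne_zero
  obtain ⟨j, hj⟩ := hq k k0.ne'
  push_cast at hh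
  obtain ⟨u, v, huv⟩ : ∃ u v : K, u ^ 2 + v ^ 2 = k := by
    interval_cases k
    · exact ⟨1, 0, by norm_num⟩
    · exact ⟨1, 1, by norm_num⟩
    · exact ⟨h * (s + 1), h * (s - 1), by
        push_cast; linear_combination 2 * h ^ 2 * hs + 3 * (2 * h + 1) * hh⟩
    · exact ⟨2, 0, by norm_num⟩
    · exact ⟨2, 1, by norm_num⟩
  have e4 : (a : K) ^ 2 + 5 * d ^ 2 = k * l := by exact_mod_cast congrArg (Int.cast : ℤ → K) hk
  have e5 : (j * (a * u + s * d * v)) ^ 2 + (j * (a * v - s * d * u)) ^ 2 = l := by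
    linear_combination j ^ 2 * (a ^ 2 + s ^ 2 * d ^ 2) * huv + j ^ 2 * k * d ^ 2 * hs +
      j ^ 2 * k * e4 + l * (j * k + 1) * hj
  refine ⟨h * ζ ^ (m + 1) * X', h * ζ ^ (m + 1) * Y' * (j * (a * u + s * d * v)),
    h * ζ ^ (m + 1) * Y' * (j * (a * v - s * d * u)), ?_⟩
  linear_combination (h * ζ ^ (m + 1) * Y') ^ 2 * e5 + h ^ 2 * (X' ^ 2 + l * Y' ^ 2) * e3 +
    h ^ 2 * e2 - (2 * h + 1) * hh

end H25
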