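import Cfsg.Agent.H25.He4
import Cfsg.Agent.H27.H11b

/-! The eleventh relation. -/

set_option maxRecDepth 100000
set_option autoImplicit false

namespace H25.H11
open Cfsg Cfsg.Spor H7.J4 H29 H29.J4m H29.U Subgroup H25.He4

universe u
variable {G : Type u} [Group G] [Finite G] {M : Model G} {x y e t : G}

theorem h11 (f : Fr M x y e) (q : Qs M e) (g : Gd M x y e t) :
    (y * ((y * x * (y⁻¹) * x * y * x * (y⁻¹) * x)⁻¹ * t * (y * x * (y⁻¹) * x * y * x * (y⁻¹) * x))) ^ 3 = 1 := by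
  have h := h11a f q g
  have c : wj.g [x, y, y⁻¹, e] * wJ.g [x, y, y⁻¹, e] = 1 :=
    (f.s.eq f.h (.m wj wJ) (.p (.v 0) 0) (by decide +kernel)).trans (pow_zero _)
  have r : M.R (em [1, 2, 4, 6, 10]) (wj.g [x, y, y⁻¹, e] * e * wJ.g [x, y, y⁻¹, e]) :=
    f.s.lit f.h (.m (.m wj (.v 3)) wJ) (by decide +kernel)
  rw [eq_inv_of_mul_eq_one_right c] at r
  have n := H27.H11b.h11b f.toMd g r
  obtain ⟨-, N, X⟩ := q
  have o := (X.cj (wj.g [x, y, y⁻¹, e])).o
  generalize wj.g [x, y, y⁻¹, e] * e * (wj.g [x, y, y⁻¹, e])⁻¹ = z at h n o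
  obtain ⟨k, h⟩ := h
  simp only at h
  rw [← zpow_mod_orderOf, o] at h
  rcases Int.emod_two_eq_zero_or_one k with a | a
  · rw [← h, Nat.cast_ofNat, a, zpow_zero]
  · rw [Nat.cast_ofNat, a, zpow_one] at h
    exact absurd h.symm n

end H25.H11
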