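import Cfsg.Agent.H29.U0
import Cfsg.Agent.H23.Qa

/-! The group theory behind the twelfth relation. -/

set_option autoImplicit false

namespace H25.H12
open H29.U Subgroup

variable {G : Type*} [Group G]

theorem line {y u t c : G} (y3 : y ^ 3 = 1) (h : (y * (u⁻¹ * t * u)) ^ 3 = c) (k : G) :
    (u * y⁻¹ * k)⁻¹ * t * (u * y⁻¹ * k) * ((u * y * k)⁻¹ * t * (u * y * k)) * ((u * k)⁻¹ * t * (u * k)) = k⁻¹ * c * k := by
  calc _ = k⁻¹ * (y * (u⁻¹ * t * u) * (y * (y ^ 3)⁻¹) * (u⁻¹ * t * u) * y * (u⁻¹ * t * u)) * k := by group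
    _ = _ := by rw [y3, ← h]; simp only [pow_succ, pow_zero, one_mul, inv_one, mul_one, mul_assoc]

theorem cm3 {a b c : G} (ha : a * a = 1) (hb : b * b = 1) (hc : c * c = 1) (h : a * b * c = 1) : a * b = b * a := by
  have e : a * b = c := by rw [eq_inv_of_mul_eq_one_left h, inv_eq_of_mul_eq_one_right hc]
  rw [← e] at hc
  rw [eq_inv_of_mul_eq_one_left hc, mul_inv_rev, inv_eq_of_mul_eq_one_right ha, inv_eq_of_mul_eq_one_right hb]

theorem cjm {a b : G} (h : b⁻¹ * a * b = a) : Commute a b := by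
  calc a * b = b * (b⁻¹ * a * b) := by group
    _ = _ := by rw [h]

theorem two {z c : G} (o : orderOf z = 2) (h : c ∈ zpowers z) : c = 1 ∨ c = z := by
  obtain ⟨k, h⟩ := h
  simp only at h
  rw [← zpow_mod_orderOf, o] at h
  rcases Int.emod_two_eq_zero_or_one k with a | a
  · left; rw [← h, Nat.cast_ofNat, a, zpow_zero]
  · right; rw [← h, Nat.cast_ofNat, a, zpow_one]

theorem mem [Finite G] {z a r c : G} {Q N : Subgroup G} (X : XS z Q N) (rN : r ∈ N) (ha : a * a = 1) (az : a * z = z * a)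
    (h : r * a * r⁻¹ * (r⁻¹ * a * r) * a = c) (hc : c * c = 1) (ca : Commute a c) : c * a ∈ Q := by
  refine H23.Qa.mem_R X.RN (X.NC.trans X.nR) X.cR X.cN ?_ ?_
  · have := mem_normalizer_iff.1 (X.nN (mem_centralizer_singleton_iff.2 az)) (r⁻¹ * r⁻¹)
    have := mul_mem (mul_mem rN (this.1 (mul_mem (inv_mem rN) (inv_mem rN)))) rN
    rw [inv_eq_of_mul_eq_one_right ha] at this
    rw [← h, mul_assoc _ a a, ha]
    simpa only [mul_assoc, mul_one] using this
  · rw [ca.symm.mul_pow, show 4 = 2 * 2 from rfl, pow_mul, pow_mul, sq c, sq a, ha, hc]; simp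

theorem core [Finite G] {t t2 t4 t5 p z z2 r c1 c2 g q q' : G} {Q N : Subgroup G} (X : XS t4 Q N) (rN : r ∈ N)
    (ht : t * t = 1) (ht2 : t2 * t2 = 1) (ht5 : t5 * t5 = 1)
    (e1 : p⁻¹ * t * p = t) (e2 : (p * p)⁻¹ * t2 * (p * p) = t2) (e3 : (p * p)⁻¹ * t4 * (p * p) = t4)
    (l1 : p * t2 * p⁻¹ * t2 * t4 = 1) (l2 : t * t4 * t5 = 1)
    (h1 : r * t * r⁻¹ * (r⁻¹ * t * r) * t = c1) (h2 : r * t2 * r⁻¹ * (r⁻¹ * t2 * r) * t2 = c2)
    (hc : (c1 = 1 ∧ c2 = 1) ∨ (c1 = z ∧ c2 = z2)) (hz : z * z = 1) (hz2 : z2 * z2 = 1)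
    (z1 : z⁻¹ * t * z = t) (z3 : z2⁻¹ * t2 * z2 = t2)
    (tr : t2 * (t * (t2 * z * t2⁻¹ * (z2 * z)) * t⁻¹ * z2) * t2⁻¹ = p * p)
    (kg : t * (t2 * (t * (t2 * g * t2⁻¹) * t⁻¹) * t2⁻¹) * t⁻¹ ≠ g) (sg : p * p * g = g * (p * p))
    (q1 : q⁻¹ * t * q = t) (q2 : q⁻¹ * t4 * q = t4) (q3 : q'⁻¹ * t * q' = t) (q4 : q'⁻¹ * t4 * q' = t4)
    (l6 : t2 * (q⁻¹ * t2 * q) * (q'⁻¹ * t2 * q') = 1) : (p * t * t2) ^ 2 = 1 := by
  have ht4 : t4 * t4 = 1 := by rw [← sq, ← X.o, pow_orderOf_eq_one]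
  have it := inv_eq_of_mul_eq_one_right ht
  have it2 := inv_eq_of_mul_eq_one_right ht2
  have it4 := inv_eq_of_mul_eq_one_right ht4
  have tt : ∀ x, t * (t * x) = x := fun x => by rw [← mul_assoc, ht, one_mul]
  have tt2 : ∀ x, t2 * (t2 * x) = x := fun x => by rw [← mul_assoc, ht2, one_mul]
  have c14 : Commute t t4 := cm3 ht ht4 ht5 l2
  have a3 : p * t2 * p⁻¹ = t4 * t2 := by
    rw [mul_assoc _ t2 t4] at l1
    rw [eq_inv_of_mul_eq_one_left l1, mul_inv_rev, it2, it4]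
  have c24 : Commute t2 t4 := by
    refine cm3 ht2 ht4 (c := p * t2 * p⁻¹) ?_ (by rw [a3, mul_assoc, ← mul_assoc t4, ht4, one_mul, ht2])
    calc _ = p * (t2 * t2) * p⁻¹ := by group
      _ = 1 := by rw [ht2]; group
  have kg' : ∀ s, Commute s g → t * t2 * t * t2 ≠ s := fun s h e => kg (by
    calc _ = t * t2 * t * t2 * g * (t * t2 * t * t2)⁻¹ := by group
      _ = g := by rw [e, h.eq, mul_inv_cancel_right])
  rcases hc with ⟨rfl, rfl⟩ | ⟨rfl, rfl⟩
  · have m1 := mem X rN ht c14 h1 (mul_one 1) (Commute.one_right t)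
    have m2 := mem X rN ht2 c24 h2 (mul_one 1) (Commute.one_right t2)
    rw [one_mul] at m1 m2
    have := two X.o (X.cm _ m1 _ m2)
    rw [it, it2] at this
    rcases this with e | e
    · exact absurd e (kg' 1 (Commute.one_left g))
    · exfalso
      have b : t * t2 * t = t4 * t2 := by rw [← e, mul_assoc _ t2 t2, ht2, mul_one]
      have bq : ∀ {q : G}, q⁻¹ * t * q = t → q⁻¹ * t4 * q = t4 → t * (q⁻¹ * t2 * q) * t = t4 * (q⁻¹ * t2 * q) :=
        fun {q} u v => by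
          calc _ = (q⁻¹ * t * q) * (q⁻¹ * t2 * q) * (q⁻¹ * t * q) := by rw [u]
            _ = q⁻¹ * (t * t2 * t) * q := by group
            _ = (q⁻¹ * t4 * q) * (q⁻¹ * t2 * q) := by rw [b]; group
            _ = _ := by rw [v]
      have cq : Commute (q⁻¹ * t2 * q) t4 := by
        have := c24.conj q⁻¹
        rwa [inv_inv, q2] at this
      have b1 := bq q1 q2
      have b2 := bq q3 q4
      generalize q⁻¹ * t2 * q = u at *
      generalize q'⁻¹ * t2 * q' = v at *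
      have : (1 : G) = t4 := by
        calc (1 : G) = t * (t2 * u * v) * t := by rw [l6, mul_one, ht]
          _ = (t * t2 * t) * (t * u * t) * (t * v * t) := by simp only [mul_assoc, tt]
          _ = t4 * (t2 * t4) * (u * t4) * v := by rw [b, b1, b2]; simp only [mul_assoc]
          _ = t4 * t4 * (t2 * t4) * u * v := by rw [c24.eq, cq.eq]; simp only [mul_assoc, c24.left_comm]
          _ = t4 * (t2 * u * v) := by rw [ht4, c24.eq]; simp only [mul_assoc, one_mul]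
          _ = t4 := by rw [l6, mul_one]
      have o := X.o
      rw [← this, orderOf_one] at o
      omega
  · have d1 := cjm z1
    have d2 := cjm z3
    have m1 := mem X rN ht c14 h1 hz d1
    have m2 := mem X rN ht2 c24 h2 hz2 d2
    have := two X.o (X.cm _ m1 _ m2)
    have k : c1 * t * (c2 * t2) * (c1 * t)⁻¹ * (c2 * t2)⁻¹ = t * t2 * t * t2 * (p * p) := by
      rw [← tr, mul_inv_rev, mul_inv_rev, it, it2, inv_eq_of_mul_eq_one_right hz, inv_eq_of_mul_eq_one_right hz2,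
        d1.eq, d2.eq]
      nth_rewrite 1 [← d1.eq, ← d2.eq]
      simp only [mul_assoc, tt, tt2]
    rw [k] at this
    rcases this with e | e
    · exact absurd (eq_inv_of_mul_eq_one_left e) (kg' _ (Commute.inv_left sg))
    · have f1 := cjm e1
      have f2 := cjm e2
      have f3 := cjm e3
      have f4 : Commute t (p * p) := f1.mul_right f1
      generalize hs : p * p = s at *
      calc (p * t * t2) ^ 2 = t * (p * t2 * p⁻¹) * (p * p) * t * t2 := by rw [sq]; nth_rewrite 1 [← f1.eq]; simp only [mul_assoc, inv_mul_cancel_left]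
        _ = t * t2 * (t4 * s * t * t2) := by rw [a3, hs, ← c24.eq]; simp only [mul_assoc]
        _ = t * t2 * (t * t2 * s * t4) := by
          congr 1
          rw [f3.eq, mul_assoc s, ← c14.eq, ← mul_assoc s, ← f4.eq, mul_assoc _ t4, ← c24.eq, ← mul_assoc,
            mul_assoc t s, ← f2.eq, ← mul_assoc]
        _ = t * t2 * t * t2 * s * t4 := by simp only [mul_assoc]
        _ = 1 := by rw [e, ht4]

end H25.H12
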