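import Cfsg.Agent.H25.He4
import Cfsg.Agent.H25.H12a

/-! The twelfth relation. -/

set_option maxRecDepth 100000
set_option maxHeartbeats 400000
set_option autoImplicit false
set_option linter.style.longLine false

namespace H25.H12
open Cfsg Cfsg.Spor H7.J4 H29 H29.J4m H29.U Subgroup H25.He4

def k1 : Ex := .m (.m (.m (.v 0) (.m (.v 1) (.v 0))) (.m (.m (.v 2) (.v 0)) (.m (.v 1) (.v 0)))) (.m (.m (.m (.v 2) (.v 0)) (.m (.v 1) (.v 0))) (.m (.m (.v 2) (.v 0)) (.m (.v 1) (.v 0))))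
def k2 : Ex := .m (.m (.m (.m (.v 2) (.m (.v 0) (.v 1))) (.m (.v 0) (.m (.v 2) (.v 0)))) (.m (.m (.v 1) (.m (.v 0) (.v 2))) (.m (.m (.v 0) (.v 2)) (.m (.v 0) (.v 2))))) (.m (.m (.m (.v 0) (.m (.v 2) (.v 0))) (.m (.m (.v 1) (.v 0)) (.m (.v 1) (.v 0)))) (.m (.m (.v 1) (.m (.v 0) (.v 1))) (.m (.m (.v 0) (.v 1)) (.m (.v 0) (.v 2)))))
def k3 : Ex := .m (.m (.m (.m (.v 1) (.m (.v 0) (.v 1))) (.m (.m (.v 0) (.v 2)) (.m (.v 0) (.v 2)))) (.m (.m (.v 0) (.m (.v 1) (.v 0))) (.m (.m (.v 1) (.v 0)) (.m (.v 1) (.v 0))))) (.m (.m (.m (.v 2) (.m (.v 0) (.v 1))) (.m (.m (.v 0) (.v 1)) (.m (.v 0) (.v 2)))) (.m (.m (.v 0) (.m (.v 1) (.v 0))) (.m (.m (.v 2) (.v 0)) (.m (.v 1) (.v 0)))))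
def k3i : Ex := .m (.m (.m (.m (.v 0) (.m (.v 2) (.v 0))) (.m (.m (.v 1) (.v 0)) (.m (.v 2) (.v 0)))) (.m (.m (.v 1) (.m (.v 0) (.v 2))) (.m (.m (.v 0) (.v 2)) (.m (.v 0) (.v 1))))) (.m (.m (.m (.v 0) (.m (.v 2) (.v 0))) (.m (.m (.v 2) (.v 0)) (.m (.v 2) (.v 0)))) (.m (.m (.v 1) (.m (.v 0) (.v 1))) (.m (.m (.v 0) (.v 2)) (.m (.v 0) (.v 2)))))
def k4 : Ex := .m (.m (.m (.m (.v 1) (.v 0)) (.m (.v 1) (.v 0))) (.m (.m (.v 2) (.v 0)) (.m (.v 2) (.m (.v 0) (.v 1))))) (.m (.m (.m (.v 0) (.v 1)) (.m (.v 0) (.m (.v 1) (.v 1)))) (.m (.m (.v 0) (.v 2)) (.m (.v 0) (.m (.v 1) (.v 0)))))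
def k4i : Ex := .m (.m (.m (.m (.v 0) (.v 2)) (.m (.v 0) (.v 1))) (.m (.m (.v 0) (.v 2)) (.m (.v 2) (.m (.v 0) (.v 2))))) (.m (.m (.m (.v 0) (.v 2)) (.m (.v 0) (.m (.v 1) (.v 0)))) (.m (.m (.v 1) (.v 0)) (.m (.v 2) (.m (.v 0) (.v 2)))))
def k5 : Ex := .m (.m (.m (.m (.v 2) (.m (.v 0) (.v 1))) (.m (.m (.v 0) (.v 1)) (.m (.v 0) (.v 1)))) (.m (.m (.v 0) (.m (.v 1) (.v 0))) (.m (.m (.v 1) (.v 0)) (.m (.v 1) (.v 0))))) (.m (.m (.m (.v 2) (.m (.v 0) (.v 2))) (.m (.m (.v 0) (.v 1)) (.m (.v 0) (.v 2)))) (.m (.m (.v 0) (.m (.v 2) (.v 0))) (.m (.m (.v 2) (.v 0)) (.m (.v 1) (.v 0)))))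
def k5i : Ex := .m (.m (.m (.m (.v 0) (.m (.v 2) (.v 0))) (.m (.m (.v 1) (.v 0)) (.m (.v 1) (.v 0)))) (.m (.m (.v 1) (.m (.v 0) (.v 2))) (.m (.m (.v 0) (.v 1)) (.m (.v 0) (.v 1))))) (.m (.m (.m (.v 0) (.m (.v 2) (.v 0))) (.m (.m (.v 2) (.v 0)) (.m (.v 2) (.v 0)))) (.m (.m (.v 2) (.m (.v 0) (.v 2))) (.m (.m (.v 0) (.v 2)) (.m (.v 0) (.v 1)))))
def k6 : Ex := .m (.m (.m (.m (.v 1) (.m (.v 0) (.v 1))) (.m (.v 0) (.m (.v 2) (.v 0)))) (.m (.m (.v 1) (.m (.v 0) (.v 1))) (.m (.v 0) (.m (.v 2) (.v 0))))) (.m (.m (.m (.v 2) (.m (.v 0) (.v 2))) (.m (.v 0) (.m (.v 1) (.v 0)))) (.m (.m (.v 1) (.m (.v 0) (.v 1))) (.m (.m (.v 0) (.v 1)) (.m (.v 0) (.v 2)))))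
def wp : Ex := .m (.m (.m (.m (.v 1) (.v 0)) (.m (.v 1) (.m (.v 0) (.v 1)))) (.m (.m (.v 0) (.v 1)) (.m (.v 1) (.m (.v 0) (.v 1))))) (.m (.m (.m (.v 0) (.v 1)) (.m (.v 0) (.m (.v 1) (.v 1)))) (.m (.m (.v 0) (.m (.v 1) (.v 0))) (.m (.v 1) (.m (.v 0) (.v 1)))))
def wpi : Ex := .m (.m (.m (.m (.v 2) (.v 0)) (.m (.v 2) (.m (.v 0) (.v 2)))) (.m (.m (.v 0) (.v 2)) (.m (.v 2) (.m (.v 0) (.v 2))))) (.m (.m (.m (.v 0) (.v 2)) (.m (.v 0) (.m (.v 2) (.v 2)))) (.m (.m (.v 0) (.m (.v 2) (.v 0))) (.m (.v 2) (.m (.v 0) (.v 2)))))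
def wv : Ex := .m (.m (.m (.m (.v 0) (.v 1)) (.m (.v 0) (.m (.v 1) (.v 0)))) (.m (.m (.v 1) (.v 1)) (.m (.v 0) (.m (.v 1) (.v 0))))) (.m (.m (.m (.v 1) (.v 0)) (.m (.v 1) (.m (.v 0) (.v 1)))) (.m (.m (.v 0) (.v 1)) (.m (.v 0) (.m (.v 1) (.v 1)))))
def wvi : Ex := .m (.m (.m (.m (.v 2) (.v 2)) (.m (.v 0) (.m (.v 2) (.v 0)))) (.m (.m (.v 2) (.v 0)) (.m (.v 2) (.m (.v 0) (.v 2))))) (.m (.m (.m (.v 0) (.v 2)) (.m (.v 0) (.m (.v 2) (.v 2)))) (.m (.m (.v 0) (.v 2)) (.m (.v 0) (.m (.v 2) (.v 0)))))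
def q1 : Ex := .m (.m (.m (.m (.m (.m (.v 0) (.v 1)) (.m (.v 0) (.v 1))) (.m (.m (.v 0) (.v 2)) (.m (.v 0) (.v 2)))) (.m (.m (.m (.v 0) (.v 1)) (.m (.v 0) (.v 1))) (.m (.m (.v 0) (.v 1)) (.m (.v 0) (.m (.v 2) (.v 0)))))) (.m (.m (.m (.m (.v 2) (.v 0)) (.m (.v 2) (.v 0))) (.m (.m (.v 1) (.v 0)) (.m (.v 1) (.m (.v 0) (.v 2))))) (.m (.m (.m (.v 0) (.v 2)) (.m (.v 0) (.v 1))) (.m (.m (.v 0) (.v 1)) (.m (.v 0) (.m (.v 2) (.v 0))))))) (.m (.m (.m (.m (.m (.v 2) (.v 0)) (.m (.v 1) (.v 0))) (.m (.m (.v 1) (.v 0)) (.m (.v 1) (.m (.v 0) (.v 1))))) (.m (.m (.m (.v 0) (.v 1)) (.m (.v 0) (.v 2))) (.m (.m (.v 0) (.v 2)) (.m (.v 0) (.m (.v 1) (.v 0)))))) (.m (.m (.m (.m (.v 1) (.v 0)) (.m (.v 1) (.v 0))) (.m (.m (.v 2) (.v 0)) (.m (.v 2) (.m (.v 0) (.v 2))))) (.m (.m (.m (.v 0) (.v 1)) (.m (.v 0) (.v 1))) (.m (.m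 (.v 0) (.v 2)) (.m (.v 0) (.m (.v 2) (.v 0)))))))
def q2 : Ex := .m (.m (.m (.m (.m (.m (.v 0) (.m (.v 1) (.v 0))) (.m (.m (.v 1) (.v 0)) (.m (.v 2) (.v 0)))) (.m (.m (.m (.v 2) (.v 0)) (.m (.v 1) (.v 0))) (.m (.m (.v 1) (.v 0)) (.m (.v 1) (.v 1))))) (.m (.m (.m (.m (.v 0) (.v 1)) (.m (.v 0) (.v 2))) (.m (.m (.v 0) (.v 2)) (.m (.v 0) (.v 1)))) (.m (.m (.m (.v 0) (.v 1)) (.m (.v 0) (.v 1))) (.m (.m (.v 0) (.v 2)) (.m (.v 0) (.v 2)))))) (.m (.m (.m (.m (.v 0) (.m (.v 2) (.v 0))) (.m (.m (.v 1) (.v 0)) (.m (.v 1) (.v 0)))) (.m (.m (.m (.v 2) (.v 0)) (.m (.v 2) (.v 0))) (.m (.m (.v 1) (.v 0)) (.m (.v 1) (.v 0))))) (.m (.m (.m (.m (.v 2) (.v 0)) (.m (.v 2) (.v 0))) (.m (.m (.v 1) (.v 0)) (.m (.v 1) (.v 0)))) (.m (.m (.m (.v 1) (.v 1)) (.m (.v 0) (.v 1))) (.m (.m (.v 0) (.v 2)) (.m (.v 0) (.v 2))))))) (.m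 (.m (.m (.m (.m (.v 0) (.m (.v 1) (.v 0))) (.m (.m (.v 1) (.v 0)) (.m (.v 1) (.v 0)))) (.m (.m (.m (.v 2) (.v 0)) (.m (.v 2) (.v 0))) (.m (.m (.v 2) (.v 0)) (.m (.v 1) (.v 0))))) (.m (.m (.m (.m (.v 1) (.v 0)) (.m (.v 2) (.v 0))) (.m (.m (.v 2) (.v 0)) (.m (.v 2) (.v 0)))) (.m (.m (.m (.v 2) (.v 0)) (.m (.v 2) (.v 0))) (.m (.m (.v 1) (.v 0)) (.m (.v 1) (.v 0)))))) (.m (.m (.m (.m (.v 2) (.m (.v 0) (.v 2))) (.m (.m (.v 0) (.v 1)) (.m (.v 0) (.v 1)))) (.m (.m (.m (.v 0) (.v 2)) (.m (.v 0) (.v 2))) (.m (.m (.v 0) (.v 1)) (.m (.v 0) (.v 1))))) (.m (.m (.m (.m (.v 0) (.v 1)) (.m (.v 0) (.v 1))) (.m (.m (.v 0) (.v 1)) (.m (.v 0) (.v 2)))) (.m (.m (.m (.v 0) (.v 2)) (.m (.v 0) (.v 1))) (.m (.m (.v 0) (.v 1)) (.m (.v 0) (.v 1)))))))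
def kg : Ex := .m (.m (.m (.m (.v 2) (.v 0)) (.m (.v 2) (.m (.v 0) (.v 2)))) (.m (.m (.v 0) (.v 2)) (.m (.v 0) (.m (.v 1) (.v 0))))) (.m (.m (.m (.v 1) (.v 0)) (.m (.v 1) (.m (.v 0) (.v 2)))) (.m (.m (.v 0) (.v 2)) (.m (.v 0) (.m (.v 1) (.v 0)))))
def kgi : Ex := .m (.m (.m (.m (.v 0) (.v 2)) (.m (.v 0) (.m (.v 1) (.v 0)))) (.m (.m (.v 1) (.v 0)) (.m (.v 2) (.m (.v 0) (.v 2))))) (.m (.m (.m (.v 0) (.v 2)) (.m (.v 0) (.m (.v 1) (.v 0)))) (.m (.m (.v 1) (.v 0)) (.m (.v 1) (.m (.v 0) (.v 1)))))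
def ce1 : Ex := .m (.m (.m (.m (.v 0) (.v 1)) (.m (.v 1) (.m (.v 0) (.v 1)))) (.m (.m (.v 1) (.m (.v 0) (.v 2))) (.m (.v 0) (.m (.v 1) (.v 0))))) (.m (.m (.m (.v 2) (.m (.v 0) (.v 2))) (.m (.v 0) (.m (.v 2) (.v 0)))) (.m (.m (.v 2) (.m (.v 0) (.v 2))) (.m (.v 0) (.m (.v 1) (.v 0)))))
def ce2 : Ex := .m (.m (.m (.v 0) (.m (.v 1) (.v 0))) (.m (.m (.v 1) (.v 1)) (.m (.v 0) (.v 2)))) (.m (.m (.v 0) (.m (.v 1) (.v 0))) (.m (.m (.v 1) (.v 1)) (.m (.v 0) (.v 2))))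
def ce3 : Ex := .m (.m (.m (.m (.v 0) (.v 1)) (.m (.v 0) (.m (.v 2) (.v 0)))) (.m (.m (.v 2) (.v 0)) (.m (.v 2) (.m (.v 0) (.v 1))))) (.m (.m (.m (.v 0) (.v 1)) (.m (.v 1) (.m (.v 0) (.v 1)))) (.m (.m (.v 0) (.v 1)) (.m (.v 0) (.m (.v 1) (.v 1)))))
def cl1 : Ex := .m (.m (.m (.m (.v 2) (.v 0)) (.m (.v 2) (.v 0))) (.m (.m (.v 1) (.v 0)) (.m (.v 1) (.m (.v 1) (.v 0))))) (.m (.m (.m (.v 1) (.v 1)) (.m (.v 0) (.m (.v 1) (.v 0)))) (.m (.m (.v 2) (.v 0)) (.m (.v 2) (.m (.v 0) (.v 2)))))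
def cl2 : Ex := .m (.m (.m (.m (.v 1) (.v 0)) (.m (.v 1) (.v 0))) (.m (.m (.v 1) (.v 0)) (.m (.v 1) (.m (.v 1) (.v 0))))) (.m (.m (.m (.v 1) (.v 0)) (.m (.v 1) (.v 1))) (.m (.m (.v 0) (.v 1)) (.m (.v 1) (.m (.v 0) (.v 2)))))
def cl3 : Ex := .m (.v 0) (.v 2)
def cl4 : Ex := .m (.m (.m (.m (.v 0) (.v 1)) (.m (.v 0) (.v 1))) (.m (.m (.v 0) (.v 1)) (.m (.v 1) (.v 0)))) (.m (.m (.m (.v 2) (.v 0)) (.m (.v 1) (.v 0))) (.m (.m (.v 1) (.v 1)) (.m (.v 0) (.v 1))))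
def cl5 : Ex := .m (.m (.v 0) (.v 1)) (.m (.v 1) (.v 0))
def ca1 : Ex := .m (.m (.m (.m (.v 0) (.v 1)) (.m (.v 0) (.m (.v 1) (.v 1)))) (.m (.m (.v 0) (.m (.v 2) (.v 0))) (.m (.v 1) (.m (.v 1) (.v 0))))) (.m (.m (.m (.v 1) (.m (.v 0) (.v 1))) (.m (.v 0) (.m (.v 1) (.v 0)))) (.m (.m (.v 1) (.m (.v 1) (.v 0))) (.m (.v 2) (.m (.v 0) (.v 2)))))
def ca2 : Ex := .m (.m (.m (.m (.v 2) (.v 0)) (.m (.v 2) (.v 0))) (.m (.m (.v 1) (.v 0)) (.m (.v 2) (.v 0)))) (.m (.m (.m (.v 2) (.v 0)) (.m (.v 1) (.v 1))) (.m (.m (.v 0) (.v 1)) (.m (.v 1) (.m (.v 0) (.v 2)))))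
def ca3 : Ex := .m (.m (.m (.m (.v 0) (.v 1)) (.m (.v 0) (.v 2))) (.m (.m (.v 0) (.v 1)) (.m (.v 1) (.v 0)))) (.m (.m (.m (.v 1) (.v 1)) (.m (.v 0) (.v 2))) (.m (.m (.v 0) (.v 2)) (.m (.v 0) (.m (.v 2) (.v 0)))))
def cb1 : Ex := .m (.m (.m (.m (.v 1) (.v 1)) (.m (.v 0) (.m (.v 1) (.v 1)))) (.m (.m (.v 0) (.v 2)) (.m (.v 0) (.m (.v 1) (.v 1))))) (.m (.m (.m (.v 0) (.v 2)) (.m (.v 0) (.m (.v 2) (.v 0)))) (.m (.m (.v 1) (.v 0)) (.m (.v 1) (.m (.v 0) (.v 2)))))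
def cb2 : Ex := .m (.m (.m (.m (.v 0) (.v 1)) (.m (.v 0) (.m (.v 1) (.v 1)))) (.m (.m (.v 0) (.v 1)) (.m (.v 0) (.m (.v 1) (.v 1))))) (.m (.m (.m (.v 0) (.v 2)) (.m (.v 0) (.m (.v 2) (.v 0)))) (.m (.m (.v 2) (.v 0)) (.m (.v 1) (.m (.v 1) (.v 0)))))
def cb3 : Ex := .m (.m (.m (.m (.v 0) (.v 1)) (.m (.v 1) (.m (.v 0) (.v 1)))) (.m (.m (.v 1) (.m (.v 0) (.v 1))) (.m (.v 1) (.m (.v 0) (.v 1))))) (.m (.m (.m (.v 0) (.v 1)) (.m (.v 0) (.m (.v 1) (.v 0)))) (.m (.m (.v 1) (.m (.v 1) (.v 0))) (.m (.v 2) (.m (.v 0) (.v 2)))))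
def cz1 : Ex := .m (.m (.v 5) (.v 7)) (.m (.v 8) (.m (.v 9) (.v 11)))
def cz2 : Ex := .m (.m (.v 4) (.v 5)) (.m (.v 7) (.v 8))
def ct1 : Ex := .m (.m (.v 7) (.v 8)) (.m (.v 9) (.v 10))
def ct2 : Ex := .m (.m (.m (.m (.v 3) (.m (.v 4) (.v 5))) (.m (.m (.v 6) (.v 7)) (.m (.v 8) (.v 9)))) (.m (.m (.m (.v 10) (.v 11)) (.m (.v 0) (.v 1))) (.m (.m (.v 0) (.v 1)) (.m (.v 0) (.v 1))))) (.m (.m (.m (.m (.v 0) (.v 2)) (.m (.v 0) (.v 1))) (.m (.m (.v 0) (.v 2)) (.m (.v 0) (.v 1)))) (.m (.m (.m (.v 1) (.v 0)) (.m (.v 1) (.v 0))) (.m (.m (.v 1) (.v 0)) (.m (.v 2) (.v 0)))))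
def ct3 : Ex := .m (.m (.m (.v 0) (.m (.v 1) (.v 0))) (.m (.m (.v 1) (.v 1)) (.m (.v 0) (.v 2)))) (.m (.m (.v 0) (.m (.v 1) (.v 0))) (.m (.m (.v 1) (.v 1)) (.m (.v 0) (.v 2))))
def cq1 : Ex := .m (.m (.m (.v 0) (.v 1)) (.m (.v 0) (.m (.v 2) (.v 0)))) (.m (.m (.v 1) (.m (.v 0) (.v 1))) (.m (.v 0) (.m (.v 2) (.v 0))))
def cq2 : Ex := .m (.m (.m (.m (.v 1) (.v 0)) (.m (.v 1) (.v 1))) (.m (.m (.v 0) (.v 2)) (.m (.v 0) (.m (.v 2) (.v 0))))) (.m (.m (.m (.v 2) (.v 0)) (.m (.v 1) (.v 0))) (.m (.m (.v 1) (.v 0)) (.m (.v 2) (.m (.v 0) (.v 1)))))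
def cq3 : Ex := .m (.m (.m (.m (.v 0) (.v 1)) (.m (.v 1) (.v 0))) (.m (.m (.v 2) (.v 0)) (.m (.v 1) (.v 1)))) (.m (.m (.m (.v 0) (.v 2)) (.m (.v 0) (.v 2))) (.m (.m (.v 0) (.v 1)) (.m (.v 0) (.v 1))))
def cq4 : Ex := .m (.m (.m (.m (.v 1) (.v 0)) (.m (.v 2) (.m (.v 0) (.v 1)))) (.m (.m (.v 1) (.m (.v 0) (.v 1))) (.m (.v 1) (.m (.v 0) (.v 1))))) (.m (.m (.m (.v 0) (.v 1)) (.m (.v 0) (.m (.v 2) (.v 0)))) (.m (.m (.v 1) (.m (.v 1) (.v 0))) (.m (.v 2) (.m (.v 0) (.v 2)))))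
def cm1 : Ex := .m (.v 2) (.v 0)
def cm2 : Ex := .m (.m (.m (.m (.v 0) (.v 2)) (.m (.v 0) (.m (.v 1) (.v 0)))) (.m (.m (.v 2) (.v 0)) (.m (.v 1) (.m (.v 1) (.v 0))))) (.m (.m (.m (.v 2) (.v 0)) (.m (.v 2) (.m (.v 0) (.v 1)))) (.m (.m (.v 0) (.v 1)) (.m (.v 0) (.m (.v 1) (.v 1)))))
def cm3' : Ex := .m (.m (.m (.m (.v 0) (.v 1)) (.m (.v 0) (.m (.v 1) (.v 1)))) (.m (.m (.v 0) (.m (.v 1) (.v 0))) (.m (.v 1) (.m (.v 0) (.v 1))))) (.m (.m (.m (.v 1) (.v 0)) (.m (.v 2) (.m (.v 0) (.v 2)))) (.m (.m (.v 0) (.m (.v 2) (.v 0))) (.m (.v 1) (.m (.v 1) (.v 0)))))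
def cg0 : Ex := .m (.m (.v 4) (.m (.v 5) (.v 6))) (.m (.v 8) (.m (.v 9) (.v 11)))
def cg1 : Ex := .v 7
def cg2 : Ex := .m (.m (.m (.m (.v 4) (.m (.v 5) (.v 6))) (.m (.v 7) (.m (.v 10) (.v 11)))) (.m (.m (.v 0) (.m (.v 1) (.v 1))) (.m (.v 0) (.m (.v 1) (.v 0))))) (.m (.m (.m (.v 2) (.m (.v 0) (.v 1))) (.m (.v 0) (.m (.v 2) (.v 0)))) (.m (.m (.v 1) (.m (.v 0) (.v 2))) (.m (.m (.v 0) (.v 1)) (.m (.v 1) (.v 0)))))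
def cg3 : Ex := .m (.m (.m (.m (.v 5) (.m (.v 8) (.v 9))) (.m (.m (.v 11) (.v 0)) (.m (.v 1) (.v 1)))) (.m (.m (.v 0) (.m (.v 1) (.v 1))) (.m (.m (.v 0) (.v 1)) (.m (.v 0) (.v 1))))) (.m (.m (.m (.v 0) (.m (.v 1) (.v 0))) (.m (.m (.v 1) (.v 0)) (.m (.v 2) (.v 0)))) (.m (.m (.v 1) (.m (.v 1) (.v 0))) (.m (.m (.v 2) (.v 0)) (.m (.v 1) (.v 0)))))
def r4 : Ex := .m (.m k4i wr) k4
def r4i : Ex := .m r4 r4

universe u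
variable {G : Type u} [Group G] {M : Model G} {x y e t : G}

noncomputable def ek (A B w : Ex) : Bool := force (w.c kmul kone DL) fun d =>
  band (Nat.beq (A.c kmul kone L4) (force (B.c kmul kone L4) fun b => kmul d b)) (Nat.beq d (w.c kmul kone DT))

theorem rr (f : Md M x y e) (w : Ex) : M.R (w.c kmul kone L4) (w.g [x, y, y⁻¹, e]) := by
  have := w.R f.h
  rwa [f.s.1, f.s.2.1] at this

theorem ee (f : Md M x y e) (g : Gd M x y e t) (A B w : Ex) (h : ek A B w = true) :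
    (A.g [x, y, y⁻¹, e])⁻¹ * t * A.g [x, y, y⁻¹, e] = (B.g [x, y, y⁻¹, e])⁻¹ * t * B.g [x, y, y⁻¹, e] := by
  obtain ⟨d, d1, d2⟩ := acE f.s g.t2 (acD f g) w
  rw [ek, force_eq, force_eq] at h
  obtain ⟨h1, h2⟩ := band_iff.1 h
  have a := rr f A
  rw [Nat.eq_of_beq_eq_true h1] at a
  rw [← Nat.eq_of_beq_eq_true h2] at d2
  have e2 : t * d = d * t := by
    nth_rewrite 1 [M.unique d1 d2]
    rw [← mul_assoc, ← mul_assoc, g.t2, one_mul]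
  rw [M.unique a (rm f.s d1 (rr f B))]
  calc _ = (B.g [x, y, y⁻¹, e])⁻¹ * (d⁻¹ * (t * d)) * B.g [x, y, y⁻¹, e] := by group
    _ = _ := by rw [e2, inv_mul_cancel_left]

theorem ln (f : Md M x y e) (g : Gd M x y e t) (y3 : y ^ 3 = 1) {u : Ex} {c : G}
    (h : (y * ((u.g [x, y, y⁻¹, e])⁻¹ * t * u.g [x, y, y⁻¹, e])) ^ 3 = c) (k A B C wa wb wc : Ex)
    (ha : ek (.m (.m u (.v 2)) k) A wa = true) (hb : ek (.m (.m u (.v 1)) k) B wb = true) (hc : ek (.m u k) C wc = true) :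
    (A.g [x, y, y⁻¹, e])⁻¹ * t * A.g [x, y, y⁻¹, e] * ((B.g [x, y, y⁻¹, e])⁻¹ * t * B.g [x, y, y⁻¹, e]) * ((C.g [x, y, y⁻¹, e])⁻¹ * t * C.g [x, y, y⁻¹, e]) = (k.g [x, y, y⁻¹, e])⁻¹ * c * k.g [x, y, y⁻¹, e] := by
  rw [← ee f g _ _ _ ha, ← ee f g _ _ _ hb, ← ee f g _ _ _ hc]
  exact line y3 h (k.g [x, y, y⁻¹, e])

noncomputable def ckf (B Bi : Ex) (c : ℕ) (w : Ex) : Bool :=
  force (B.c kmul kone L4) fun b => force (Bi.c kmul kone L4) fun bi => force c fun c => ck b bi c w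
noncomputable def stf (B Bi : Ex) (w : Ex) : ℕ :=
  force (B.c kmul kone L4) fun b => force (Bi.c kmul kone L4) fun bi => st bi b w
noncomputable def km (a b : ℕ) : ℕ := force a fun a => force b fun b => kmul a b

theorem tr (f : Md M x y e) (g : Gd M x y e t) (B Bi : Ex) (hB : Bi.g [x, y, y⁻¹, e] = (B.g [x, y, y⁻¹, e])⁻¹) {s : G}
    (hs : (B.g [x, y, y⁻¹, e])⁻¹ * t * B.g [x, y, y⁻¹, e] = s) {c : ℕ} {h : G} (hc : M.R c h) (w : Ex) (k : ckf B Bi c w = true) :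
    M.R (stf B Bi w) (s * h * s⁻¹) := by
  rw [ckf, force_eq, force_eq, force_eq] at k
  rw [stf, force_eq, force_eq, ← hs]
  exact step f.s g.t2 (acD f g) (hB ▸ rr f Bi) (by rw [inv_inv]; exact rr f B) (rr f B) (hB ▸ rr f Bi) hc k

theorem rk (f : Md M x y e) {a b : ℕ} {g h : G} (ha : M.R a g) (hb : M.R b h) : M.R (km a b) (g * h) := by
  rw [km, force_eq, force_eq]; exact rm f.s ha hb

theorem h12 [Finite G] (f : Fr M x y e) (ht : Tt x y e t) (g : Gd M x y e t)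
    (h11 : (y * ((y * x * (y⁻¹) * x * y * x * (y⁻¹) * x)⁻¹ * t * (y * x * (y⁻¹) * x * y * x * (y⁻¹) * x))) ^ 3 = 1)
    (he : (y * ((y * x) ^ 4 * y⁻¹ * x)⁻¹ * t * ((y * x) ^ 4 * y⁻¹ * x)) ^ 3 ∈ zpowers e) :
    (((y * x * y * x * y * x * y) ^ 3) * t * ((((x * y) ^ 3) * y * ((x * y) ^ 6) * y)⁻¹ * t * (((x * y) ^ 3) * y * ((x * y) ^ 6) * y))) ^ 2 = 1 := by
  have E := ee f.toMd g
  have Q := f.s.eq f.h
  have iv : ∀ a b : Ex, Nat.beq ((Ex.m a b).c kmul kone L4) ((Ex.v 9).c kmul kone L4) = true →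
      b.g [x, y, y⁻¹, e] = (a.g [x, y, y⁻¹, e])⁻¹ := fun a b h => eq_inv_of_mul_eq_one_right (Q (.m a b) (.v 9) h)
  have y3 : y ^ 3 = 1 := Q (.p (.v 1) 3) (.v 9) (by decide +kernel)
  have u0 : wu0.g [x, y, y⁻¹, e] = (y * x) ^ 4 * y⁻¹ * x := Q wu0 (.m (.m (.p (.m (.v 1) (.v 0)) 4) (.v 2)) (.v 0)) (by decide +kernel)
  have u1 : wu1.g [x, y, y⁻¹, e] = y * x * (y⁻¹) * x * y * x * (y⁻¹) * x :=
    Q wu1 (.m (.m (.m (.m (.m (.m (.m (.v 1) (.v 0)) (.v 2)) (.v 0)) (.v 1)) (.v 0)) (.v 2)) (.v 0)) (by decide +kernel)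
  have vp : wp.g [x, y, y⁻¹, e] = (y * x * y * x * y * x * y) ^ 3 :=
    Q wp (.p (.m (.m (.m (.m (.m (.m (.v 1) (.v 0)) (.v 1)) (.v 0)) (.v 1)) (.v 0)) (.v 1)) 3) (by decide +kernel)
  have vv : wv.g [x, y, y⁻¹, e] = ((x * y) ^ 3) * y * ((x * y) ^ 6) * y :=
    Q wv (.m (.m (.m (.p (.m (.v 0) (.v 1)) 3) (.v 1)) (.p (.m (.v 0) (.v 1)) 6)) (.v 1)) (by decide +kernel)
  rw [← u1] at h11
  rw [← u0, mul_assoc y, mul_assoc y] at he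
  rw [← vp, ← vv]
  obtain ⟨R, N, X, rN, -⟩ := ht
  have X4 := X.cj (k4.g [x, y, y⁻¹, e])⁻¹
  rw [inv_inv] at X4
  obtain ⟨_, _, Xe, -⟩ := f.xe
  have hc := two Xe.o he
  have o9 : [x, y, y⁻¹, e].getD 9 1 = 1 := rfl
  have o3 : [x, y, y⁻¹, e].getD 3 1 = e := rfl
  have ip := iv wp wpi (by decide +kernel)
  have i3 := iv k3 k3i (by decide +kernel)
  have i4 := iv k4 k4i (by decide +kernel)
  have i5 := iv k5 k5i (by decide +kernel)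
  have ir := iv r4 r4i (by decide +kernel)
  have ig := iv kg kgi (by decide +kernel)
  have iw := iv wv wvi (by decide +kernel)
  have rN' : r4.g [x, y, y⁻¹, e] ∈ N.map (MulAut.conj (k4.g [x, y, y⁻¹, e])⁻¹).toMonoidHom := by
    change k4i.g [x, y, y⁻¹, e] * wr.g [x, y, y⁻¹, e] * k4.g [x, y, y⁻¹, e] ∈ _
    rw [i4]
    exact ⟨_, rN, by simp⟩
  have sq : ∀ a : G, a⁻¹ * t * a * (a⁻¹ * t * a) = 1 := fun a => by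
    calc _ = a⁻¹ * (t * t) * a := by group
      _ = 1 := by rw [g.t2]; group
  have T1 := fun {c : ℕ} {h : G} => tr f.toMd g (.v 9) (.v 9) inv_one.symm (s := t) (by simp only [Ex.g, o9, inv_one, one_mul, mul_one]) (c := c) (h := h)
  have T2 := fun {c : ℕ} {h : G} => tr f.toMd g wv wvi iw rfl (c := c) (h := h)
  have s1 := T2 (rr f.toMd (.m (.m k3i (.v 3)) k3)) ct1 (by decide +kernel)
  have s2 := T1 (rk f.toMd s1 (rr f.toMd (.m (.m (.m k5i (.v 3)) k5) (.m (.m k3i (.v 3)) k3)))) ct2 (by decide +kernel)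
  have s3 := T2 (rk f.toMd s2 (rr f.toMd (.m (.m k5i (.v 3)) k5))) ct3 (by decide +kernel)
  have s4 := M.eq_of s3 (rr f.toMd (.m wp wp)) (by rw [f.s.2.2]; decide +kernel)
  have g1 := T1 (T2 (T1 (T2 (rr f.toMd (.m (.m kg (.v 3)) kgi)) cg0 (by decide +kernel)) cg1 (by decide +kernel)) cg2 (by decide +kernel)) cg3 (by decide +kernel)
  have g2 := M.ne_of g1 (rr f.toMd (.m (.m kg (.v 3)) kgi)) (by rw [f.s.2.2]; decide +kernel)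
  refine core (t5 := ((Ex.m wu1 k2).g [x, y, y⁻¹, e])⁻¹ * t * (Ex.m wu1 k2).g [x, y, y⁻¹, e]) (z := (k3.g [x, y, y⁻¹, e])⁻¹ * e * k3.g [x, y, y⁻¹, e])
    (z2 := (k5.g [x, y, y⁻¹, e])⁻¹ * e * k5.g [x, y, y⁻¹, e]) (q := q1.g [x, y, y⁻¹, e]) (q' := q2.g [x, y, y⁻¹, e])
    (c1 := (k3.g [x, y, y⁻¹, e])⁻¹ * (y * ((wu0.g [x, y, y⁻¹, e])⁻¹ * t * wu0.g [x, y, y⁻¹, e])) ^ 3 * k3.g [x, y, y⁻¹, e])
    (c2 := (k5.g [x, y, y⁻¹, e])⁻¹ * (y * ((wu0.g [x, y, y⁻¹, e])⁻¹ * t * wu0.g [x, y, y⁻¹, e])) ^ 3 * k5.g [x, y, y⁻¹, e])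
    X4 rN' g.t2 (sq _) (sq _) ?_ ?_ ?_ ?_ ?_ ?_ ?_ ?_ ?_ ?_ ?_ ?_ ?_ g2 ?_ ?_ ?_ ?_ ?_ ?_
  · simpa only [Ex.g, o9, o3, ip, i3, i5, ir, ig, mul_inv_rev, inv_inv, mul_assoc, mul_one, one_mul, inv_one, inv_mul_cancel] using  E wp (.v 9) ce1 (by decide +kernel)
  · simpa only [Ex.g, o9, o3, ip, i3, i5, ir, ig, mul_inv_rev, inv_inv, mul_assoc, mul_one, one_mul, inv_one, inv_mul_cancel] using  E (.m wv (.m wp wp)) wv ce2 (by decide +kernel)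
  · simpa only [Ex.g, o9, o3, ip, i3, i5, ir, ig, mul_inv_rev, inv_inv, mul_assoc, mul_one, one_mul, inv_one, inv_mul_cancel] using  E (.m k4 (.m wp wp)) k4 ce3 (by decide +kernel)
  · simpa only [Ex.g, o9, o3, ip, i3, i5, ir, ig, mul_inv_rev, inv_inv, mul_assoc, mul_one, one_mul, inv_one, inv_mul_cancel] using  ln f.toMd g y3 h11 k1 (.m wv wpi) wv k4 cl1 cl2 cl3 (by decide +kernel) (by decide +kernel) (by decide +kernel)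
  · simpa only [Ex.g, o9, o3, ip, i3, i5, ir, ig, mul_inv_rev, inv_inv, mul_assoc, mul_one, one_mul, inv_one, inv_mul_cancel] using  ln f.toMd g y3 h11 k2 (.v 9) k4 (.m wu1 k2) cl4 cl5 (.v 99) (by decide +kernel) (by decide +kernel) (by decide +kernel)
  · simpa only [Ex.g, o9, o3, ip, i3, i5, ir, ig, mul_inv_rev, inv_inv, mul_assoc, mul_one, one_mul, inv_one, inv_mul_cancel] using  ln f.toMd g y3 rfl k3 r4i r4 (.v 9) ca1 ca2 ca3 (by decide +kernel) (by decide +kernel) (by decide +kernel)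
  · simpa only [Ex.g, o9, o3, ip, i3, i5, ir, ig, mul_inv_rev, inv_inv, mul_assoc, mul_one, one_mul, inv_one, inv_mul_cancel] using  ln f.toMd g y3 rfl k5 (.m wv r4i) (.m wv r4) wv cb1 cb2 cb3 (by decide +kernel) (by decide +kernel) (by decide +kernel)
  · rcases hc with c | c <;> rw [c]
    · exact Or.inl ⟨by group, by group⟩
    · exact Or.inr ⟨rfl, rfl⟩
  · simpa only [Ex.g, o9, o3, ip, i3, i5, ir, ig, mul_inv_rev, inv_inv, mul_assoc, mul_one, one_mul, inv_one, inv_mul_cancel] using  Q (.m (.m (.m k3i (.v 3)) k3) (.m (.m k3i (.v 3)) k3)) (.v 9) (by decide +kernel)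
  · simpa only [Ex.g, o9, o3, ip, i3, i5, ir, ig, mul_inv_rev, inv_inv, mul_assoc, mul_one, one_mul, inv_one, inv_mul_cancel] using  Q (.m (.m (.m k5i (.v 3)) k5) (.m (.m k5i (.v 3)) k5)) (.v 9) (by decide +kernel)
  · simpa only [Ex.g, o9, o3, ip, i3, i5, ir, ig, mul_inv_rev, inv_inv, mul_assoc, mul_one, one_mul, inv_one, inv_mul_cancel] using  E (.m (.m k3i (.v 3)) k3) (.v 9) cz1 (by decide +kernel)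
  · simpa only [Ex.g, o9, o3, ip, i3, i5, ir, ig, mul_inv_rev, inv_inv, mul_assoc, mul_one, one_mul, inv_one, inv_mul_cancel] using  E (.m wv (.m (.m k5i (.v 3)) k5)) wv cz2 (by decide +kernel)
  · simpa only [Ex.g, o9, o3, ip, i3, i5, ir, ig, mul_inv_rev, inv_inv, mul_assoc, mul_one, one_mul, inv_one, inv_mul_cancel] using  s4
  · exact Q (.m (.m wp wp) (.m (.m kg (.v 3)) kgi)) (.m (.m (.m kg (.v 3)) kgi) (.m wp wp)) (by decide +kernel)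
  · simpa only [Ex.g, o9, o3, ip, i3, i5, ir, ig, mul_inv_rev, inv_inv, mul_assoc, mul_one, one_mul, inv_one, inv_mul_cancel] using  E q1 (.v 9) cq1 (by decide +kernel)
  · simpa only [Ex.g, o9, o3, ip, i3, i5, ir, ig, mul_inv_rev, inv_inv, mul_assoc, mul_one, one_mul, inv_one, inv_mul_cancel] using  E (.m k4 q1) k4 cq2 (by decide +kernel)
  · simpa only [Ex.g, o9, o3, ip, i3, i5, ir, ig, mul_inv_rev, inv_inv, mul_assoc, mul_one, one_mul, inv_one, inv_mul_cancel] using  E q2 (.v 9) cq3 (by decide +kernel)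
  · simpa only [Ex.g, o9, o3, ip, i3, i5, ir, ig, mul_inv_rev, inv_inv, mul_assoc, mul_one, one_mul, inv_one, inv_mul_cancel] using  E (.m k4 q2) k4 cq4 (by decide +kernel)
  · simpa only [Ex.g, o9, o3, ip, i3, i5, ir, ig, mul_inv_rev, inv_inv, mul_assoc, mul_one, one_mul, inv_one, inv_mul_cancel] using  ln f.toMd g y3 h11 k6 wv (.m wv q1) (.m wv q2) cm1 cm2 cm3' (by decide +kernel) (by decide +kernel) (by decide +kernel)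

end H25.H12
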