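import Mathlib
import Cfsg.Agent.H25.Derang
import Cfsg.Agent.H25.Stab

/-! Half-transitive automorphism groups (Isaacs–Passman). -/

set_option autoImplicit false

namespace H25

open MulAction Subgroup

variable {H N : Type*} [Group H] [Finite H] [Group N] [Finite N] [MulDistribMulAction H N]

theorem half_fix (hm : ∀ x y : N, x ≠ 1 → y ≠ 1 → (stabilizer H x).index = (stabilizer H y).index)
    {X : Set N} (h1 : 1 ∉ X) (hd : X.ncard ∣ Nat.card N)
    (hX : ∀ h : H, ∀ x ∈ X, h • x ∈ X → ∀ y ∈ X, h • y ∈ X) {x y : N} (hx : x ∈ X) (hy : y ∈ X) :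
    stabilizer H x ≤ stabilizer H y := by
  let L : Subgroup H :=
    { carrier := {h | h • x ∈ X}
      one_mem' := by simpa using hx
      mul_mem' := fun {a b} ha hb => by
        show (a * b) • x ∈ X
        rw [mul_smul]; exact hX a x hx ha _ hb
      inv_mem' := fun {a} ha => hX a⁻¹ _ ha (by simpa using hx) x hx }
  have hle : ∀ z ∈ X, stabilizer H z ≤ L := fun z hz h hh =>
    hX h z hz (by rw [mem_stabilizer_iff.1 hh]; exact hz) x hx
  have hne : ∀ z ∈ X, z ≠ 1 := fun z hz e => h1 (e ▸ hz)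
  have he : ∀ z ∈ X, (stabilizer H z).relIndex L = (stabilizer H y).relIndex L := fun z hz =>
    Nat.eq_of_mul_eq_mul_right (Nat.pos_of_ne_zero (index_ne_zero_of_finite (H := L))) (by
      rw [relIndex_mul_index (hle z hz), relIndex_mul_index (hle y hy),
        hm z y (hne z hz) (hne y hy)])
  have d1 : (stabilizer H y).relIndex L ∣ Nat.card N :=
    (dvd_ncard_of_orbits (H := L) _ X (Set.toFinite _) (fun h z hz => hX h x hx h.2 z hz)
      fun z hz => by rw [ncard_suborbit, he z hz]).trans hd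
  have d2 : (stabilizer H y).relIndex L ∣ Nat.card N - 1 := by
    rw [← Set.ncard_univ, ← Set.ncard_diff_singleton_of_mem (Set.mem_univ (1 : N))]
    refine (relIndex_dvd_index_of_le (hle y hy)).trans (dvd_ncard_of_orbits (H := H) _ _
      (Set.toFinite _) (fun h z hz => ⟨trivial, fun e => hz.2 ?_⟩) fun z hz => ?_)
    · have e' : h • z = 1 := e
      rwa [smul_eq_iff_eq_inv_smul, smul_one] at e'
    · rw [← index_stabilizer, hm z y hz.2 (hne y hy)]
  have d3 : (stabilizer H y).relIndex L = 1 := by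
    have := (Nat.dvd_sub d1 d2)
    rwa [Nat.sub_sub_self Nat.card_pos, Nat.dvd_one] at this
  exact (hle x hx).trans (relIndex_eq_one.1 d3)

theorem half_trans [FaithfulSMul H N]
    (hm : ∀ x y : N, x ≠ 1 → y ≠ 1 → (stabilizer H x).index = (stabilizer H y).index)
    {x₀ : N} (h0 : x₀ ≠ 1) (h1 : stabilizer H x₀ ≠ ⊥) :
    (∃ p : ℕ, p.Prime ∧ IsMulCommutative N ∧ ∀ x : N, x ^ p = 1) ∧
      ∀ B : Subgroup N, (∀ h : H, ∀ b ∈ B, h • b ∈ B) → B ≠ ⊥ → B = ⊤ := by
  have heq : ∀ x y : N, x ≠ 1 → y ≠ 1 → stabilizer H x ≤ stabilizer H y →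
      stabilizer H y ≤ stabilizer H x := fun x y hx hy h => by
    have e := relIndex_mul_index h
    rw [hm x y hx hy] at e
    exact relIndex_eq_one.1 (Nat.eq_of_mul_eq_mul_right
      (Nat.pos_of_ne_zero index_ne_zero_of_finite) (e.trans (one_mul _).symm))
  let P : N → Subgroup N := fun x =>
    { carrier := {y | stabilizer H x ≤ stabilizer H y}
      one_mem' := fun h _ => smul_one h
      mul_mem' := fun {a b} ha hb h hh => by
        rw [mem_stabilizer_iff, smul_mul', ha hh, hb hh]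
      inv_mem' := fun {a} ha h hh => by rw [mem_stabilizer_iff, smul_inv', ha hh] }
  have hP : ∀ x y, y ∈ P x ↔ stabilizer H x ≤ stabilizer H y := fun _ _ => Iff.rfl
  have hself : ∀ x, x ∈ P x := fun x => le_refl (stabilizer H x)
  have hout : ∀ x, x ≠ 1 → ∃ z, z ∉ P x := fun x hx => by
    by_contra h
    push Not at h
    refine h1 (eq_bot_iff.2 fun g hg => mem_bot.2 (eq_of_smul_eq_smul (α := N) fun y => ?_))
    rw [one_smul]
    exact h y (heq x x₀ hx h0 (h x₀) hg)
  have hmeet : ∀ x z w, x ≠ 1 → z ∉ P x → w ∈ P x → w ∈ P z → w = 1 := fun x z w hx hz h2 h3 => by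
    by_contra hw
    exact hz (le_trans h2 (heq z w (fun e => hz (e ▸ one_mem _)) hw h3))
  have hconj : ∀ x g : N, g * x * g⁻¹ ∈ P x := fun x g => by
    by_cases hx : x = 1
    · simp [hx]
    refine half_fix hm (X := orbit (ConjAct N) x) ?_ ?_ ?_ (mem_orbit_self x)
      ⟨ConjAct.toConjAct g, rfl⟩
    · rintro ⟨g, hg⟩
      exact hx (by simpa [ConjAct.smul_def] using hg)
    · rw [← index_stabilizer]
      exact index_dvd_card _
    · rintro h _ ⟨a, rfl⟩ ⟨b, hb⟩ _ ⟨c, rfl⟩
      refine ⟨ConjAct.toConjAct (h • (c.ofConjAct * a.ofConjAct⁻¹) * b.ofConjAct), ?_⟩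
      simp only [ConjAct.smul_def, ConjAct.ofConjAct_toConjAct, smul_mul', smul_inv'] at hb ⊢
      calc _ = h • c.ofConjAct * (h • a.ofConjAct)⁻¹ * (b.ofConjAct * x * b.ofConjAct⁻¹) *
            h • a.ofConjAct * (h • c.ofConjAct)⁻¹ := by group
        _ = _ := by rw [hb]; group
  have hc1 : ∀ x z, x ≠ 1 → z ∉ P x → ∀ y ∈ P x, y * z = z * y := fun x z hx hz y hy => by
    have := hmeet x z (y * z * y⁻¹ * z⁻¹) hx hz ?_ (mul_mem (hconj z y) (inv_mem (hself z)))
    · rwa [mul_inv_eq_one, mul_inv_eq_iff_eq_mul] at this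
    · rw [mul_assoc, mul_assoc, ← mul_assoc z]
      exact mul_mem hy ((hP _ _).2 (le_trans ((hP _ _).1 (inv_mem hy)) ((hP _ _).1 (hconj y⁻¹ z))))
  have hcomm : ∀ x y : N, x * y = y * x := fun x y => by
    by_cases hx : x = 1
    · simp [hx]
    by_cases hy : y ∈ P x
    · obtain ⟨z, hz⟩ := hout x hx
      have e1 := hc1 x z hx hz y hy
      have e2 := hc1 x (x * z) hx (fun h => hz (by simpa using mul_mem (inv_mem (hself x)) h)) y hy
      rw [mul_assoc, ← e1, ← mul_assoc, ← mul_assoc] at e2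
      exact (mul_right_cancel e2).symm
    · exact hc1 x y hx hy x (hself x)
  have hpow : ∀ x z (k : ℕ), x ≠ 1 → z ∉ P x → ∀ y ∈ P x, z ^ k = 1 → y ^ k = 1 :=
    fun x z k hx hz y hy hk => hmeet x (y * z) _ hx
      (fun h => hz (by simpa using mul_mem (inv_mem hy) h)) (pow_mem hy k) (by
        have := pow_mem (hself (y * z)) k
        rwa [Commute.mul_pow (hcomm y z), hk, mul_one] at this)
  refine ⟨?_, fun B hB hB0 => ?_⟩
  · have : Nontrivial N := nontrivial_of_ne x₀ 1 h0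
    obtain ⟨p, hp, hd⟩ := Nat.exists_prime_and_dvd (Finite.one_lt_card (α := N)).ne'
    have := Fact.mk hp
    obtain ⟨x, hx⟩ := exists_prime_orderOf_dvd_card' p hd
    have hx1 : x ≠ 1 := fun e => hp.one_lt.ne (by simpa [e] using hx)
    have h2 : ∀ z, z ∉ P x → z ^ p = 1 := fun z hz => by
      have hz1 : z ≠ 1 := fun e => hz (e ▸ one_mem _)
      exact hpow z x p hz1 (fun h => hz (heq z x hz1 hx1 h)) z (hself z)
        (hx ▸ pow_orderOf_eq_one x)
    refine ⟨p, hp, ⟨⟨hcomm⟩⟩, fun y => ?_⟩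
    by_cases hy : y ∈ P x
    · obtain ⟨z, hz⟩ := hout x hx1
      exact hpow x z p hx1 hz y hy (h2 z hz)
    · exact h2 y hy
  · by_contra hT
    obtain ⟨⟨b, hb⟩, hb1⟩ := ne_bot_iff_exists_ne_one.1 hB0
    have hb1' : b ≠ 1 := fun e => hb1 (Subtype.ext e)
    have h2 : ∀ y, y ∉ B → ∀ c ∈ B, c ∈ P y := fun y hy c hc => by
      have : y * c ∈ P y := by
        refine half_fix hm (X := (fun c => y * c) '' B) ?_ ?_ ?_ ⟨1, one_mem _, mul_one y⟩
          ⟨c, hc, rfl⟩
        · rintro ⟨c, hc, e⟩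
          exact hy (by rw [eq_inv_of_mul_eq_one_left e]; exact inv_mem hc)
        · rw [Set.ncard_image_of_injective _ (mul_right_injective y)]
          exact card_subgroup_dvd_card B
        · rintro h _ ⟨a, ha, rfl⟩ ⟨d, hd, e⟩ _ ⟨c, hc, rfl⟩
          refine ⟨d * h • (a⁻¹ * c), mul_mem hd (hB h _ (mul_mem (inv_mem ha) hc)), ?_⟩
          simp only at e ⊢
          rw [← mul_assoc, e, ← smul_mul', mul_assoc, mul_inv_cancel_left]
      simpa using mul_mem (inv_mem (hself y)) this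
    obtain ⟨z, hz⟩ := hout b hb1'
    have h3 : ∀ y, y ∉ B → y ∈ P b := fun y hy =>
      heq y b (fun e => hy (e ▸ one_mem _)) hb1' (h2 y hy b hb)
    obtain ⟨y, hy⟩ : ∃ y, y ∉ B := by
      by_contra h
      push Not at h
      exact hT ((eq_top_iff' B).2 h)
    by_cases hzB : z ∈ B
    · exact hz ((hP _ _).2 (le_trans ((hP _ _).1 (h3 y hy)) ((hP _ _).1 (h2 y hy z hzB))))
    · exact hz (h3 z hzB)

end H25
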