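import Cfsg.Agent.H25.Odd4
import Cfsg.Agent.H25.MinNormal
import Cfsg.Agent.H25.PrimeSyl
import Cfsg.Agent.S0215
import Cfsg.Agent.Lead.FT

/-! Quadruply transitive groups with four-point stabilisers of odd order. -/

set_option autoImplicit false

namespace H25

open MulAction Subgroup

variable {G α : Type*} [Group G] [MulAction G α]

theorem Odd4.third (hodd : Odd4 G α) {u : G} (hu : u * u = 1) (u1 : u ≠ 1) {p q : α} (h : p ≠ q)
    (hp : u • p = p) (hq : u • q = q) : ∃ x, ∀ y, u • y = y → y = p ∨ y = q ∨ y = x := by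
  by_cases h' : ∃ x, u • x = x ∧ x ≠ p ∧ x ≠ q
  · obtain ⟨x, h1, h2, h3⟩ := h'
    refine ⟨x, fun y hy => ?_⟩
    by_contra! hc
    exact u1 (hodd.eq_one ⟨h, h2.symm, hc.1.symm, h3.symm, hc.2.1.symm, hc.2.2.symm⟩ hu hp hq h1 hy)
  · push Not at h'
    exact ⟨p, fun y hy => by have := h' y hy; tauto⟩

theorem Odd4.no_four [Finite α] (h4 : IsMultiplyPretransitive G α 4) (hodd : Odd4 G α)
    (h8 : 8 ≤ Nat.card α) {s t : G} (hs : s * s = 1) (ht : t * t = 1) (c : Commute s t)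
    (s1 : s ≠ 1) (t1 : t ≠ 1) {p q : α} (h : p ≠ q) (sp : s • p = p) (sq : s • q = q)
    (tp : t • p = p) (tq : t • q = q) : s = t := by
  classical
  by_contra hst
  have sq2 : ∀ {a b : G}, a * a = 1 → b * b = 1 → Commute a b → a * b * (a * b) = 1 :=
    fun {a b} ha hb c => by rw [c.symm.mul_mul_mul_comm, ha, hb, mul_one]
  obtain ⟨x1, h1⟩ := hodd.third hs s1 h sp sq
  obtain ⟨x2, h2⟩ := hodd.third ht t1 h tp tq
  obtain ⟨x3, h3⟩ := hodd.third (sq2 hs ht c) (fun e => hst (mul_left_cancel (hs.trans e.symm))) h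
    (by rw [mul_smul, tp, sp]) (by rw [mul_smul, tq, sq])
  obtain ⟨w, hw⟩ := exists_notMem_finset ({p, q, x1, x2, x3} : Finset α)
    (Finset.card_le_five.trans_lt (by omega))
  simp only [Finset.mem_insert, Finset.mem_singleton, not_or] at hw
  have dw := d4_orbit hs ht c (w := w) (fun e => by have := h1 w e; tauto)
    (fun e => by have := h2 w e; tauto) (fun e => by have := h3 w (by rwa [mul_smul]); tauto)
  obtain ⟨p0, q0, r0, s0, d⟩ := exists_d4 (α := α) (by omega)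
  obtain ⟨b, hb, b1, b2, b3, b4⟩ := exists_transp h4 hodd d
  obtain ⟨a, ha, cab, a1, a2, a3, a4⟩ := exists_transp_comm h4 hodd d hb b1 b2 b3 b4
  have an : a ≠ 1 := fun e => d.2.2.2.2.2 (by rw [← a3, e, one_smul])
  have bn : b ≠ 1 := fun e => d.1 (by rw [← b1, e, one_smul])
  have abn : a * b ≠ 1 := fun e => d.1 (by rw [← one_smul G p0, ← e, mul_smul, b1, a2])
  have key : ∀ {a b : G} {p q : α}, a * a = 1 → a ≠ 1 → Commute a b → p ≠ q → a • p = p →
      a • q = q → b • p = q → b • q = p → ∀ x, a • x = x → x ≠ p → x ≠ q → b • x = x := by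
    intro a b p q ha an c h a1 a2 b1 b2 x hx x1 x2
    obtain ⟨y, hy⟩ := hodd.third ha an h a1 a2
    have e1 := hy x hx
    have e2 := hy (b • x) (smul_fix_of_commute c.symm hx)
    have n1 : b • x ≠ p := fun e => x2 (smul_left_cancel b (e.trans b2.symm))
    have n2 : b • x ≠ q := fun e => x1 (smul_left_cancel b (e.trans b1.symm))
    rw [(e2.resolve_left n1).resolve_left n2, (e1.resolve_left x1).resolve_left x2]
  obtain ⟨w', hw1, hw2⟩ := exists_notMem_of_ncard ({p0, q0, r0, s0} : Finset α)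
    {x | (a * b) • x = x} (by
      have := hodd.ncard_fix_le (sq2 ha hb cab) abn
      have := Finset.card_le_four (a := p0) (b := q0) (c := r0) (d := s0)
      omega)
  simp only [Finset.mem_insert, Finset.mem_singleton, not_or, Set.mem_setOf_eq, mul_smul] at hw1 hw2
  have dw' := d4_orbit ha hb cab (w := w')
    (fun e => hw2 (by rw [key ha an cab d.1 a1 a2 b1 b2 w' e hw1.1 hw1.2.1, e]))
    (fun e => hw2 (by rw [e, key hb bn cab.symm d.2.2.2.2.2 b3 b4 a3 a4 w' e hw1.2.2.1 hw1.2.2.2]))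
    hw2
  obtain ⟨g, g1, g2⟩ := exists_conj_four h4 hodd ha hb cab hs ht c dw' dw
  have f : ∀ {a s : G} {x : α}, g * a * g⁻¹ = s → s • x = x → a • g⁻¹ • x = g⁻¹ • x :=
    fun {a s x} e hx => by
      rw [← e, mul_smul, mul_smul, smul_eq_iff_eq_inv_smul] at hx
      exact hx
  have n : ∀ x, b • x = x → p0 ≠ x ∧ q0 ≠ x := fun x hx =>
    ⟨fun e => d.1 (by rw [← b1, e, hx]), fun e => d.1 (by rw [← b2, e, hx])⟩
  exact an (hodd.eq_one ⟨d.1, (n _ (f g2 tp)).1, (n _ (f g2 tq)).1, (n _ (f g2 tp)).2,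
    (n _ (f g2 tq)).2, fun e => h (smul_left_cancel _ e)⟩ ha a1 a2 (f g1 sp) (f g1 sq))

/-- The stabiliser of an unordered pair. -/
def pairSt (G : Type*) {α : Type*} [Group G] [MulAction G α] (p q : α) : Subgroup G where
  carrier := {g | (g • p = p ∧ g • q = q) ∨ (g • p = q ∧ g • q = p)}
  one_mem' := Or.inl ⟨one_smul _ _, one_smul _ _⟩
  mul_mem' := by
    rintro a b (⟨h1, h2⟩ | ⟨h1, h2⟩) (⟨h3, h4⟩ | ⟨h3, h4⟩) <;> simp [mul_smul, h1, h2, h3, h4]
  inv_mem' := by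
    rintro a (⟨h1, h2⟩ | ⟨h1, h2⟩)
    · exact Or.inl ⟨inv_smul_eq_iff.2 h1.symm, inv_smul_eq_iff.2 h2.symm⟩
    · exact Or.inr ⟨inv_smul_eq_iff.2 h2.symm, inv_smul_eq_iff.2 h1.symm⟩

theorem pairSt_fix {p q : α} {g : G} (hg : g ∈ pairSt G p q) (ho : Odd (orderOf g)) :
    g • p = p ∧ g • q = q := by
  rcases hg with h | ⟨h1, h2⟩
  · exact h
  · obtain ⟨k, hk⟩ := ho
    have : ∀ k : ℕ, g ^ (2 * k) • p = p := fun k => by
      induction k with
      | zero => simp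
      | succ k ih => rw [mul_add, pow_add, mul_smul, mul_one, pow_two, mul_smul, h1, h2, ih]
    have e := pow_orderOf_eq_one g
    rw [hk, pow_succ'] at e
    have e2 : q = p := by rw [← h1, ← this k, ← mul_smul, e, one_smul, this]
    subst e2
    exact ⟨h1, h1⟩

theorem Odd4.exists_ab [Finite G] [Finite α] [FaithfulSMul G α]
    (h4 : IsMultiplyPretransitive G α 4) (hodd : Odd4 G α) (h8 : 8 ≤ Nat.card α) {p q r s : α}
    (d : D4 p q r s) : ∃ M : Subgroup G, Odd (Nat.card M) ∧ M ≠ ⊥ ∧ M ≤ pairSt G p q ∧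
      (∀ g ∈ pairSt G p q, ∀ m ∈ M, g * m * g⁻¹ ∈ M) ∧ ∀ m ∈ M, ∀ m' ∈ M, m * m' = m' * m := by
  obtain ⟨z, hz, z1, z2, z3, z4⟩ := exists_transp h4 hodd d.rot
  have zn : z ≠ 1 := fun e => d.2.2.2.2.2 (by rw [← z1, e, one_smul])
  let z' : pairSt G p q := ⟨z, Or.inl ⟨z3, z4⟩⟩
  have oz : orderOf z' = 2 := orderOf_eq_prime (Subtype.ext (by rw [pow_two]; exact hz))
    fun e => zn (congrArg Subtype.val e)
  obtain ⟨P, hP⟩ := (IsPGroup.of_card (p := 2) (n := 1) (G := zpowers z')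
    (by rw [Nat.card_zpowers, oz, pow_one])).exists_le_sylow
  have zP := hP (mem_zpowers z')
  let X : Subgroup (pairSt G p q) := (stabilizer G p ⊓ stabilizer G q).subgroupOf _
  obtain ⟨c, hc, c1, c2⟩ : ∃ c ∈ (P : Subgroup (pairSt G p q)) ⊓ X, c ≠ 1 ∧ c * c = 1 ∧
      ∀ y ∈ (P : Subgroup (pairSt G p q)) ⊓ X, Commute c y := by
    have hp : IsPGroup 2 ↥((P : Subgroup (pairSt G p q)) ⊓ X) := P.isPGroup'.to_inf_left
    haveI : Nontrivial ↥((P : Subgroup (pairSt G p q)) ⊓ X) :=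
      ⟨⟨⟨z', zP, z3, z4⟩, 1, fun e => zn (congrArg (fun x => (x.1 : G)) e)⟩⟩
    haveI := hp.center_nontrivial
    obtain ⟨k, hk, hk'⟩ := (hp.to_subgroup (center _)).nontrivial_iff_card.1 inferInstance
    obtain ⟨c, hc⟩ := exists_prime_orderOf_dvd_card' (G := center ↥((P : Subgroup _) ⊓ X)) 2
      (hk' ▸ dvd_pow_self 2 hk.ne')
    refine ⟨c.1.1, c.1.2, fun e => ?_, ?_, fun y hy => ?_⟩
    · rw [show c = 1 from Subtype.ext (Subtype.ext e)] at hc
      simp at hc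
    · have := pow_orderOf_eq_one c
      rw [hc, pow_two] at this
      exact congrArg (fun x => x.1.1) this
    · exact (congrArg Subtype.val (mem_center_iff.1 c.2 ⟨y, hy⟩)).symm
  have uniq : ∀ y ∈ (P : Subgroup (pairSt G p q)) ⊓ X, y ≠ 1 → y * y = 1 → c = y :=
    fun y hy y1 y2 => Subtype.ext (hodd.no_four h4 h8 (congrArg Subtype.val c2.1)
      (congrArg Subtype.val y2) (congrArg Subtype.val (c2.2 y hy)) (fun e => c1 (Subtype.ext e))
      (fun e => y1 (Subtype.ext e)) d.1 hc.2.1 hc.2.2 hy.2.1 hy.2.2)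
  have z2' : z' * z' = 1 := Subtype.ext hz
  have zn' : z' ≠ 1 := fun e => zn (congrArg Subtype.val e)
  obtain ⟨N, hN, oN, hz'⟩ := Cfsg.Agent.S0215.result P z' oz zP fun g hg => by
    refine (uniq _ ⟨hg, ?_⟩ (by simpa using zn') (by rw [conj_mul, z2']; simp)).symm.trans
      (uniq z' ⟨zP, z3, z4⟩ zn' z2')
    have : ∀ x, (g : G)⁻¹ • x = p ∨ (g : G)⁻¹ • x = q → ((g : G) * z * (g : G)⁻¹) • x = x := by
      rintro x (e | e) <;> rw [mul_smul, mul_smul, e]
      · rw [z3]; exact (inv_smul_eq_iff.1 e).symm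
      · rw [z4]; exact (inv_smul_eq_iff.1 e).symm
    rcases (pairSt G p q).inv_mem g.2 with h | h
    exacts [⟨this p (Or.inl h.1), this q (Or.inr h.2)⟩, ⟨this p (Or.inr h.1), this q (Or.inl h.2)⟩]
  have N0 : N ≠ ⊥ := by
    rintro rfl
    obtain ⟨x, hx⟩ := exists_notMem_finset (α := α) (by classical exact {p, q, r, s})
      (by classical exact Finset.card_le_four.trans_lt (by omega))
    simp only [Finset.mem_insert, Finset.mem_singleton, not_or] at hx
    obtain ⟨g, g1, g2, g3, g4⟩ := d.exists_smul h4 (p' := p) (q' := q) (r' := r) (s' := x)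
      ⟨d.1, d.2.1, Ne.symm hx.1, d.2.2.2.1, Ne.symm hx.2.1, Ne.symm hx.2.2.1⟩
    have := congrArg Subtype.val (mem_bot.1 (hz' ⟨g, Or.inl ⟨g1, g2⟩⟩))
    change z * g * z⁻¹ * g⁻¹ = 1 at this
    rw [mul_inv_eq_one, mul_inv_eq_iff_eq_mul] at this
    have e : (z * g) • r = (g * z) • r := by rw [this]
    rw [mul_smul, mul_smul, g3, z1, g4] at e
    exact hx.2.2.2 e.symm
  obtain ⟨S, hS, S0, SN, hmin⟩ := exists_minimal_normal_le N N0
  have oS : Odd (Nat.card S) := oN.of_dvd_nat (card_dvd_of_le SN)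
  haveI sol : Group.IsSolvable S := FT.odd_solvable S oS
  have cS : ⁅S, S⁆ = ⊥ := (hmin _ inferInstance (commutator_le_right _ _)).resolve_right fun e => by
    haveI := (nontrivial_iff_ne_bot S).2 S0
    have := (IsSolvable.commutator_lt_top_of_nontrivial S).ne
    apply this
    apply map_injective S.subtype_injective
    rw [_root_.commutator_def, map_commutator, ← MonoidHom.range_eq_map, range_subtype, e]
  refine ⟨S.map (pairSt G p q).subtype, by rwa [card_subtype], fun e => S0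
    ((map_eq_bot_iff_of_injective _ (subtype_injective _)).1 e), map_subtype_le _, ?_, ?_⟩
  · rintro g hg _ ⟨m, hm, rfl⟩
    exact ⟨_, hS.conj_mem m hm ⟨g, hg⟩, rfl⟩
  · rintro _ ⟨m, hm, rfl⟩ _ ⟨m', hm', rfl⟩
    have := commutator_mem_commutator hm hm'
    rw [cS, mem_bot, commutatorElement_eq_one_iff_mul_comm] at this
    exact congrArg Subtype.val this

theorem hall4_card [Finite G] [Finite α] [FaithfulSMul G α]
    (h4 : IsMultiplyPretransitive G α 4) (hodd : Odd4 G α) : Nat.card α ≤ 7 ∨ Nat.card α = 11 := by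
  classical
  rcases le_or_gt (Nat.card α) 7 with h8 | h8
  · exact Or.inl h8
  right
  obtain ⟨p, q, r, s, d⟩ := exists_d4 (α := α) (by omega)
  obtain ⟨M, oM, M0, le, nrm, cm⟩ := hodd.exists_ab h4 h8 d
  have fx : ∀ m ∈ M, m • p = p ∧ m • q = q := fun m hm =>
    pairSt_fix (le hm) (oM.of_dvd_nat (orderOf_dvd_natCard M hm))
  have ne : ∀ m ∈ M, ∀ x, x ≠ p → x ≠ q → m • x ≠ p ∧ m • x ≠ q := fun m hm x x1 x2 =>
    ⟨fun e => x1 (smul_left_cancel m (e.trans (fx m hm).1.symm)),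
      fun e => x2 (smul_left_cancel m (e.trans (fx m hm).2.symm))⟩
  have tr : ∀ u v, u ≠ p → u ≠ q → v ≠ p → v ≠ q → ∃ m ∈ M, m • u = v := by
    intro u v u1 u2 v1 v2
    by_cases huv : u = v
    · exact ⟨1, one_mem _, by rw [one_smul, huv]⟩
    obtain ⟨⟨m, hm⟩, m1⟩ := ne_bot_iff_exists_ne_one.1 M0
    obtain ⟨x, hx⟩ : ∃ x : α, m • x ≠ x := by
      by_contra! h
      exact m1 (Subtype.ext (eq_of_smul_eq_smul (α := α) (by simpa using h)))
    have x1 : x ≠ p := by rintro rfl; exact hx (fx m hm).1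
    have x2 : x ≠ q := by rintro rfl; exact hx (fx m hm).2
    obtain ⟨g, g1, g2, g3, g4⟩ := D4.exists_smul h4 (p := p) (q := q) (r := x) (s := m • x)
      ⟨d.1, x1.symm, (ne m hm x x1 x2).1.symm, x2.symm, (ne m hm x x1 x2).2.symm, hx.symm⟩
      ⟨d.1, u1.symm, v1.symm, u2.symm, v2.symm, huv⟩
    exact ⟨_, nrm g (Or.inl ⟨g1, g2⟩) m hm, by rw [← g3, mul_smul, mul_smul, inv_smul_smul, g4]⟩
  have reg : ∀ m ∈ M, ∀ u, u ≠ p → u ≠ q → m • u = u → m = 1 := fun m hm u u1 u2 e =>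
    eq_of_smul_eq_smul (α := α) fun v => by
      rw [one_smul]
      by_cases v1 : v = p
      · rw [v1, (fx m hm).1]
      by_cases v2 : v = q
      · rw [v2, (fx m hm).2]
      obtain ⟨k, hk, rfl⟩ := tr u v u1 u2 v1 v2
      rw [← mul_smul, cm m hm k hk, mul_smul, e]
  have reg' : ∀ m ∈ M, ∀ m' ∈ M, ∀ u, u ≠ p → u ≠ q → m • u = m' • u → m = m' :=
    fun m hm m' hm' u u1 u2 e => (inv_mul_eq_one.1 (reg _ (mul_mem (inv_mem hm') hm) u u1 u2
      (by rw [mul_smul, e, inv_smul_smul]))).symm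
  have cK : ∀ (K : Subgroup G), K ≤ M → ∀ o, o ≠ p → o ≠ q →
      Nat.card K = ((· • o) '' (K : Set G)).ncard := fun K hK o o1 o2 => by
    rw [Set.InjOn.ncard_image fun m hm m' hm' e => reg' m (hK hm) m' (hK hm') o o1 o2 e]
    rfl
  have cM : Nat.card M + 2 = Nat.card α := by
    rw [cK M le_rfl r d.2.1.symm d.2.2.2.1.symm, ← Set.ncard_pair d.1, add_comm,
      ← Set.ncard_add_ncard_compl {p, q}]
    congr 2
    ext v
    simp only [Set.mem_image, SetLike.mem_coe, Set.mem_compl_iff, Set.mem_insert_iff,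
      Set.mem_singleton_iff, not_or]
    exact ⟨fun ⟨m, hm, e⟩ => e ▸ ne m hm r d.2.1.symm d.2.2.2.1.symm,
      fun h => tr r v d.2.1.symm d.2.2.2.1.symm h.1 h.2⟩
  obtain ⟨z, hz, z1, z2, z3, z4⟩ := exists_transp h4 hodd d.rot
  have zn : z ≠ 1 := fun e => d.2.2.2.2.2 (by rw [← z1, e, one_smul])
  obtain ⟨o, zo, o1, o2⟩ : ∃ o, z • o = o ∧ o ≠ p ∧ o ≠ q := by
    by_contra! h
    have := card_modEq_fix (α := α) hz
    rw [show {x : α | z • x = x} = {p, q} from Set.ext fun x => ⟨fun e => by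
      have := h x e; simp; tauto, by rintro (rfl | rfl); exacts [z3, z4]⟩, Set.ncard_pair d.1]
      at this
    obtain ⟨k, hk⟩ := oM
    unfold Nat.ModEq at this
    omega
  have zf : ∀ x, z • x = x → x ≠ p → x ≠ q → x = o := fun x hx x1 x2 => by
    obtain ⟨y, hy⟩ := hodd.third hz zn d.1 z3 z4
    rw [((hy x hx).resolve_left x1).resolve_left x2, ((hy o zo).resolve_left o1).resolve_left o2]
  have zi : z⁻¹ = z := inv_eq_of_mul_eq_one_right hz
  have inv : ∀ m ∈ M, z * m * z⁻¹ = m⁻¹ := fun m hm => by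
    have h1 := nrm z (Or.inl ⟨z3, z4⟩) m hm
    refine eq_inv_of_mul_eq_one_right (reg _ (mul_mem hm h1) o o1 o2 (zf _ ?_ (ne _ (mul_mem hm h1)
      o o1 o2).1 (ne _ (mul_mem hm h1) o o1 o2).2))
    rw [cm m hm _ h1]
    nth_rw 2 [← cm m hm _ h1]
    simp only [mul_smul, zi, zo, ← mul_smul z z, hz, one_smul]
  obtain ⟨a, ha, c, a1, a2, a3, a4⟩ := exists_transp_comm h4 hodd d.rot hz z1 z2 z3 z4
  have ao : a • o = o := zf _ (smul_fix_of_commute c zo)
    (fun e => o2 (smul_left_cancel a (e.trans a4.symm)))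
    (fun e => o1 (smul_left_cancel a (e.trans a3.symm)))
  have cen : ∀ b : G, b • o = o → b • p = q → b • q = p →
      Nat.card ↥(M ⊓ centralizer {b}) = {x : α | b • x = x}.ncard := fun b b0 b1 b2 => by
    rw [cK _ inf_le_left o o1 o2]
    congr 1
    ext v
    simp only [Set.mem_image, SetLike.mem_coe, mem_inf, mem_centralizer_singleton_iff,
      Set.mem_setOf_eq]
    constructor
    · rintro ⟨m, ⟨-, h⟩, rfl⟩
      rw [← mul_smul, ← h, mul_smul, b0]
    · intro h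
      obtain ⟨m, hm, rfl⟩ := tr o v o1 o2 (fun e => d.1 (by rw [← b1, ← e, h]))
        (fun e => d.1 (by rw [← b2, ← e, h]))
      refine ⟨m, ⟨hm, ?_⟩, rfl⟩
      have := reg' _ (nrm b (Or.inr ⟨b1, b2⟩) m hm) m hm o o1 o2 (by
        rw [mul_smul, mul_smul, inv_smul_eq_iff.2 b0.symm, h])
      exact (mul_inv_eq_iff_eq_mul.1 this).symm
  have an : a ≠ 1 := fun e => d.1 (by rw [← a3, e, one_smul])
  have l1 := hodd.ncard_fix_le ha an
  have l2 := hodd.ncard_fix_le (u := a * z) (by rw [c.symm.mul_mul_mul_comm, ha, hz, mul_one])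
    fun e => d.1 (by rw [← one_smul G p, ← e, mul_smul, z3, a3])
  have l3 : 2 < {x : α | a • x = x}.ncard := (Set.two_lt_ncard_iff (Set.toFinite _)).2
    ⟨r, s, o, a1, a2, ao, d.2.2.2.2.2, fun e => d.2.2.2.2.2 (by rw [← z1, e, zo]),
      fun e => d.2.2.2.2.2 (by rw [← z2, e, zo])⟩
  rw [← cen a ao a3 a4] at l1 l3
  rw [← cen _ (by rw [mul_smul, zo, ao]) (by rw [mul_smul, z3, a3]) (by rw [mul_smul, z4, a4])] at l2
  have l4 := card_dvd_of_le (inf_le_left : M ⊓ centralizer {a} ≤ M)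
  have ai : a⁻¹ = a := inv_eq_of_mul_eq_one_right ha
  have aM : ∀ m ∈ M, a * m * a⁻¹ ∈ M := nrm a (Or.inr ⟨a3, a4⟩)
  have aa : ∀ m : G, a * (a * m * a⁻¹) * a⁻¹ = m := fun m => by
    rw [ai, ← mul_assoc, ← mul_assoc, ha, mul_assoc, ha, one_mul, mul_one]
  have l5 : Nat.card M ≤ Nat.card ↥(M ⊓ centralizer {a}) * Nat.card ↥(M ⊓ centralizer {a * z}) := by
    rw [← Nat.card_prod]
    refine Nat.card_le_card_of_injective (fun m : M => (⟨m * (a * m * a⁻¹),
      mem_inf.2 ⟨M.mul_mem m.2 (aM _ m.2), mem_centralizer_singleton_iff.2 ?_⟩⟩,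
      ⟨m * (a * m * a⁻¹)⁻¹, mem_inf.2 ⟨M.mul_mem m.2 (M.inv_mem (aM _ m.2)),
        mem_centralizer_singleton_iff.2 ?_⟩⟩)) fun m m' e => ?_
    · rw [eq_comm, ← mul_inv_eq_iff_eq_mul, ← conj_mul, aa, cm _ m.2 _ (aM _ m.2)]
    · rw [eq_comm, ← mul_inv_eq_iff_eq_mul]
      have := inv _ (mul_mem m.2 (inv_mem (aM _ m.2)))
      calc a * z * (m * (a * m * a⁻¹)⁻¹) * (a * z)⁻¹
          = a * (z * (m * (a * m * a⁻¹)⁻¹) * z⁻¹) * a⁻¹ := by group
        _ = a * (a * m * a⁻¹) * a⁻¹ * (a * m * a⁻¹)⁻¹ := by rw [this]; group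
        _ = _ := by rw [aa]
    · have e1 := congrArg (fun x => (x.1 : G)) e
      have e2 := congrArg (fun x => (x.2 : G)) e
      simp only at e1 e2
      have k : ∀ m ∈ M, m * (a * m * a⁻¹) * (m * (a * m * a⁻¹)⁻¹) = m ^ 2 := fun m hm => by
        rw [mul_assoc m, ← mul_assoc _ m, ← cm m hm _ (aM m hm), pow_two]; group
      have e3 : m ^ 2 = m' ^ 2 := Subtype.ext (by
        simpa using (k _ m.2).symm.trans (by rw [e1, e2, k _ m'.2]))
      exact (powCoprime (Nat.coprime_two_right.2 oM)).injective e3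
  have l6 : Nat.card M ≤ 9 := l5.trans (Nat.mul_le_mul l1 l2)
  rw [show Nat.card ↥(M ⊓ centralizer {a}) = 3 by omega] at l4
  obtain ⟨k, hk⟩ := oM
  omega

theorem odd4_of_stab [Finite G] (h4 : IsMultiplyPretransitive G α 4) (x : Fin 4 ↪ α)
    (h : Odd (Nat.card (stabilizer G x))) : Odd4 G α := fun p q r s d g hg => by
  obtain ⟨k, hk⟩ := h4.exists_smul_eq x ⟨_, inj_vec4 d.1 d.2.1 d.2.2.1 d.2.2.2.1 d.2.2.2.2.1
    d.2.2.2.2.2⟩
  have : k⁻¹ * g * k ∈ stabilizer G x := by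
    rw [mem_stabilizer_iff, mul_smul, mul_smul, hk, inv_smul_eq_iff, hk]
    ext i
    fin_cases i <;> exact hg _ (by simp)
  have o := orderOf_dvd_natCard _ this
  rw [show k⁻¹ * g * k = MulAut.conj k⁻¹ g by simp, MulEquiv.orderOf_eq] at o
  exact h.of_dvd_nat o

theorem card_of_multi [Fintype α] {k : ℕ} (h : IsMultiplyPretransitive G α k) (x : Fin k ↪ α) :
    Nat.card G = (Fintype.card α).descFactorial k * Nat.card (stabilizer G x) := by
  classical
  rw [card_eq_card_mul_card_stabilizer x, Nat.card_eq_fintype_card, Fintype.card_embedding_eq,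
    Fintype.card_fin]

end H25
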