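import Cfsg.Agent.H25.Hall4
import Cfsg.Agent.H25.MultNorm
import Cfsg.Agent.S1013

/-! Sharply multiply transitive groups. -/

set_option autoImplicit false

namespace H25

open MulAction Subgroup SubMulAction

universe u v

variable {G : Type u} {α : Type v} [Group G] [MulAction G α]

structure Shp (G : Type u) (α : Type v) [Group G] [MulAction G α] (k : ℕ) : Prop where
  tr : IsMultiplyPretransitive G α k
  sh : ∀ x : Fin k ↪ α, stabilizer G x = ⊥
  le : k ≤ Nat.card α

theorem Shp.emb [Finite α] {k : ℕ} (h : Shp G α k) : Nonempty (Fin k ↪ α) := by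
  have := Fintype.ofFinite α
  exact Function.Embedding.nonempty_of_card_le (by simpa [Nat.card_eq_fintype_card] using h.le)

theorem Shp.faithful [Finite α] {k : ℕ} (h : Shp G α k) : FaithfulSMul G α := ⟨fun {a b} e => by
  obtain ⟨x⟩ := h.emb
  have : b⁻¹ * a ∈ stabilizer G x := by
    rw [mem_stabilizer_iff]; ext i; simp [mul_smul, e]
  rw [h.sh, mem_bot, inv_mul_eq_one] at this
  exact this.symm⟩

theorem Shp.card [Finite α] {k : ℕ} (h : Shp G α k) :
    Nat.card G = (Nat.card α).descFactorial k := by
  have := Fintype.ofFinite α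
  obtain ⟨x⟩ := h.emb
  rw [card_of_multi h.tr x, h.sh, card_bot, mul_one, Nat.card_eq_fintype_card]

theorem Shp.finite [Finite α] {k : ℕ} (h : Shp G α k) : Finite G :=
  Nat.finite_of_card_ne_zero (by rw [h.card]; exact (Nat.descFactorial_pos.2 h.le).ne')

theorem Shp.trans [Finite α] {k : ℕ} (h : Shp G α (k + 1)) : IsPretransitive G α :=
  have := h.tr
  is_one_pretransitive_iff.1 (isMultiplyPretransitive_of_le (n := k + 1) (by omega) h.le)

theorem Shp.stab [Finite α] {k : ℕ} (h : Shp G α (k + 1)) (a : α) :
    Shp (stabilizer G a) (ofStabilizer G a) k := by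
  have := h.trans
  refine ⟨ofStabilizer.isMultiplyPretransitive.1 h.tr, fun x => eq_bot_iff.2 fun g hg => ?_,
    by have := h.le; rw [card_ofStabilizer]; omega⟩
  have : (g : G) ∈ stabilizer G (ofStabilizer.snoc x) := by
    rw [mem_stabilizer_iff]; ext i
    rcases Fin.eq_castSucc_or_eq_last i with ⟨i, rfl⟩ | rfl
    · have := congrArg (fun y => ((y i : ofStabilizer G a) : α)) (mem_stabilizer_iff.1 hg)
      simpa [ofStabilizer.snoc_castSucc] using! this
    · simpa [ofStabilizer.snoc_last] using! mem_stabilizer_iff.1 g.2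
  rw [h.sh, mem_bot] at this
  exact Subtype.ext this

theorem card_eq_of_normalizer_eq [Finite G] [FaithfulSMul G α] [IsPretransitive G α] {p : ℕ}
    [hp : Fact p.Prime] (hα : Nat.card α = p) (P : Sylow p G)
    (h : Nat.card (normalizer ((P : Subgroup G) : Set G)) = p) : Nat.card G = p := by
  have := prim_of_prime_degree (G := G) hα
  have hP := card_sylow_of_prime_degree hα P
  have := isCyclic_of_prime_card hP
  have hle : normalizer ((P : Subgroup G) : Set G) ≤ centralizer ((P : Subgroup G) : Set G) := by
    rw [← eq_of_le_of_card_ge le_normalizer (h.trans hP.symm).le]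
    exact (P : Subgroup G).le_centralizer
  have h1 := MonoidHom.ker_transferSylow_isComplement' P hle
  by_cases h2 : (MonoidHom.transferSylow P hle).ker = ⊥
  · rw [h2, isComplement'_bot_left] at h1
    rwa [h1, card_top] at hP
  · have := normal_transitive_of_primitive (α := α) _ h2
    obtain ⟨a⟩ := (Nat.card_pos_iff.1 (hα ▸ hp.out.pos)).1
    refine absurd ?_ (MonoidHom.not_dvd_card_ker_transferSylow P hle)
    have := @card_eq_card_mul_card_stabilizer _ _ _ _ this a
    exact ⟨_, this.trans (by rw [hα])⟩

theorem card_ne_840 [Finite G] [FaithfulSMul G α] [IsPretransitive G α] (hα : Nat.card α = 7) :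
    Nat.card G ≠ 840 := fun h => by
  have : Fact (Nat.Prime 7) := ⟨by norm_num⟩
  obtain ⟨P⟩ : Nonempty (Sylow 7 G) := inferInstance
  obtain ⟨d, n, hd, hn, h1, h2⟩ := sylow_count_prime_degree hα P
  have := Nat.le_of_dvd (by norm_num) hd
  unfold Nat.ModEq at hn
  have : d = 1 := by interval_cases d <;> omega
  have := card_eq_of_normalizer_eq hα P (by rw [h1, this])
  omega

theorem Shp.four [Finite α] (h : Shp G α 4) :
    Nat.card α = 4 ∨ Nat.card α = 5 ∨ Nat.card α = 6 ∨ Nat.card α = 11 := by
  have := h.finite; have := h.faithful; have := h.trans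
  obtain ⟨x⟩ := h.emb
  have h1 := hall4_card h.tr (odd4_of_stab h.tr x (by rw [h.sh, card_bot]; exact odd_one))
  have h2 := h.le
  have : Nat.card α ≠ 7 := fun e => card_ne_840 (G := G) e (by rw [h.card, e]; rfl)
  omega

theorem Shp.five [Finite α] (h : Shp G α 5) :
    Nat.card α = 5 ∨ Nat.card α = 6 ∨ Nat.card α = 7 ∨ Nat.card α = 12 := by
  obtain ⟨x⟩ := h.emb
  have := (h.stab (x 0)).four
  rw [card_ofStabilizer] at this
  omega

theorem Shp.six (k : ℕ) : ∀ {G : Type u} {α : Type v} [Group G] [MulAction G α] [Finite α],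
    Shp G α (k + 6) → Nat.card α ≤ k + 8 := by
  induction k with
  | zero =>
    intro G α _ _ _ h
    have := h.finite; have := h.faithful; have := h.trans
    obtain ⟨x⟩ := h.emb
    have h1 := (h.stab (x 0)).five
    rw [card_ofStabilizer] at h1
    have : Nat.card α ≠ 13 := fun e => by
      have : Fact (Nat.Prime 13) := ⟨by norm_num⟩
      obtain ⟨P⟩ : Nonempty (Sylow 13 G) := inferInstance
      obtain ⟨d, n, hd, hn, -, h2⟩ := sylow_count_prime_degree e P
      have := Nat.le_of_dvd (by norm_num) hd
      rw [h.card, e, show Nat.descFactorial 13 (0 + 6) = 1235520 from rfl] at h2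
      unfold Nat.ModEq at hn
      interval_cases d <;> omega
    omega
  | succ k ih =>
    intro G α _ _ _ h
    obtain ⟨x⟩ := h.emb
    have h1 := ih (Shp.stab (k := k + 6) (by simpa [add_right_comm] using h) (x 0))
    rw [card_ofStabilizer] at h1
    omega

theorem simple_7920 [Finite α] [FaithfulSMul G α] [IsPretransitive G α] (hα : Nat.card α = 11)
    (hG : Nat.card G = 7920) : IsSimpleGroup G := by
  classical
  have := Fintype.ofFinite α
  have : Fact (Nat.Prime 11) := ⟨by norm_num⟩
  let H := (toPermHom G α).range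
  let e : G ≃* H := MonoidHom.ofInjective toPerm_injective
  have : IsPretransitive H α := ⟨fun x y => by
    obtain ⟨g, hg⟩ := exists_smul_eq G x y; exact ⟨e g, hg⟩⟩
  obtain ⟨P⟩ : Nonempty (Sylow 11 H) := inferInstance
  obtain ⟨d, n, hd, hn, h1, h2⟩ := sylow_count_prime_degree hα P
  have hH : Nat.card H = 7920 := (Nat.card_congr e.toEquiv).symm.trans hG
  have := Nat.le_of_dvd (by norm_num) hd
  unfold Nat.ModEq at hn
  obtain rfl : d = 5 := by interval_cases d <;> omega
  have k1 := (normalizer ((P : Subgroup H) : Set H)).card_mul_index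
  rw [h1, hH] at k1
  have k2 := ((P : Subgroup H).subgroupOf (normalizer ((P : Subgroup H) : Set H))).card_mul_index
  rw [Nat.card_congr (subgroupOfEquivOfLe le_normalizer).toEquiv, card_sylow_of_prime_degree hα,
    h1] at k2
  have := Cfsg.Agent.S1013.result (p := 11) (Nat.card_eq_fintype_card.symm.trans hα) H P
    (by rw [P.card_eq_index_normalizer]; exact (by omega : ∀ a, 11 * 5 * a = 7920 → 1 < a) _ k1)
    (by rw [show Subgroup.index _ = 5 by omega]; norm_num)
  exact e.isSimpleGroup

theorem Shp.simple11 [Finite α] (h : Shp G α 4) (hα : Nat.card α = 11) : IsSimpleGroup G :=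
  have := h.faithful; have := h.trans
  simple_7920 hα (by rw [h.card, hα]; rfl)

theorem simple_of_stab_four [Finite α] [Finite G] [FaithfulSMul G α]
    (h4 : IsMultiplyPretransitive G α 4) (h5 : 5 ≤ Nat.card α) (a : α)
    (hs : IsSimpleGroup (stabilizer G a)) : IsSimpleGroup G := by
  have : IsMultiplyPretransitive G α 2 := isMultiplyPretransitive_of_le (n := 4) (by omega) (by omega)
  have : IsPreprimitive G α := isPreprimitive_of_is_two_pretransitive this
  have : Nontrivial G := (stabilizer G a).subtype_injective.nontrivial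
  refine ⟨fun N hN => or_iff_not_imp_left.2 fun h0 => ?_⟩
  have := normal_transitive_of_primitive (α := α) N h0
  rcases hs.eq_bot_or_eq_top_of_normal (N.subgroupOf (stabilizer G a)) inferInstance with h | h
  · exact (false_of_regular_four h4 h5 N (stabilizer_bot_of_subgroupOf h)).elim
  · refine eq_top_iff.2 fun g _ => ?_
    obtain ⟨n, hn⟩ := exists_smul_eq N a (g • a)
    have : (n : G)⁻¹ * g ∈ stabilizer G a := by
      rw [mem_stabilizer_iff, mul_smul, inv_smul_eq_iff]; exact hn.symm
    simpa using N.mul_mem n.2 (subgroupOf_eq_top.1 h this)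

theorem Shp.simple12 [Finite α] (h : Shp G α 5) (hα : Nat.card α = 12) : IsSimpleGroup G := by
  have := h.finite; have := h.faithful; have := h.tr
  obtain ⟨x⟩ := h.emb
  exact simple_of_stab_four (isMultiplyPretransitive_of_le (n := 5) (by omega) (by omega))
    (by omega) (x 0) ((h.stab _).simple11 (by rw [card_ofStabilizer, hα]))

end H25
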