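import Cfsg.Agent.H25.AltInd

/-! Homogeneous permutation groups. -/

set_option autoImplicit false

namespace H25

open MulAction Subgroup SubMulAction Equiv
open scoped Pointwise

variable {G α : Type*} [Group G] [MulAction G α] [DecidableEq α]

theorem homog_iff {k : ℕ} : IsPretransitive G (Set.powersetCard α k) ↔
    ∀ s t : Finset α, s.card = k → t.card = k → ∃ g : G, g • s = t :=
  ⟨fun h s t hs ht => (h.exists_smul_eq ⟨s, hs⟩ ⟨t, ht⟩).imp fun _ e => congrArg Subtype.val e,
    fun h => ⟨fun s t => (h s t s.2 t.2).imp fun _ e => Subtype.ext e⟩⟩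

theorem homog_tuple {k : ℕ} (h : IsPretransitive G (Set.powersetCard α k)) {x y : Fin k → α}
    (hx : Function.Injective x) (hy : Function.Injective y) :
    ∃ (g : G) (π : Perm (Fin k)), ∀ i, g • x i = y (π i) := by
  obtain ⟨g, hg⟩ := homog_iff.1 h (Finset.univ.map ⟨x, hx⟩) (Finset.univ.map ⟨y, hy⟩) (by simp)
    (by simp)
  have : ∀ i, ∃ j, y j = g • x i := fun i => by
    have := Finset.smul_mem_smul_finset (a := g) (Finset.mem_map_of_mem ⟨x, hx⟩ (Finset.mem_univ i))
    rw [hg] at this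
    simpa using this
  choose π hπ using this
  exact ⟨g, Equiv.ofBijective π (Function.Injective.bijective_of_finite fun i j e =>
    hx (smul_left_cancel g (by rw [← hπ, e, hπ]))), fun i => (hπ i).symm⟩

theorem card_eq_choose_mul [Finite α] {k : ℕ} (h : IsPretransitive G (Set.powersetCard α k))
    {s : Finset α} (hs : s.card = k) :
    Nat.card G = (Nat.card α).choose k * Nat.card (stabilizer G s) := by
  rw [card_eq_card_mul_card_stabilizer (α := Set.powersetCard α k) ⟨s, hs⟩, Set.powersetCard.card]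
  exact congrArg _ (congrArg (fun H : Subgroup G => Nat.card H) (Subgroup.ext fun g => Subtype.ext_iff))

theorem choose_mul_orderOf_dvd [Finite α] {k : ℕ} (h : IsPretransitive G (Set.powersetCard α k))
    {s : Finset α} (hs : s.card = k) {g : G} (hg : ∀ x ∈ s, g • x ∈ s) :
    (Nat.card α).choose k * orderOf g ∣ Nat.card G := by
  rw [card_eq_choose_mul h hs]
  refine Nat.mul_dvd_mul_left _ (orderOf_dvd_natCard _ (mem_stabilizer_iff.2 ?_))
  refine Finset.eq_of_subset_of_card_le (fun y hy => ?_) (by simp)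
  obtain ⟨x, hx, rfl⟩ := Finset.mem_smul_finset.1 hy
  exact hg x hx

theorem card_dvd_choose_mul [Finite α] {k : ℕ} (h : IsPretransitive G (Set.powersetCard α k))
    {s : Finset α} (hs : s.card = k) (htriv : ∀ g : G, (∀ x ∈ s, g • x = x) → g = 1) :
    Nat.card G ∣ (Nat.card α).choose k * k.factorial := by
  rw [card_eq_choose_mul h hs]
  refine Nat.mul_dvd_mul_left _ ?_
  let F := subMulActionOfInv (stabilizer G s) (s : Set α) fun g hg x hx => by
    rw [← show g • s = s from hg]; exact Finset.smul_mem_smul_finset hx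
  have := card_dvd_of_injective (toPermHom (stabilizer G s) F) ((injective_iff_map_eq_one _).2
    fun g hg => Subtype.ext (htriv g fun x hx =>
      congrArg Subtype.val (congrArg (fun σ : Perm F => σ ⟨x, hx⟩) hg)))
  rwa [Nat.card_perm, show Nat.card F = k from (Set.ncard_coe_finset s).trans hs] at this

theorem card_fixing_eq {k : ℕ} (h : IsPretransitive G (Set.powersetCard α k)) {s t : Finset α}
    (hs : s.card = k) (ht : t.card = k) :
    Nat.card (fixingSubgroup G (s : Set α)) = Nat.card (fixingSubgroup G (t : Set α)) := by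
  obtain ⟨g, rfl⟩ := homog_iff.1 h s t hs ht
  exact Nat.card_congr (fixingSubgroupEquivFixingSubgroup (g := g) (by simp)).toEquiv

theorem choose_modEq_one {p : ℕ} [hp : Fact p.Prime] (a s : ℕ) :
    (p ^ a * s + (p ^ a - 1)).choose (p ^ a - 1) ≡ 1 [MOD p] := by
  induction a with
  | zero => simp [Nat.ModEq.refl]
  | succ a ih =>
    have h0 := hp.out.pos
    have h1 : 0 < p ^ a := pow_pos h0 a
    have e1 : p ^ (a + 1) - 1 = (p - 1) + p * (p ^ a - 1) := by
      rw [pow_succ', Nat.mul_sub_one]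
      have : p ≤ p * p ^ a := Nat.le_mul_of_pos_right _ h1
      omega
    have e2 : p ^ (a + 1) * s + (p ^ (a + 1) - 1) = (p - 1) + p * (p ^ a * s + (p ^ a - 1)) := by
      rw [e1]; ring
    refine Choose.choose_modEq_choose_mod_mul_choose_div_nat.trans ?_
    rw [e2, e1, Nat.add_mul_mod_self_left, Nat.add_mul_mod_self_left, Nat.choose_self, one_mul,
      Nat.add_mul_div_left _ _ h0, Nat.add_mul_div_left _ _ h0, Nat.div_eq_of_lt (by omega),
      zero_add, zero_add]
    exact ih

/-- Wielandt's theorem on homogeneous groups. -/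
theorem homog_pred [Finite α] {k : ℕ} (hG : IsPretransitive G (Set.powersetCard α (k + 1)))
    (hkn : k + 1 ≤ Nat.card α)
    (hq : ∀ q : ℕ, IsPrimePow q → q ∣ k + 1 → k + q ≤ Nat.card α) :
    IsPretransitive G (Set.powersetCard α k) := by
  classical
  have := Fintype.ofFinite α
  have ex : ∀ j ≤ Nat.card α, ∀ s : Finset α, s.card ≤ j → ∃ t, s ⊆ t ∧ t.card = j := fun j hj s hs =>
    (Finset.exists_subsuperset_card_eq s.subset_univ hs
      (by rwa [Finset.card_univ, ← Nat.card_eq_fintype_card])).imp fun _ h => ⟨h.1, h.2.2⟩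
  refine homog_iff.2 fun s t hs ht => ?_
  let c : Finset α → ℕ := fun Γ => ((Γ.powersetCard k).filter (· ∈ orbit G s)).card
  have hc1 : ∀ (g : G) Γ, c Γ ≤ c (g • Γ) := fun g Γ =>
    Finset.card_le_card_of_injOn (g • ·) (fun T hT => by
      simp only [Finset.coe_filter, Finset.mem_powersetCard, Set.mem_setOf_eq] at hT ⊢
      exact ⟨⟨Finset.smul_finset_subset_smul_finset hT.1.1, by simpa using hT.1.2⟩,
        mem_orbit_of_mem_orbit g hT.2⟩) (MulAction.injective g).injOn
  obtain ⟨Γ₀, h0, h0'⟩ := ex (k + 1) hkn s (by omega)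
  have hc : ∀ Γ : Finset α, Γ.card = k + 1 → c Γ = c Γ₀ := fun Γ hΓ => by
    obtain ⟨g, rfl⟩ := homog_iff.1 hG Γ₀ Γ h0' hΓ
    exact le_antisymm (by simpa using hc1 g⁻¹ (g • Γ₀)) (hc1 g Γ₀)
  have hdvd : k + 1 ∣ c Γ₀ := (Nat.dvd_iff_prime_pow_dvd_dvd _ _).2 fun p a hp hpa => by
    rcases Nat.eq_zero_or_pos a with rfl | ha
    · simp
    have := Fact.mk hp
    obtain ⟨S, -, hS⟩ := ex _ (hq _ (hp.isPrimePow.pow ha.ne') hpa) ∅ (by simp)
    have key := Finset.card_mul_eq_card_mul (s := S.powersetCard (k + 1))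
      (t := (S.powersetCard k).filter (· ∈ orbit G s)) (fun Γ T => T ⊆ Γ) (m := c Γ₀) (n := p ^ a)
      (fun Γ hΓ => by
        rw [Finset.mem_powersetCard] at hΓ
        rw [← hc Γ hΓ.2]
        congr 1
        ext T
        simp only [Finset.mem_bipartiteAbove, Finset.mem_filter, Finset.mem_powersetCard]
        exact ⟨fun h => ⟨⟨h.2, h.1.1.2⟩, h.1.2⟩, fun h => ⟨⟨⟨h.1.1.trans hΓ.1, h.1.2⟩, h.2⟩, h.1.1⟩⟩)
      (fun T hT => by
        rw [Finset.mem_filter, Finset.mem_powersetCard] at hT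
        rw [show p ^ a = (S \ T).card by rw [Finset.card_sdiff_of_subset hT.1.1]; omega]
        refine (Finset.card_nbij (fun x => insert x T) (fun x hx => ?_) (fun x hx y hy e => ?_)
          (fun Γ hΓ => ?_)).symm
        · simp only [Finset.coe_sdiff, Set.mem_diff, Finset.mem_coe] at hx
          simp only [Finset.coe_bipartiteBelow, Finset.mem_powersetCard, Set.mem_setOf_eq]
          exact ⟨⟨Finset.insert_subset hx.1 hT.1.1, by rw [Finset.card_insert_of_notMem hx.2, hT.1.2]⟩,
            Finset.subset_insert _ _⟩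
        · simp only [Finset.coe_sdiff, Set.mem_diff, Finset.mem_coe] at hx hy
          exact (Finset.insert_inj hx.2).1 e
        · simp only [Finset.coe_bipartiteBelow, Finset.mem_powersetCard, Set.mem_setOf_eq] at hΓ
          obtain ⟨x, hx, rfl⟩ := Finset.exists_eq_insert_iff.2 ⟨hΓ.2, by omega⟩
          exact ⟨x, by simpa using ⟨hΓ.1.1 (by simp), hx⟩, rfl⟩)
    obtain ⟨m, hm⟩ := hpa
    have h1 : 0 < p ^ a := pow_pos hp.pos a
    rw [Finset.card_powersetCard, hS, show k + p ^ a = (k + 1) + (p ^ a - 1) by omega,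
      Nat.choose_symm_add, hm] at key
    refine (Nat.Coprime.pow_left a ?_).dvd_of_dvd_mul_left (Dvd.intro_left _ key.symm)
    rw [Nat.Coprime, Nat.gcd_comm, (choose_modEq_one a m).gcd_eq, Nat.gcd_one_left]
  have hpos : 0 < c Γ₀ := Finset.card_pos.2 ⟨s, by simp [h0, hs, mem_orbit_self]⟩
  obtain ⟨Γ, h1, h2⟩ := ex (k + 1) hkn t (by omega)
  have := Finset.filter_card_eq (s := Γ.powersetCard k) (p := (· ∈ orbit G s)) (le_antisymm
    (Finset.card_filter_le _ _) (by
      rw [Finset.card_powersetCard, h2, Nat.choose_succ_self_right]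
      exact (Nat.le_of_dvd hpos hdvd).trans (hc Γ h2).ge)) t (by simp [h1, ht])
  exact this

theorem AltOn.transfer {k : ℕ} (h : IsPretransitive G (Set.powersetCard α k)) {x y : Fin k → α}
    (hx : Function.Injective x) (hy : Function.Injective y) (hA : AltOn G x) : AltOn G y := by
  obtain ⟨g, π, hg⟩ := homog_tuple h hx hy
  intro σ hσ
  obtain ⟨m, hm⟩ := hA (π⁻¹ * σ * π) (by simp [hσ])
  refine ⟨g * m * g⁻¹, fun i => ?_⟩
  obtain ⟨i, rfl⟩ := π.surjective i
  rw [← hg, mul_smul, mul_smul, inv_smul_smul, hm, hg]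
  simp

theorem multi_of_odd {k : ℕ} (h : IsPretransitive G (Set.powersetCard α k)) {y : Fin k → α}
    (hy : Function.Injective y) (hA : AltOn G y) {τ : Perm (Fin k)} (hτ : Perm.sign τ = -1) {t : G}
    (ht : ∀ i, t • y i = y (τ i)) : IsMultiplyPretransitive G α k := by
  have all : ∀ σ : Perm (Fin k), ∃ g : G, ∀ i, g • y i = y (σ i) := fun σ => by
    rcases Int.units_eq_one_or (Perm.sign σ) with hσ | hσ
    · exact hA σ hσ
    · obtain ⟨g, hg⟩ := hA (σ * τ⁻¹) (by simp [hσ, hτ])
      exact ⟨g * t, fun i => by rw [mul_smul, ht, hg]; simp⟩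
  refine multi_iff_fun.2 fun a b ha hb => ?_
  obtain ⟨g, π, hg⟩ := homog_tuple h ha hy
  obtain ⟨g', π', hg'⟩ := homog_tuple h hb hy
  obtain ⟨m, hm⟩ := all (π' * π⁻¹)
  exact ⟨g'⁻¹ * m * g, fun i => by rw [mul_smul, mul_smul, hg, hm, inv_smul_eq_iff, hg']; simp⟩

omit [DecidableEq α] in
theorem exists_enum {m : ℕ} (Δ : Finset α) (hΔ : Δ.card = m) :
    ∃ x : Fin m → α, Function.Injective x ∧ (∀ i, x i ∈ Δ) ∧ ∀ a ∈ Δ, ∃ i, x i = a :=
  ⟨fun i => ((Δ.equivFinOfCardEq hΔ).symm i : α),
    Subtype.val_injective.comp (Δ.equivFinOfCardEq hΔ).symm.injective,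
    fun i => ((Δ.equivFinOfCardEq hΔ).symm i).2, fun a ha => ⟨Δ.equivFinOfCardEq hΔ ⟨a, ha⟩, by simp⟩⟩

/-- A `k`-transitive `(k+1)`-homogeneous group of degree at least `k + 3`, `k ≥ 4`, is
`(k+1)`-transitive. -/
theorem multi_succ_of_homog [Fintype α] {G : Subgroup (Perm α)} {k : ℕ} (hk4 : 4 ≤ k)
    (hn : k + 3 ≤ Fintype.card α) (hk : IsMultiplyPretransitive G α k)
    (h : IsPretransitive G (Set.powersetCard α (k + 1))) : IsMultiplyPretransitive G α (k + 1) := by
  by_contra hcon
  have hα := Nat.card_eq_fintype_card (α := α)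
  obtain ⟨x₀, h0, hA0⟩ := exists_altOn hk4 _ G rfl (by omega) hk
  have hA : ∀ y : Fin (k + 1) → α, Function.Injective y → AltOn G y := fun y hy =>
    hA0.transfer h h0 hy
  obtain ⟨Λ, -, hΛ⟩ := Finset.exists_subset_card_eq (s := (Finset.univ : Finset α)) (n := k - 4)
    (by rw [Finset.card_univ]; omega)
  have hc := card_ofFixing (G := G) Λ
  refine false_of_odd3 (ofFixingSubgroup.isMultiplyPretransitive G (m := 4) (n := k) (Λ : Set α)
    (by simp; omega)) (by omega) (fun p q r h1 h2 h3 g g1 g2 g3 => ?_)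
    fun p q r s x hd x1 x2 x3 x4 => ?_
  · obtain ⟨S, hS, hS'⟩ := exists_finset_fix Λ {p, q, r}
    rw [Finset.card_eq_three.2 ⟨p, q, r, h1, h2, h3, rfl⟩] at hS
    rw [← orderOf_coe]
    refine odd_of_no_invol (H := fixingSubgroup G (S : Set α)) (fun t ht ht2 => ?_)
      ((mem_fixingSubgroup_iff _).2 (hS' g (by simp [*])))
    replace ht := (mem_fixingSubgroup_iff _).1 ht
    by_contra ht1
    obtain ⟨a, ha⟩ : ∃ a : α, t • a ≠ a := by
      by_contra h'
      push Not at h'
      exact ht1 (Subtype.ext (Equiv.ext h'))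
    have haS : a ∉ S := fun e => ha (ht a e)
    have hbS : t • a ∉ S := fun e => ha (smul_left_cancel t (ht _ e))
    obtain ⟨y, hy, y1, y2⟩ := exists_enum (m := k + 1) (insert a (insert (t • a) S)) (by
      rw [Finset.card_insert_of_notMem (by simp [haS, ha.symm]), Finset.card_insert_of_notMem hbS]
      omega)
    obtain ⟨i, rfl⟩ := y2 a (by simp)
    obtain ⟨j, hj⟩ := y2 (t • y i) (by simp)
    refine hcon (multi_of_odd h hy (hA y hy) (τ := swap i j) (Perm.sign_swap (by
      rintro rfl; exact ha hj.symm)) (t := t) fun l => ?_)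
    rw [swap_apply_def]
    split_ifs with e1 e2
    · rw [e1, hj]
    · rw [e2, hj, ← mul_smul, ht2, one_smul]
    · have := y1 l
      rw [← hj] at this
      exact ht _ (by simpa [hy.eq_iff, e1, e2] using this)
  · obtain ⟨y, hy, y1, y2⟩ := exists_enum (m := k + 1)
      (Λ ∪ ({x, p, q, r, s} : Finset _).map (Function.Embedding.subtype _)) (by
        rw [Finset.card_union_of_disjoint, Finset.card_map, Finset.card_insert_of_notMem (by simp [*]),
          hd.card]
        · omega
        · rw [Finset.disjoint_right]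
          intro a ha
          obtain ⟨b, -, rfl⟩ := Finset.mem_map.1 ha
          exact b.2)
    have key : ∀ a ∈ ({x, p, q, r, s} : Finset _), ∃ i, y i = (a : α) := fun a ha =>
      y2 _ (Finset.mem_union_right _ (Finset.mem_map_of_mem _ ha))
    obtain ⟨i0, e0⟩ := key x (by simp)
    obtain ⟨i1, e1⟩ := key p (by simp)
    obtain ⟨i2, e2⟩ := key q (by simp)
    obtain ⟨i3, e3⟩ := key r (by simp)
    obtain ⟨i4, e4⟩ := key s (by simp)
    have ne : ∀ {i j} {a b : ofFixingSubgroup G (Λ : Set α)}, y i = a → y j = b → a ≠ b → i ≠ j :=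
      fun h1 h2 h3 e => h3 (Subtype.ext (by rw [← h1, ← h2, e]))
    obtain ⟨d1, d2, d3, d4, d5, d6⟩ := hd
    have n1 := ne e1 e2 d1
    have n2 := ne e1 e3 d2
    have n3 := ne e1 e4 d3
    have n4 := ne e2 e3 d4
    have n5 := ne e2 e4 d5
    have n6 := ne e3 e4 d6
    obtain ⟨g, hg⟩ := hA y hy (swap i1 i2 * swap i3 i4) (by simp [n1, n6])
    refine ⟨⟨g, (mem_fixingSubgroup_iff _).2 fun a ha => ?_⟩, Subtype.ext ?_, Subtype.ext ?_,
      Subtype.ext ?_, Subtype.ext ?_, Subtype.ext ?_⟩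
    · obtain ⟨i, rfl⟩ := y2 a (Finset.mem_union_left _ ha)
      have ne' : ∀ {j} {b : ofFixingSubgroup G (Λ : Set α)}, y j = b → i ≠ j := fun {j b} e e' =>
        b.2 (by rw [← e, ← e']; exact ha)
      rw [hg, Perm.mul_apply, swap_apply_of_ne_of_ne (ne' e3) (ne' e4),
        swap_apply_of_ne_of_ne (ne' e1) (ne' e2)]
    · change g • (p : α) = q
      rw [← e1, ← e2, hg, Perm.mul_apply, swap_apply_of_ne_of_ne n2 n3, swap_apply_left]
    · change g • (q : α) = p
      rw [← e1, ← e2, hg, Perm.mul_apply, swap_apply_of_ne_of_ne n4 n5, swap_apply_right]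
    · change g • (r : α) = s
      rw [← e3, ← e4, hg, Perm.mul_apply, swap_apply_left, swap_apply_of_ne_of_ne n3.symm n5.symm]
    · change g • (s : α) = r
      rw [← e3, ← e4, hg, Perm.mul_apply, swap_apply_right, swap_apply_of_ne_of_ne n2.symm n4.symm]
    · change g • (x : α) = x
      rw [← e0, hg, Perm.mul_apply, swap_apply_of_ne_of_ne (ne e0 e3 x3) (ne e0 e4 x4),
        swap_apply_of_ne_of_ne (ne e0 e1 x1) (ne e0 e2 x2)]

end H25
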