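import Cfsg.Agent.H25.MultNorm
import Cfsg.Agent.H6.Inv

/-! Involutions in 4-transitive groups whose 4-point stabilisers have odd order. -/

set_option autoImplicit false

namespace H25

open MulAction Subgroup

variable {G α : Type*} [Group G] [MulAction G α]

theorem exists_invol_pow {g : G} (h : Odd (orderOf (g * g))) :
    ∃ u ∈ zpowers g, u * u = 1 ∧ ∀ x : α, g • g • x = x → u • x = g • x := by
  refine ⟨g ^ orderOf (g * g), pow_mem (mem_zpowers g) _, ?_, fun x hx => ?_⟩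
  · rw [← Commute.mul_pow (Commute.refl g), pow_orderOf_eq_one]
  · obtain ⟨m, hm⟩ := h
    have : (g * g) ^ m ∈ stabilizer G x := pow_mem (by rwa [mem_stabilizer_iff, mul_smul]) m
    rw [hm, pow_succ', pow_mul, sq, mul_smul, this]

theorem exists_conj_invol {u v : G} (hu : u * u = 1) (hv : v * v = 1) (h : Odd (orderOf (u * v))) :
    ∃ h ∈ zpowers (u * v), h * v * h⁻¹ = u := by
  obtain ⟨m, hm⟩ := h
  refine ⟨(u * v) ^ (m + 1), pow_mem (mem_zpowers _) _, ?_⟩
  have e1 := H6.conj_pow_of_inverts (H6.inv_conj_mul' hu hv) (m + 1)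
  have e2 : (u * v) ^ (m + 1) * (u * v) ^ (m + 1) = u * v := by
    rw [← pow_add, show m + 1 + (m + 1) = orderOf (u * v) + 1 by omega, pow_succ,
      pow_orderOf_eq_one, one_mul]
  have e3 : v⁻¹ = v := inv_eq_of_mul_eq_one_right hv
  rw [← e1, e3, ← mul_assoc, ← mul_assoc, mul_assoc _ v v, hv, mul_one, e2, mul_assoc, hv, mul_one]

theorem conj_single {s : Set α} (hodd : ∀ g : G, (∀ x ∈ s, g • x = x) → Odd (orderOf g))
    {a a' : G} (ha : a * a = 1) (ha' : a' * a' = 1) (h : ∀ x ∈ s, a • x = a' • x) :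
    ∃ h ∈ zpowers (a * a'), (∀ x ∈ s, h • x = x) ∧ h * a' * h⁻¹ = a := by
  have hf : ∀ x ∈ s, (a * a') • x = x := fun x hx => by
    rw [mul_smul, ← h x hx, ← mul_smul, ha, one_smul]
  obtain ⟨h, hh, e⟩ := exists_conj_invol ha ha' (hodd _ hf)
  exact ⟨h, hh, fun x hx => zpowers_le.2 (show a * a' ∈ stabilizer G x from hf x hx) hh, e⟩

theorem conj_pair {s : Set α} (hodd : ∀ g : G, (∀ x ∈ s, g • x = x) → Odd (orderOf g))
    {a b a' b' : G} (ha : a * a = 1) (hb : b * b = 1) (ha' : a' * a' = 1) (hb' : b' * b' = 1)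
    (hc : Commute a b) (hc' : Commute a' b') (h1 : ∀ x ∈ s, a • x = a' • x)
    (h2 : ∀ x ∈ s, b • x = b' • x) (h3 : ∀ x ∈ s, b • x ∈ s) :
    ∃ h : G, (∀ x ∈ s, h • x = x) ∧ h * a' * h⁻¹ = a ∧ h * b' * h⁻¹ = b := by
  obtain ⟨h, -, hs, e⟩ := conj_single hodd ha ha' h1
  obtain ⟨k, hk, ks, e'⟩ := conj_single hodd (a' := h * b' * h⁻¹) hb
    (by rw [conj_mul, hb', mul_one, mul_inv_cancel]) (fun x hx => by
      rw [mul_smul, mul_smul, inv_smul_eq_iff.2 (hs x hx).symm, ← h2 x hx, hs _ (h3 x hx)])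
  have hc2 : Commute a (h * b' * h⁻¹) := by rw [← e]; exact hc'.conj h
  have hc3 : Commute k a := zpowers_le.2 (show b * (h * b' * h⁻¹) ∈ centralizer {a} from
    mem_centralizer_singleton_iff.2 (hc.mul_right hc2).symm) hk |> mem_centralizer_singleton_iff.1
  refine ⟨k * h, fun x hx => by rw [mul_smul, hs x hx, ks x hx], ?_, ?_⟩
  · rw [show k * h * a' * (k * h)⁻¹ = k * (h * a' * h⁻¹) * k⁻¹ by group, e, hc3.eq,
      mul_inv_cancel_right]
  · rw [← e']; group

theorem exists_commuting {s : Set α} (hodd : ∀ g : G, (∀ x ∈ s, g • x = x) → Odd (orderOf g))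
    {u : G} (hu : u * u = 1) (g : G) (h : ∀ x ∈ s, u • x = g • u • g⁻¹ • x) :
    ∃ h : G, (∀ x ∈ s, h • x = x) ∧ Commute (h * g) u := by
  obtain ⟨h, -, hs, e⟩ := conj_single hodd (a' := g * u * g⁻¹) hu
    (by rw [conj_mul, hu, mul_one, mul_inv_cancel]) (fun x hx => by rw [mul_smul, mul_smul, h x hx])
  exact ⟨h, hs, H6.conj_eq_iff_commute.1 (Eq.trans (by group) e)⟩

theorem card_modEq_fix [Finite α] {u : G} (hu : u * u = 1) :
    Nat.card α ≡ {x : α | u • x = x}.ncard [MOD 2] := by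
  have : Fact (Nat.Prime 2) := ⟨Nat.prime_two⟩
  have e := ncard_modEq_fixed (p := 2) (zpowers u) (H6.isPGroup_zpowers (k := 1) (by
    rw [pow_one, sq, hu])) (Set.univ : Set α) (Set.toFinite _) (fun _ _ _ _ => trivial)
  rw [Set.ncard_univ] at e
  convert e using 2
  ext w
  simp only [Set.mem_univ, true_and, Set.mem_setOf_eq]
  exact ⟨fun h => zpowers_le.2 (show u ∈ stabilizer G w from h), fun h => h u (mem_zpowers u)⟩

theorem smul_fix_of_commute {u v : G} (h : Commute v u) {x : α} (hx : u • x = x) :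
    u • v • x = v • x := by rw [← mul_smul, ← h.eq, mul_smul, hx]

theorem eq_one_of_odd {u : G} (hu : u * u = 1) (h : Odd (orderOf u)) : u = 1 := by
  by_contra h1
  rw [H6.ord2_of hu h1] at h
  exact absurd h (by decide)

theorem exists_notMem_finset [Finite α] (s : Finset α) (hs : s.card < Nat.card α) : ∃ x, x ∉ s := by
  have := Fintype.ofFinite α
  obtain ⟨c, -, hc⟩ := Finset.exists_mem_notMem_of_card_lt_card (s := s) (t := Finset.univ)
    (by rwa [Finset.card_univ, ← Nat.card_eq_fintype_card])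
  exact ⟨c, hc⟩

/-- four distinct points -/
def D4 (p q r s : α) : Prop := p ≠ q ∧ p ≠ r ∧ p ≠ s ∧ q ≠ r ∧ q ≠ s ∧ r ≠ s

/-- all 4-point stabilisers have odd order -/
def Odd4 (G α : Type*) [Group G] [MulAction G α] : Prop :=
  ∀ p q r s : α, D4 p q r s → ∀ g : G, (∀ x ∈ ({p, q, r, s} : Set α), g • x = x) → Odd (orderOf g)

theorem D4.exists_smul (h4 : IsMultiplyPretransitive G α 4) {p q r s p' q' r' s' : α}
    (h : D4 p q r s) (h' : D4 p' q' r' s') :
    ∃ g : G, g • p = p' ∧ g • q = q' ∧ g • r = r' ∧ g • s = s' :=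
  four_trans_iff.1 h4 _ _ _ _ _ _ _ _ h.1 h.2.1 h.2.2.1 h.2.2.2.1 h.2.2.2.2.1 h.2.2.2.2.2
    h'.1 h'.2.1 h'.2.2.1 h'.2.2.2.1 h'.2.2.2.2.1 h'.2.2.2.2.2

theorem D4.swap12 {p q r s : α} (h : D4 p q r s) : D4 q p r s := by
  unfold D4 at *; tauto
theorem D4.swap34 {p q r s : α} (h : D4 p q r s) : D4 p q s r := by
  unfold D4 at *; tauto
theorem D4.swap23 {p q r s : α} (h : D4 p q r s) : D4 p r q s := by
  unfold D4 at *; tauto
theorem D4.rot {p q r s : α} (h : D4 p q r s) : D4 r s p q := by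
  unfold D4 at *; tauto

theorem Odd4.eq_one (hodd : Odd4 G α) {p q r s : α} (h : D4 p q r s) {u : G} (hu : u * u = 1)
    (h1 : u • p = p) (h2 : u • q = q) (h3 : u • r = r) (h4 : u • s = s) : u = 1 :=
  eq_one_of_odd hu (hodd p q r s h u (by simp [h1, h2, h3, h4]))

/-- An involution inducing a transposition. -/
theorem exists_transp (h4 : IsMultiplyPretransitive G α 4) (hodd : Odd4 G α) {p q r s : α}
    (h : D4 p q r s) : ∃ u : G, u * u = 1 ∧ u • p = q ∧ u • q = p ∧ u • r = r ∧ u • s = s := by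
  obtain ⟨g, g1, g2, g3, g4⟩ := h.exists_smul h4 h.swap12
  obtain ⟨u, -, hu, e⟩ := exists_invol_pow (α := α) (g := g)
    (hodd p q r s h _ (by simp [mul_smul, g1, g2, g3, g4]))
  exact ⟨u, hu, by rw [e _ (by rw [g1, g2]), g1], by rw [e _ (by rw [g2, g1]), g2],
    by rw [e _ (by rw [g3, g3]), g3], by rw [e _ (by rw [g4, g4]), g4]⟩

/-- A commuting involution inducing the complementary transposition. -/
theorem exists_transp_comm (h4 : IsMultiplyPretransitive G α 4) (hodd : Odd4 G α) {p q r s : α}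
    (h : D4 p q r s) {b : G} (hb : b * b = 1) (b1 : b • p = q) (b2 : b • q = p) (b3 : b • r = r)
    (b4 : b • s = s) : ∃ a : G, a * a = 1 ∧ Commute a b ∧ a • p = p ∧ a • q = q ∧ a • r = s ∧
      a • s = r := by
  obtain ⟨g, g1, g2, g3, g4⟩ := h.exists_smul h4 h.swap34
  obtain ⟨k, hk, hc⟩ := exists_commuting (hodd p q r s h) hb g (by
    simp [inv_smul_eq_iff.2 g1.symm, inv_smul_eq_iff.2 g2.symm, inv_smul_eq_iff.2 g3.symm,
      inv_smul_eq_iff.2 g4.symm, *])
  simp only [Set.mem_insert_iff, Set.mem_singleton_iff, forall_eq_or_imp, forall_eq] at hk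
  obtain ⟨k1, k2, k3, k4⟩ := hk
  obtain ⟨u, hu', hu, e⟩ := exists_invol_pow (α := α) (g := k * g)
    (hodd p q r s h _ (by simp [mul_smul, *]))
  refine ⟨u, hu, ?_, by rw [e] <;> simp [mul_smul, *], by rw [e] <;> simp [mul_smul, *],
    by rw [e] <;> simp [mul_smul, *], by rw [e] <;> simp [mul_smul, *]⟩
  obtain ⟨i, rfl⟩ := hu'
  exact hc.zpow_left i

/-- A four-group with a regular orbit is conjugate to any regular four-group. -/
theorem exists_conj_four (h4 : IsMultiplyPretransitive G α 4) (hodd : Odd4 G α) {a b c v : G}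
    (ha : a * a = 1) (hb : b * b = 1) (hab : Commute a b) (hc : c * c = 1) (hv : v * v = 1)
    (hcv : Commute c v) {w p : α} (hw : D4 w (a • w) (b • w) (a • b • w))
    (hp : D4 p (c • p) (v • p) (c • v • p)) : ∃ g : G, g * a * g⁻¹ = c ∧ g * b * g⁻¹ = v := by
  obtain ⟨g, g1, g2, g3, g4⟩ := hw.exists_smul h4 hp
  have e1 : ∀ x : α, a • a • x = x := fun x => by rw [← mul_smul, ha, one_smul]
  have e2 : ∀ x : α, b • b • x = x := fun x => by rw [← mul_smul, hb, one_smul]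
  have e3 : ∀ x : α, c • c • x = x := fun x => by rw [← mul_smul, hc, one_smul]
  have e4 : ∀ x : α, v • v • x = x := fun x => by rw [← mul_smul, hv, one_smul]
  have e5 : ∀ x : α, b • a • x = a • b • x := fun x => by rw [← mul_smul, ← hab.eq, mul_smul]
  have e6 : ∀ x : α, v • c • x = c • v • x := fun x => by rw [← mul_smul, ← hcv.eq, mul_smul]
  obtain ⟨h, -, h1, h2⟩ := conj_pair (hodd _ _ _ _ hp) (a' := g * a * g⁻¹) (b' := g * b * g⁻¹) hc hv
    (by rw [conj_mul, ha, mul_one, mul_inv_cancel]) (by rw [conj_mul, hb, mul_one, mul_inv_cancel])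
    hcv (hab.conj g)
    (by simp [mul_smul, inv_smul_eq_iff.2 g1.symm, inv_smul_eq_iff.2 g2.symm,
      inv_smul_eq_iff.2 g3.symm, inv_smul_eq_iff.2 g4.symm, e1, e3, g1, g2, g3, g4])
    (by simp [mul_smul, inv_smul_eq_iff.2 g1.symm, inv_smul_eq_iff.2 g2.symm,
      inv_smul_eq_iff.2 g3.symm, inv_smul_eq_iff.2 g4.symm, e2, e4, e5, e6, g1, g2, g3, g4])
    (by simp [e4, e6])
  exact ⟨h * g, by rw [← h1]; group, by rw [← h2]; group⟩

theorem d4_orbit {a b : G} (ha : a * a = 1) (hb : b * b = 1) (hab : Commute a b) {w : α}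
    (h1 : a • w ≠ w) (h2 : b • w ≠ w) (h3 : a • b • w ≠ w) : D4 w (a • w) (b • w) (a • b • w) := by
  have e1 : ∀ x : α, a • a • x = x := fun x => by rw [← mul_smul, ha, one_smul]
  refine ⟨h1.symm, h2.symm, h3.symm, fun h => h3 (by rw [← h, e1]), fun h => h2 (smul_left_cancel a h).symm,
    fun h => h1 ?_⟩
  rw [← mul_smul, hab.eq, mul_smul] at h
  exact (smul_left_cancel b h).symm

end H25
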