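import Cfsg.Agent.H25.J4o
import Cfsg.Agent.H2.CovD

/-! Intersections of conjugates of `2^11` in `J4`. -/

set_option maxRecDepth 100000
set_option autoImplicit false

namespace H25.J4u
open Cfsg Cfsg.Spor H7.J4 H29 H29.J4m Subgroup

section
variable {G : Type} [Group G] {M : Model G}

/-- the subproducts -/
def sp : List G → List G
  | [] => [1]
  | a :: l => (sp l).map (· * a) ++ sp l

theorem mem_sp {L L' : List ℕ} {l : List G} (hl : List.Forall₂ M.R L l) (h : EA M (L ++ L')) :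
    EA M L' ∧ ∀ g ∈ M.cl (L ++ L'), ∃ s ∈ sp l, g * s⁻¹ ∈ M.cl L' := by
  induction hl with
  | nil => exact ⟨h, fun g hg => ⟨1, by simp [sp], by simpa using hg⟩⟩
  | cons ha _ ih =>
    obtain ⟨α, h1, h2, h3⟩ := EA.cons h
    obtain rfl := M.unique ha h1
    refine ⟨(ih h.tail).1, fun g hg => ?_⟩
    rcases h3 g hg with e | e <;> obtain ⟨s, hs, e'⟩ := (ih h.tail).2 _ e
    · refine ⟨_, List.mem_append_left _ (List.mem_map_of_mem hs), ?_⟩
      rwa [mul_inv_rev, inv_eq_of_mul_eq_one_right h2, ← mul_assoc]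
    · exact ⟨s, List.mem_append_right _ hs, e'⟩

noncomputable def cj (a c : ℕ) : ℕ := force (kmul a c) fun d => kmul d a

noncomputable def tl (L : List ℕ) : ℕ → ℕ → List ℕ → (List ℕ → ℕ) → ℕ :=
  List.rec (motive := fun _ => ℕ → ℕ → List ℕ → (List ℕ → ℕ) → ℕ)
    (fun c d acc k => force (Nat.add c (Nat.mul 3 d)) fun v => k (v :: acc))
    (fun a _ ih c d acc k => ih c d acc fun acc' => force (cj a c) fun c' => force (cj a d) fun d' => ih c' d' acc' k) L

noncomputable def cc : List ℕ → ℕ → ℕ → List ℕ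
  | [], c, d => [c + 3 * d]
  | a :: L, c, d => cc L (cj a c) (cj a d) ++ cc L c d

theorem tl_eq (L : List ℕ) (c d : ℕ) (acc : List ℕ) (k : List ℕ → ℕ) : tl L c d acc k = k (cc L c d ++ acc) := by
  induction L generalizing c d acc k with
  | nil => rfl
  | cons a L ih =>
    change tl L c d acc (fun acc' => tl L (cj a c) (cj a d) acc' k) = _
    rw [ih, ih, cc, List.append_assoc]

/-- the code of the pair of conjugates -/
def RR (M : Model G) (f f' : G) (v : ℕ) (s : G) : Prop :=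
  ∃ c d, M.R c (s * f * s⁻¹) ∧ M.R d (s * f' * s⁻¹) ∧ v = c + 3 * d

theorem R_cj (s : Std M) {a c : ℕ} {α f : G} (ha : M.R a α) (h2 : α * α = 1) (hc : M.R c f) :
    M.R (cj a c) (α * f * α⁻¹) := by
  rw [inv_eq_of_mul_eq_one_right h2, cj, force_eq, ← s.1]; exact M.R_mul (M.R_mul ha hc) ha

theorem R_cc (s : Std M) {L : List ℕ} {l : List G} (hl : List.Forall₂ M.R L l) (h : EA M L) {c d : ℕ} {f f' : G}
    (hc : M.R c f) (hd : M.R d f') : List.Forall₂ (RR M f f') (cc L c d) (sp l) := by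
  induction hl generalizing c d f f' with
  | nil => exact .cons ⟨c, d, by simpa using hc, by simpa using hd, rfl⟩ .nil
  | cons ha _ ih =>
    obtain ⟨α, h1, h2, -⟩ := EA.cons h
    obtain rfl := M.unique ha h1
    refine List.rel_append ?_ (ih h.tail hc hd)
    rw [List.forall₂_map_right_iff]
    refine (ih h.tail (R_cj s ha h2 hc) (R_cj s ha h2 hd)).imp ?_
    rintro v t ⟨c, d, h1, h2, h3⟩
    exact ⟨c, d, by simpa [mul_assoc] using h1, by simpa [mul_assoc] using h2, h3⟩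

def cnt (X Y : List ℕ) : ℕ := (X.map fun x => Y.countP (Nat.beq x)).sum

theorem le_cnt [Finite G] {P : ℕ → G → Prop} {Q : G → G → Prop}
    (hQ : ∀ c s d t, P c s → P d t → Q s t → c = d) {X Y : List ℕ} {xs ys : List G}
    (hx : List.Forall₂ P X xs) (hy : List.Forall₂ P Y ys) :
    {g | ∃ s ∈ xs, ∃ t ∈ ys, Q s t ∧ g = t⁻¹ * s}.ncard ≤ cnt X Y := by
  have k : ∀ c s, P c s → {g | ∃ t ∈ ys, Q s t ∧ g = t⁻¹ * s}.ncard ≤ Y.countP (Nat.beq c) := fun c s hc => by
    clear hx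
    induction hy with
    | nil => simp
    | @cons d t Y ys h _ ih =>
      by_cases q : Q s t
      · rw [List.countP_cons_of_pos (by simp [hQ _ _ _ _ hc h q])]
        refine (Set.ncard_le_ncard (t := insert (t⁻¹ * s) _) ?_).trans
          ((Set.ncard_insert_le _ _).trans (Nat.succ_le_succ ih))
        rintro g ⟨u, hu, a, b⟩
        rcases List.mem_cons.1 hu with rfl | hu
        exacts [.inl b, .inr ⟨u, hu, a, b⟩]
      · refine (Set.ncard_le_ncard ?_).trans (ih.trans (by rw [List.countP_cons]; omega))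
        rintro g ⟨u, hu, a, b⟩
        rcases List.mem_cons.1 hu with rfl | hu
        exacts [absurd a q, ⟨u, hu, a, b⟩]
  induction hx with
  | nil => simp
  | @cons c s X xs h _ ih =>
    refine (Set.ncard_le_ncard (t := _ ∪ _) ?_).trans
      ((Set.ncard_union_le _ _).trans (Nat.add_le_add (k c s h) ih))
    rintro g ⟨u, hu, a⟩
    rcases List.mem_cons.1 hu with rfl | hu
    exacts [.inl a, .inr ⟨u, hu, a⟩]

noncomputable def num (L L' : List ℕ) (c d : ℕ) : ℕ := tl L c d [] fun X => tl L' c d [] fun Y => cnt X Y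

theorem exl {K : Subgroup G} {L : List ℕ} (h : ∀ c ∈ L, M.In K c) : ∃ l, List.Forall₂ M.R L l := by
  induction L with
  | nil => exact ⟨[], .nil⟩
  | cons a L ih =>
    obtain ⟨⟨g, -, hg⟩, h'⟩ := List.forall_mem_cons.1 h
    obtain ⟨l, hl⟩ := ih h'
    exact ⟨g :: l, .cons hg hl⟩

theorem EA.left {L L' : List ℕ} (h : EA M (L ++ L')) : EA M L := fun c hc =>
  let ⟨α, h1, h2, h3⟩ := h c (List.mem_append_left _ hc)
  ⟨α, h1, h2, fun d hd => h3 d (List.mem_append_left _ hd)⟩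

theorem le_num [Finite G] (s : Std M) {L L' : List ℕ} (h : EA M (L ++ L')) {c d : ℕ} {f f' : G}
    (hc : M.R c f) (hd : M.R d f') :
    {g | g ∈ M.cl (L ++ L') ∧ g * f * g⁻¹ = f ∧ g * f' * g⁻¹ = f'}.ncard ≤ num L L' c d := by
  have hv : ∀ c ∈ L ++ L', M.In ⊤ c := fun c hc => let ⟨α, h1, _⟩ := h c hc; ⟨α, trivial, h1⟩
  obtain ⟨l, hl⟩ := exl fun c hc => hv c (List.mem_append_left _ hc)
  obtain ⟨l', hl'⟩ := exl fun c hc => hv c (List.mem_append_right _ hc)
  obtain ⟨h1, h2⟩ := mem_sp hl h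
  obtain ⟨-, h3⟩ := mem_sp (L' := []) hl' (by rwa [List.append_nil])
  have u : ∀ {c d : ℕ} {g : G}, M.R c g → M.R d g → c = d := fun a b =>
    Nat.eq_of_beq_eq_true (by rw [← s.2.2]; exact (M.eqb_iff a b).2 rfl)
  rw [num, tl_eq, tl_eq, List.append_nil, List.append_nil]
  refine (Set.ncard_le_ncard ?_).trans (le_cnt (Q := fun s t => s * f * s⁻¹ = t * f * t⁻¹ ∧ s * f' * s⁻¹ = t * f' * t⁻¹)
    ?_ (R_cc s hl (EA.left h) hc hd) (R_cc s hl' h1 hc hd))
  · rintro g ⟨hg, a, b⟩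
    obtain ⟨x, hx, e⟩ := h2 g hg
    obtain ⟨y, hy, e'⟩ := h3 _ (by rw [List.append_nil]; exact inv_mem e)
    rw [cl_nil, mem_bot] at e'
    obtain rfl : x = y * g := by rw [← mul_inv_eq_one.1 e']; group
    exact ⟨_, hx, y, hy, ⟨(by group : _ = y * (g * f * g⁻¹) * y⁻¹).trans (by rw [a]),
      (by group : _ = y * (g * f' * g⁻¹) * y⁻¹).trans (by rw [b])⟩, by group⟩
  · rintro _ x _ y ⟨c, d, a1, a2, rfl⟩ ⟨c', d', b1, b2, rfl⟩ ⟨e1, e2⟩
    rw [u a1 (e1 ▸ b1), u a2 (e2 ▸ b2)]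

open H28 in
theorem R_ev (s : Std M) {L : List ℕ} {l : List G} (h : List.Forall₂ M.R L l) (w : List ℕ) :
    M.R (H7.F42.evc kmul kone L w) (ev l w) := by
  rw [← s.1, ← s.2.1]
  induction w with
  | nil => exact M.R_one
  | cons b w ih => rw [ev_cons]; exact M.R_mul (R_getD h b) ih

open H28 in
theorem ev_iv4 {a b t : G} (h : a * a = 1) (h' : t * t = 1) (w : List ℕ) :
    ev [a, b, b⁻¹, t] (w.map H7.J4.iv).reverse = (ev [a, b, b⁻¹, t] w)⁻¹ := by
  induction w with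
  | nil => simp [ev_nil]
  | cons g w ih =>
    rw [List.map_cons, List.reverse_cons, ev_append, ih, ev_cons (w := w), mul_inv_rev, ev_single]
    congr 1
    rcases g with _ | _ | _ | _ | g
    exacts [eq_inv_of_mul_eq_one_right h, rfl, (inv_inv b).symm, eq_inv_of_mul_eq_one_right h', by simp [H7.J4.iv]]

end

noncomputable def nw (w : List ℕ) : ℕ :=
  force (H7.F42.evc kmul kone L0 w) fun W => force (H7.F42.evc kmul kone L0 (w.map H7.J4.iv).reverse) fun W' =>
    force (kmul (kmul W ce) W') fun c =>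
      force (kmul (kmul W (lgetD 0 eL 1)) W') fun d => num (eL.take 5) (eL.drop 5) c d

def nL : List ℕ := [0, 7, 0, 0, 0, 0, 0, 1, 7, 0, 0, 1, 0, 0, 0, 0, 0, 0, 0, 0]
theorem k1 : ∀ i ∈ [1, 2, 3, 4, 5, 6, 7], nw (H2.Cov.WL.getD i []) = nL.getD i 0 + 1 := by decide +kernel
theorem k2 : ∀ i ∈ [8, 9, 10, 11], nw (H2.Cov.WL.getD i []) = nL.getD i 0 + 1 := by decide +kernel
theorem k3 : ∀ i ∈ [12, 13, 14, 15], nw (H2.Cov.WL.getD i []) = nL.getD i 0 + 1 := by decide +kernel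
theorem k4 : ∀ i ∈ [16, 17, 18, 19], nw (H2.Cov.WL.getD i []) = nL.getD i 0 + 1 := by decide +kernel

end H25.J4u
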