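import Cfsg.Agent.H25.Hall5
import Cfsg.Agent.Lead.St7
import Cfsg.Agent.H25.P12

/-! An explicit sharply five-fold transitive group on twelve points. -/

set_option autoImplicit false

namespace H25

open MulAction Subgroup Equiv

theorem base_key {G α : Type*} [Group G] [MulAction G α] {k : ℕ} (b : Fin k → α) (m₀ : ℕ)
    (h : ∀ (i : Fin k) y, m₀ ≤ i → (∀ j < i, y ≠ b j) →
      ∃ g : G, (∀ j < i, g • b j = b j) ∧ g • b i = y)
    (x : Fin k ↪ α) (hx : ∀ j : Fin k, j.1 < m₀ → x j = b j) : ∃ g : G, ∀ j, g • x j = b j := by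
  suffices key : ∀ m, m ≤ k → ∃ g : G, ∀ j : Fin k, j.1 < max m m₀ → g • x j = b j from
    (key k le_rfl).imp fun g hg j => hg j (by omega)
  intro m
  induction m with
  | zero => exact fun _ => ⟨1, fun j h => by rw [one_smul, hx j (by omega)]⟩
  | succ m ih =>
    intro hm
    obtain ⟨g, hg⟩ := ih (by omega)
    by_cases h0 : m < m₀
    · exact ⟨g, fun j hj => hg j (by omega)⟩
    obtain ⟨c, h1, h2⟩ := h ⟨m, hm⟩ (g • x ⟨m, hm⟩) (not_lt.1 h0) fun j hj e =>
      hj.ne' (x.injective (smul_left_cancel g (e.trans (hg j (lt_max_of_lt_left hj)).symm)))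
    refine ⟨c⁻¹ * g, fun j hj => ?_⟩
    rw [mul_smul, inv_smul_eq_iff]
    rcases (by omega : j.1 < m ∨ j.1 = m) with e | e
    · rw [hg j (by omega), h1 j e]
    · obtain rfl : j = ⟨m, hm⟩ := Fin.ext e
      exact h2.symm

def reachL {α : Type*} [DecidableEq α] (l : List (Perm α)) : ℕ → List α → List α
  | 0, S => S
  | n + 1, S => reachL l n (S ++ l.flatMap fun g : Perm α => S.map g).dedup

theorem reachL_sound {α : Type*} [DecidableEq α] {l : List (Perm α)} {H : Subgroup (Perm α)}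
    (hl : ∀ g ∈ l, g ∈ H) {b : α} (n : ℕ) : ∀ S : List α, (∀ y ∈ S, ∃ g ∈ H, g b = y) →
      ∀ y ∈ reachL l n S, ∃ g ∈ H, g b = y := by
  induction n with
  | zero => exact fun _ h => h
  | succ n ih =>
    refine fun S h => ih _ fun y hy => ?_
    simp only [List.mem_dedup, List.mem_append, List.mem_flatMap, List.mem_map] at hy
    obtain hy | ⟨c, hc, z, hz, rfl⟩ := hy
    · exact h y hy
    · obtain ⟨g, hg, rfl⟩ := h z hz
      exact ⟨c * g, H.mul_mem (hl c hc) hg, rfl⟩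

theorem key_of_lists {α : Type*} [DecidableEq α] {k : ℕ} (b : Fin k → α) (m₀ : ℕ)
    (l : Fin k → List (Perm α)) (n : ℕ) {G : Subgroup (Perm α)}
    (h1 : ∀ i : Fin k, m₀ ≤ i → ∀ g ∈ l i, g ∈ G) (h2 : ∀ i, ∀ g ∈ l i, ∀ j < i, g (b j) = b j)
    (h3 : ∀ i y, (∀ j < i, y ≠ b j) → y ∈ reachL (l i) n [b i])
    (x : Fin k ↪ α) (hx : ∀ j : Fin k, j.1 < m₀ → x j = b j) : ∃ g : G, ∀ j, g • x j = b j :=
  base_key b m₀ (fun i y hi hy => by
    obtain ⟨g, hg, e⟩ := reachL_sound (H := G ⊓ ⨅ j, ⨅ _ : j < i, stabilizer (Perm α) (b j))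
      (fun g hg => mem_inf.2 ⟨h1 i hi g hg, mem_iInf.2 fun j => mem_iInf.2 (h2 i g hg j)⟩) n [b i]
      (fun y hy => ⟨1, one_mem _, (List.mem_singleton.1 hy).symm⟩) y (h3 i y hy)
    exact ⟨⟨g, hg.1⟩, fun j hj => mem_iInf.1 (mem_iInf.1 (mem_inf.1 hg).2 j) hj, e⟩) x hx

theorem multi_of_key {G α : Type*} [Group G] [MulAction G α] {k : ℕ} {b : Fin k → α}
    (h : ∀ x : Fin k ↪ α, ∃ g : G, ∀ j, g • x j = b j) : IsMultiplyPretransitive G α k := by
  refine ⟨fun x y => ?_⟩
  obtain ⟨g, hg⟩ := h x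
  obtain ⟨c, hc⟩ := h y
  refine ⟨c⁻¹ * g, Function.Embedding.ext fun j => ?_⟩
  rw [Function.Embedding.smul_apply, mul_smul, inv_smul_eq_iff, hg j, hc j]

def PresK {n : ℕ} (K : List ℕ) (σ : Perm (Fin n)) : Prop :=
  ∀ b ∈ K, ∃ c ∈ K, ∀ x : Fin n, b.testBit x = true → c.testBit (σ x) = true

def presB (K : List ℕ) (t : ℕ) : Bool := K.all fun b => K.any fun c =>
  (List.range 12).all fun x => !b.testBit x || c.testBit (tbn t x)

theorem presK_of {K : List ℕ} {σ : Perm (Fin 12)} (h : frc (encP σ) (presB K) = true) :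
    PresK K σ := fun b hb => by
  simp only [frc_eq, presB, List.all_eq_true, List.any_eq_true, List.mem_range] at h
  obtain ⟨c, hc, h⟩ := h b hb
  exact ⟨c, hc, fun x hx => by simpa [hx, tbn_encP] using h x x.2⟩

theorem presK_closure {n : ℕ} {K : List ℕ} {s : Set (Perm (Fin n))} (h : ∀ g ∈ s, PresK K g)
    {σ : Perm (Fin n)} (hσ : σ ∈ closure s) : PresK K σ := by
  rw [← mem_toSubmonoid, closure_toSubmonoid_of_finite] at hσ
  induction hσ using Submonoid.closure_induction with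
  | mem x hx => exact h x hx
  | one => exact fun b hb => ⟨b, hb, fun _ h => h⟩
  | mul x y _ _ hx hy =>
    intro b hb
    obtain ⟨c, hc, h1⟩ := hy b hb
    obtain ⟨d, hd, h2⟩ := hx c hc
    exact ⟨d, hd, fun z hz => h2 _ (h1 z hz)⟩

theorem PresK.rigid {n k m : ℕ} {K : List ℕ} (hk : k + m = n)
    (hr : Lead.St.rigChk n K m (List.range k) = true) {σ : Perm (Fin n)} (h : PresK K σ)
    (hfix : ∀ a : Fin n, (a : ℕ) < k → σ a = a) : σ = 1 := by
  let f : ℕ → ℕ := fun x => if h : x < n then σ ⟨x, h⟩ else 0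
  have e0 : (List.range k).map f = List.range k := by
    conv_rhs => rw [← List.map_id (List.range k)]
    refine List.map_congr_left fun x hx => ?_
    rw [List.mem_range] at hx
    simp only [f, show x < n by omega, dif_pos, id]
    rw [hfix _ hx]
  have := Lead.St.rig_sound (n := n) (K := K) (f := f) (fun x hx => by simp [f, hx])
    (fun x hx y hy e => by
      simp only [f, hx, hy, dif_pos] at e
      simpa using Fin.ext e) (fun b hb => by
      obtain ⟨c, hc, e⟩ := h b hb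
      exact ⟨c, hc, fun x hx hbx => by simpa [f, hx] using e ⟨x, hx⟩ hbx⟩) m k hk (e0.symm ▸ hr)
  ext a
  have := congrArg (·[a.1]?) this
  simpa [f] using this

theorem shp_of_one {G α : Type*} [Group G] [MulAction G α] [Finite α] {k : ℕ}
    (h : IsMultiplyPretransitive G α k) (x : Fin k ↪ α) (hx : stabilizer G x = ⊥) : Shp G α k := by
  have := Fintype.ofFinite α
  refine ⟨h, fun y => ?_, by simpa using Fintype.card_le_of_embedding x⟩
  obtain ⟨g, rfl⟩ := exists_smul_eq G x y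
  rw [stabilizer_smul_eq_stabilizer_map_conj, hx, Subgroup.map_bot]

def hexK : List ℕ := [63, 219, 237, 246, 350, 363, 373, 413, 430, 435, 455, 504, 591, 627, 636, 670, 679, 697, 725, 746, 791, 813, 826, 857, 870, 907, 948, 972, 978, 993, 1117, 1127, 1146, 1175, 1195, 1212, 1230, 1265, 1295, 1334, 1337, 1363, 1388, 1434, 1445, 1481, 1492, 1506, 1563, 1582, 1589, 1622, 1641, 1677, 1714, 1731, 1752, 1764, 1820, 1827, 1861, 1866, 1904, 1926, 1937, 1960, 2135, 2158, 2169, 2191, 2229, 2234, 2268, 2275, 2331, 2343, 2364, 2381, 2418, 2454, 2473, 2506, 2513, 2532, 2589, 2603, 2614, 2650, 2661, 2707, 2732, 2758, 2761, 2800, 2830, 2865, 2883, 2900, 2920, 2949, 2968, 2978, 3102, 3117, 3123, 3147, 3188, 3225, 3238, 3269, 3282, 3304, 3349, 3370, 3398, 3416, 3425, 3459, 3468, 3504, 3591, 3640, 3660, 3665, 3682, 3722, 3732, 3745, 3849, 3858, 3876, 4032]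

theorem hexK_rig : Lead.St.rigChk 12 hexK 7 (List.range 5) = true := by decide +kernel

def xs (a b c d e f g h i j k l : Fin 12) : Perm (Fin 12) :=
  swap a b * swap c d * swap e f * swap g h * swap i j * swap k l
def xt (a b c d e f g h : Fin 12) : Perm (Fin 12) := swap a b * swap c d * swap e f * swap g h

def xL : List (Perm (Fin 12)) :=
  [xs 4 9 4 5 4 6 7 10 7 11 7 8, xs 4 11 4 5 4 7 6 8 6 9 6 10, xs 4 8 4 5 4 10 6 7 6 9 6 11,
    xs 3 5 3 4 6 8 6 7 9 11 9 10, xs 3 9 3 6 4 10 4 7 5 11 5 8,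
    xt 0 3 6 7 8 10 9 11, xt 0 1 6 9 7 10 8 11, xt 1 2 6 11 7 9 8 10]

theorem xL_presB : (xL.all fun g => frc (encP g) (presB hexK)) = true := by decide +kernel

theorem xL_pres : ∀ g ∈ xL, PresK hexK g := fun g hg =>
  presK_of (List.all_eq_true.1 xL_presB g hg)

def xM12 : Subgroup (Perm (Fin 12)) := closure {g | g ∈ xL}

def xB : Fin 5 → Fin 12 := ![2, 1, 0, 3, 4]
def xl (i : Fin 5) : List (Perm (Fin 12)) := xL.take (![8, 7, 6, 5, 3] i)

theorem xl_fixB : ∀ i, ((xl i).all fun g => decide (∀ j < i, g (xB j) = xB j)) = true := by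
  decide +kernel
theorem xl_fix : ∀ i, ∀ g ∈ xl i, ∀ j < i, g (xB j) = xB j := fun i g hg =>
  of_decide_eq_true (List.all_eq_true.1 (xl_fixB i) g hg)
theorem xl_reach : ∀ i y, (∀ j < i, y ≠ xB j) → y ∈ reachL (xl i) 8 [xB i] := by decide +kernel
theorem xl_le : ∀ i : Fin 5, 1 ≤ i.1 → ![8, 7, 6, 5, 3] i ≤ 7 := by decide

theorem xM12_shp : Shp xM12 (Fin 12) 5 :=
  shp_of_one (multi_of_key fun x => key_of_lists xB 0 xl 8
    (fun _ _ _ hg => subset_closure (List.mem_of_mem_take hg)) xl_fix xl_reach x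
    fun _ h => absurd h (Nat.not_lt_zero _)) (Fin.castLEEmb (by norm_num))
    (eq_bot_iff.2 fun g hg => Subtype.ext
      ((presK_closure xL_pres g.2).rigid (k := 5) (m := 7) rfl hexK_rig fun a ha =>
        congrArg (fun y : Fin 5 ↪ Fin 12 => y ⟨a, ha⟩) (mem_stabilizer_iff.1 hg)))

theorem xM11_eq : closure {g | g ∈ xL.take 7} = xM12 ⊓ stabilizer (Perm (Fin 12)) (2 : Fin 12) := by
  have l : closure {g | g ∈ xL.take 7} ≤ xM12 := closure_mono fun _ => List.mem_of_mem_take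
  refine le_antisymm (le_inf l ((closure_le _).2 fun g hg => xl_fix 1 g hg 0 (by decide)))
    fun g hg => ?_
  let x : Fin 5 ↪ Fin 12 := ⟨xB, by decide⟩
  obtain ⟨c, hc⟩ := key_of_lists xB 1 xl 8 (G := closure {g | g ∈ xL.take 7})
    (fun i hi g hg => subset_closure ((List.take_prefix_take_left (xl_le i hi)).subset hg))
    xl_fix xl_reach (g • x) fun j hj => by
      obtain rfl : j = 0 := Fin.ext (by omega)
      exact hg.2
  have : (c * g : Perm (Fin 12)) = 1 := congrArg Subtype.val (mem_bot.1 ((xM12_shp.sh x).le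
    (x := (⟨c * g, xM12.mul_mem (l c.2) (mem_inf.1 hg).1⟩ : xM12)) (Function.Embedding.ext hc)))
  rw [eq_inv_of_mul_eq_one_right this]
  exact inv_mem c.2

end H25
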