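import Mathlib
import Cfsg.Prelude.Def_Perm

/-! Elementary arithmetic in near-fields. -/

set_option autoImplicit false

namespace H25.NF

variable {F : Type*} [Cfsg.NearField F]

theorem add_mul' (a b c : F) : (a + b) * c = a * c + b * c := Cfsg.NearField.right_distrib a b c

theorem mul_zero' (a : F) : a * 0 = 0 := Cfsg.NearField.mul_zero a

theorem zero_mul' (a : F) : 0 * a = 0 := by
  have := add_mul' (0 : F) 0 a
  rw [add_zero] at this
  exact (add_eq_left.1 this.symm)

theorem neg_mul' (a b : F) : (-a) * b = -(a * b) := by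
  have := add_mul' (-a) a b
  rw [neg_add_cancel, zero_mul'] at this
  exact eq_neg_of_add_eq_zero_left this.symm

theorem sub_mul' (a b c : F) : (a - b) * c = a * c - b * c := by
  rw [sub_eq_add_neg, add_mul', neg_mul', sub_eq_add_neg]

theorem one_ne_zero' : (1 : F) ≠ 0 := Cfsg.NearField.zero_ne_one.symm

theorem mul_ne_zero' {a b : F} (ha : a ≠ 0) (hb : b ≠ 0) : a * b ≠ 0 := by
  obtain ⟨c, hc, -⟩ := Cfsg.NearField.exists_inv b hb
  intro h
  apply ha
  rw [← mul_one a, ← hc, ← mul_assoc, h, zero_mul']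

theorem exists_inv' {a : F} (ha : a ≠ 0) : ∃ b : F, b ≠ 0 ∧ a * b = 1 ∧ b * a = 1 := by
  obtain ⟨c, hc, hc'⟩ := Cfsg.NearField.exists_inv a ha
  refine ⟨c, ?_, hc, hc'⟩
  rintro rfl
  rw [mul_zero'] at hc
  exact one_ne_zero' hc.symm

theorem mul_left_cancel' {a b c : F} (ha : a ≠ 0) (h : a * b = a * c) : b = c := by
  obtain ⟨d, -, -, hd⟩ := exists_inv' ha
  rw [← one_mul b, ← one_mul c, ← hd, mul_assoc, mul_assoc, h]

theorem mul_right_cancel' {a b c : F} (ha : a ≠ 0) (h : b * a = c * a) : b = c := by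
  obtain ⟨d, -, hd, -⟩ := exists_inv' ha
  rw [← mul_one b, ← mul_one c, ← hd, ← mul_assoc, ← mul_assoc, h]

/-- Right multiplication by a non-zero element as an additive automorphism. -/
theorem exists_addEquiv {a : F} (ha : a ≠ 0) : ∃ φ : F ≃+ F, ∀ x, φ x = x * a := by
  obtain ⟨d, -, hd, hd'⟩ := exists_inv' ha
  exact ⟨{ toFun := fun x => x * a
           invFun := fun x => x * d
           left_inv := fun x => by simp only [mul_assoc, hd, mul_one]
           right_inv := fun x => by simp only [mul_assoc, hd', mul_one]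
           map_add' := fun x y => add_mul' x y a }, fun _ => rfl⟩

end H25.NF
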