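import Cfsg.Agent.H25.Invol

/-! Core arguments on 4-transitive groups with odd stabilisers. -/

set_option autoImplicit false

namespace H25

open MulAction Subgroup

variable {G α : Type*} [Group G] [MulAction G α]

theorem exists_d4 [Finite α] (h : 4 ≤ Nat.card α) : ∃ p q r s : α, D4 p q r s := by
  classical
  obtain ⟨p, -⟩ := exists_notMem_finset (∅ : Finset α) (by simp; omega)
  obtain ⟨q, hq⟩ := exists_notMem_finset ({p} : Finset α) (by simp; omega)
  obtain ⟨r, hr⟩ := exists_notMem_finset ({p, q} : Finset α) (Finset.card_le_two.trans_lt (by omega))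
  obtain ⟨s, hs⟩ := exists_notMem_finset ({p, q, r} : Finset α)
    (Finset.card_le_three.trans_lt (by omega))
  simp only [Finset.mem_insert, Finset.mem_singleton, not_or] at hq hr hs
  exact ⟨p, q, r, s, Ne.symm hq, Ne.symm hr.1, Ne.symm hs.1, Ne.symm hr.2, Ne.symm hs.2.1,
    Ne.symm hs.2.2⟩

theorem exists_notMem_of_ncard [Finite α] (s : Finset α) (t : Set α)
    (h : s.card + t.ncard < Nat.card α) : ∃ x, x ∉ s ∧ x ∉ t := by
  classical
  obtain ⟨t, rfl⟩ := t.toFinite.exists_finset_coe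
  obtain ⟨x, hx⟩ := exists_notMem_finset (s ∪ t) ((Finset.card_union_le _ _).trans_lt (by simpa using h))
  exact ⟨x, by simpa using hx⟩

theorem false_of_odd3 [Finite α] (h4 : IsMultiplyPretransitive G α 4) (h7 : 7 ≤ Nat.card α)
    (hodd3 : ∀ p q r : α, p ≠ q → p ≠ r → q ≠ r → ∀ g : G, g • p = p → g • q = q → g • r = r →
      Odd (orderOf g))
    (h5 : ∀ p q r s x : α, D4 p q r s → x ≠ p → x ≠ q → x ≠ r → x ≠ s →
      ∃ g : G, g • p = q ∧ g • q = p ∧ g • r = s ∧ g • s = r ∧ g • x = x) : False := by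
  classical
  have hodd : Odd4 G α := fun p q r s h g hg =>
    hodd3 p q r h.1 h.2.1 h.2.2.2.1 g (hg _ (by simp)) (hg _ (by simp)) (hg _ (by simp))
  obtain ⟨p, q, r, s, h⟩ := exists_d4 (α := α) (by omega)
  obtain ⟨b, hb, b1, b2, b3, b4⟩ := exists_transp h4 hodd h
  obtain ⟨a, ha, hab, a1, a2, a3, a4⟩ := exists_transp_comm h4 hodd h hb b1 b2 b3 b4
  have fa : ∀ w, a • w = w → w = p ∨ w = q := fun w hw => by
    by_contra h'
    push Not at h'
    rw [eq_one_of_odd ha (hodd3 p q w h.1 h'.1.symm h'.2.symm a a1 a2 hw), one_smul] at a3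
    exact h.2.2.2.2.2 a3
  have fb : ∀ w, b • w = w → w = r ∨ w = s := fun w hw => by
    by_contra h'
    push Not at h'
    rw [eq_one_of_odd hb (hodd3 r s w h.2.2.2.2.2 h'.1.symm h'.2.symm b b3 b4 hw), one_smul] at b1
    exact h.1 b1
  have hc : a * b * (a * b) = 1 := by rw [hab.symm.mul_mul_mul_comm, ha, hb, one_mul]
  have fc : {w : α | (a * b) • w = w}.ncard ≤ 2 := by
    by_contra h'
    obtain ⟨x, y, z, hx, hy, hz, h1, h2, h3⟩ := (Set.two_lt_ncard_iff (Set.toFinite _)).1 (not_le.1 h')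
    have := congrArg (· • p) (eq_one_of_odd hc (hodd3 x y z h1 h2 h3 _ hx hy hz))
    simp only [mul_smul, b1, a2, one_smul] at this
    exact h.1 this.symm
  obtain ⟨w, hw, hw'⟩ := exists_notMem_of_ncard {p, q, r, s} {w : α | (a * b) • w = w}
    (by have := Finset.card_le_four (a := p) (b := q) (c := r) (d := s); omega)
  simp only [Finset.mem_insert, Finset.mem_singleton, not_or, Set.mem_setOf_eq, mul_smul] at hw hw'
  have hd := d4_orbit ha hb hab (fun e => (fa w e).elim hw.1 hw.2.1)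
    (fun e => (fb w e).elim hw.2.2.1 hw.2.2.2) hw'
  have e1 : ∀ x : α, a • a • x = x := fun x => by rw [← mul_smul, ha, one_smul]
  have e2 : ∀ x : α, b • b • x = x := fun x => by rw [← mul_smul, hb, one_smul]
  have e5 : ∀ x : α, b • a • x = a • b • x := fun x => by rw [← mul_smul, ← hab.eq, mul_smul]
  have n1 : p ≠ w := Ne.symm hw.1
  have n2 : p ≠ a • w := fun e => hw.1 (by rw [← e1 w, ← e, a1])
  have n3 : p ≠ b • w := fun e => hw.2.1 (by rw [← e2 w, ← e, b1])
  have n4 : p ≠ a • b • w := fun e => hw.2.1 (by rw [← e2 w, ← e1 (b • w), ← e, a1, b1])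
  obtain ⟨g, g1, g2, g3, g4, g5⟩ := h5 _ _ _ _ p hd n1 n2 n3 n4
  obtain ⟨k, k1, k2, k3, k4, k5⟩ := h5 _ _ _ _ p hd.swap23 n1 n3 n2 n4
  obtain ⟨c, -, hc, ec⟩ := exists_invol_pow (α := α) (g := g)
    (hodd _ _ _ _ hd _ (by simp [mul_smul, *]))
  have c1 : c • w = a • w := by rw [ec] <;> simp [*]
  have c2 : c • a • w = w := by rw [ec] <;> simp [*]
  have c3 : c • b • w = a • b • w := by rw [ec] <;> simp [*]
  have c4 : c • a • b • w = b • w := by rw [ec] <;> simp [*]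
  have c5 : c • p = p := by rw [ec] <;> simp [*]
  obtain ⟨l, hl, hlc⟩ := exists_commuting (s := {w, a • w, b • w, a • b • w, p})
    (fun g hg => hodd _ _ _ _ hd g fun x hx => hg x (by simp at hx ⊢; tauto)) hc k (by
      simp [inv_smul_eq_iff.2 k1.symm, inv_smul_eq_iff.2 k2.symm, inv_smul_eq_iff.2 k3.symm,
        inv_smul_eq_iff.2 k4.symm, inv_smul_eq_iff.2 k5.symm, *])
  simp only [Set.mem_insert_iff, Set.mem_singleton_iff, forall_eq_or_imp, forall_eq] at hl
  obtain ⟨l1, l2, l3, l4, l5⟩ := hl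
  obtain ⟨v, ⟨i, hi⟩, hv, ev⟩ := exists_invol_pow (α := α) (g := l * k)
    (hodd _ _ _ _ hd _ (by simp [mul_smul, *]))
  have v1 : v • w = b • w := by rw [ev] <;> simp [mul_smul, *]
  have v3 : v • b • w = w := by rw [ev] <;> simp [mul_smul, *]
  have v5 : v • p = p := by rw [ev] <;> simp [mul_smul, *]
  obtain ⟨m, m1, m2⟩ := exists_conj_four h4 hodd hc hv (hi ▸ (hlc.zpow_left i).symm) ha hb hab
    (w := w) (by rw [c1, v1, c3]; exact hd) hd
  have f1 := fa (m • p) (by rw [← m1, mul_smul, mul_smul, inv_smul_smul, c5])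
  have f2 := fb (m • p) (by rw [← m2, mul_smul, mul_smul, inv_smul_smul, v5])
  unfold D4 at h
  rcases f1 with f1 | f1 <;> rw [f1] at f2 <;> tauto

/-- `x` is fixed by an involution inducing the transposition `(p q)` on `{p, q, r, s}`. -/
def TFix (G : Type*) {α : Type*} [Group G] [MulAction G α] (p q r s x : α) : Prop :=
  ∃ u : G, u * u = 1 ∧ u • p = q ∧ u • q = p ∧ u • r = r ∧ u • s = s ∧ u • x = x

theorem Odd4.fix_uniq (hodd : Odd4 G α) {p q r s x y : α} (h : D4 p q r s) {u : G} (hu : u * u = 1)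
    (u1 : u • p = q) (u3 : u • r = r) (u4 : u • s = s) (hx : u • x = x) (hy : u • y = y)
    (x1 : x ≠ r) (x2 : x ≠ s) (y1 : y ≠ r) (y2 : y ≠ s) : x = y := by
  by_contra hne
  rw [hodd.eq_one (p := r) (q := s) (r := x) (s := y) ⟨h.2.2.2.2.2, x1.symm, y1.symm, x2.symm,
    y2.symm, hne⟩ hu u3 u4 hx hy, one_smul] at u1
  exact h.1 u1

theorem exists_tFix [Finite α] (h4 : IsMultiplyPretransitive G α 4) (hodd : Odd4 G α)
    (hα : Odd (Nat.card α)) {p q r s : α} (h : D4 p q r s) :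
    ∃ x, x ≠ p ∧ x ≠ q ∧ x ≠ r ∧ x ≠ s ∧ TFix G p q r s x := by
  obtain ⟨u, hu, u1, u2, u3, u4⟩ := exists_transp h4 hodd h
  obtain ⟨x, hx, hx'⟩ : ∃ x, u • x = x ∧ x ∉ ({r, s} : Set α) := by
    by_contra h'
    push Not at h'
    have e := card_modEq_fix (α := α) hu
    rw [show {x : α | u • x = x} = {r, s} from Set.Subset.antisymm h' (by
      rintro _ (rfl | rfl) <;> assumption), Set.ncard_pair h.2.2.2.2.2] at e
    obtain ⟨m, hm⟩ := hα
    unfold Nat.ModEq at e
    omega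
  simp only [Set.mem_insert_iff, Set.mem_singleton_iff, not_or] at hx'
  exact ⟨x, by rintro rfl; exact h.1 (hx.symm.trans u1), by rintro rfl; exact h.1 (u2.symm.trans hx),
    hx'.1, hx'.2, u, hu, u1, u2, u3, u4, hx⟩

theorem TFix.four (h4 : IsMultiplyPretransitive G α 4) (hodd : Odd4 G α) {p q r s x : α}
    (h : D4 p q r s) (x1 : x ≠ p) (x2 : x ≠ q) (x3 : x ≠ r) (x4 : x ≠ s) (hx : TFix G p q r s x) :
    (∃ a b : G, a * a = 1 ∧ b * b = 1 ∧ Commute a b ∧ a • p = p ∧ a • q = q ∧ a • r = s ∧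
      a • s = r ∧ a • x = x ∧ b • p = q ∧ b • q = p ∧ b • r = r ∧ b • s = s ∧ b • x = x) ∧
    ∃ c v : G, c * c = 1 ∧ v * v = 1 ∧ Commute c v ∧ c • p = q ∧ c • q = p ∧ c • r = s ∧
      c • s = r ∧ v • p = r ∧ v • r = p ∧ v • q = s ∧ v • s = q ∧ c • x = x ∧ v • x = x := by
  obtain ⟨b, hb, b1, b2, b3, b4, b5⟩ := hx
  obtain ⟨a, ha, hab, a1, a2, a3, a4⟩ := exists_transp_comm h4 hodd h hb b1 b2 b3 b4
  have a5 : a • x = x := hodd.fix_uniq h hb b1 b3 b4 (smul_fix_of_commute hab b5) b5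
    (fun e => x4 (smul_left_cancel a (e.trans a4.symm)))
    (fun e => x3 (smul_left_cancel a (e.trans a3.symm))) x3 x4
  refine ⟨⟨a, b, ha, hb, hab, a1, a2, a3, a4, a5, b1, b2, b3, b4, b5⟩, ?_⟩
  obtain ⟨g, g1, g2, g3, g4⟩ := h.exists_smul h4 h.rot
  obtain ⟨k, hk, k1, k2⟩ := conj_pair (hodd _ _ _ _ h) (a' := g * a * g⁻¹) (b' := g * b * g⁻¹) hb ha
    (by rw [conj_mul, ha, mul_one, mul_inv_cancel]) (by rw [conj_mul, hb, mul_one, mul_inv_cancel])
    hab.symm (hab.conj g)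
    (by simp [mul_smul, inv_smul_eq_iff.2 g1.symm, inv_smul_eq_iff.2 g2.symm,
      inv_smul_eq_iff.2 g3.symm, inv_smul_eq_iff.2 g4.symm, *])
    (by simp [mul_smul, inv_smul_eq_iff.2 g1.symm, inv_smul_eq_iff.2 g2.symm,
      inv_smul_eq_iff.2 g3.symm, inv_smul_eq_iff.2 g4.symm, *])
    (by simp [*])
  simp only [Set.mem_insert_iff, Set.mem_singleton_iff, forall_eq_or_imp, forall_eq] at hk
  obtain ⟨l1, l2, l3, l4⟩ := hk
  have m1 : k * g * a * (k * g)⁻¹ = b := Eq.trans (by group) k1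
  have m2 : k * g * b * (k * g)⁻¹ = a := Eq.trans (by group) k2
  have n1 : (k * g) • p = r := by rw [mul_smul, g1, l3]
  have n2 : (k * g) • q = s := by rw [mul_smul, g2, l4]
  have n3 : (k * g) • r = p := by rw [mul_smul, g3, l1]
  have n4 : (k * g) • s = q := by rw [mul_smul, g4, l2]
  have n5 : (k * g) • x = x := hodd.fix_uniq h hb b1 b3 b4
    (by rw [← m1, mul_smul, mul_smul, inv_smul_smul, a5]) b5
    (fun e => x1 (smul_left_cancel _ (e.trans n1.symm)))
    (fun e => x2 (smul_left_cancel _ (e.trans n2.symm))) x3 x4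
  have hcm : Commute (k * g) (a * b) :=
    H6.conj_eq_iff_commute.1 (by rw [← conj_mul, m1, m2, hab.eq])
  generalize k * g = t at *
  obtain ⟨v, ⟨i, hi⟩, hv, ev⟩ := exists_invol_pow (α := α) (g := t)
    (hodd _ _ _ _ h _ (by simp [mul_smul, *]))
  exact ⟨a * b, v, by rw [hab.symm.mul_mul_mul_comm, ha, hb, one_mul], hv,
    hi ▸ (hcm.zpow_left i).symm, by simp [mul_smul, *], by simp [mul_smul, *],
    by simp [mul_smul, *], by simp [mul_smul, *], by rw [ev] <;> simp [*], by rw [ev] <;> simp [*],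
    by rw [ev] <;> simp [*], by rw [ev] <;> simp [*], by simp [mul_smul, *], by rw [ev] <;> simp [*]⟩

theorem TFix.rot (h4 : IsMultiplyPretransitive G α 4) (hodd : Odd4 G α) {p q r s x : α}
    (h : D4 p q r s) (x1 : x ≠ p) (x2 : x ≠ q) (x3 : x ≠ r) (x4 : x ≠ s) (hx : TFix G p q r s x) :
    TFix G r s p q x := by
  obtain ⟨⟨a, b, ha, -, -, a1, a2, a3, a4, a5, -⟩, -⟩ := hx.four h4 hodd h x1 x2 x3 x4
  exact ⟨a, ha, a3, a4, a1, a2, a5⟩

theorem Odd4.ncard_fix_le [Finite α] (hodd : Odd4 G α) {u : G} (hu : u * u = 1) (hu1 : u ≠ 1) :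
    {x : α | u • x = x}.ncard ≤ 3 := by
  by_contra h'
  obtain ⟨x, y, z, w, hx, hy, hz, hw, h⟩ := (Set.three_lt_ncard_iff (Set.toFinite _)).1 (not_le.1 h')
  exact hu1 (hodd.eq_one h hu hx hy hz hw)

theorem TFix.swap23 [Finite α] (h4 : IsMultiplyPretransitive G α 4) (hodd : Odd4 G α)
    (hα : Odd (Nat.card α)) (h8 : 8 ≤ Nat.card α) {p q r s x : α}
    (h : D4 p q r s) (x1 : x ≠ p) (x2 : x ≠ q) (x3 : x ≠ r) (x4 : x ≠ s) (hx : TFix G p q r s x) :
    TFix G p r q s x := by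
  classical
  obtain ⟨⟨a, b, ha, hb, hab, a1, a2, a3, a4, a5, b1, b2, b3, b4, b5⟩,
    c, v, hc, hv, hcv, c1, c2, c3, c4, v1, v2, v3, v4, c5, v5⟩ := hx.four h4 hodd h x1 x2 x3 x4
  obtain ⟨y, y1, y2, y3, y4, hy⟩ := exists_tFix h4 hodd hα h.swap23
  obtain ⟨-, v', c', hv', hc', hcv', w1, w2, w3, w4, d1, d2, d3, d4, w5, d5⟩ :=
    hy.four h4 hodd h.swap23 y1 y2 y3 y4
  obtain ⟨k, hk, k1, k2⟩ := conj_pair (hodd _ _ _ _ h) hc hv hc' hv' hcv hcv'.symm
    (by simp [*]) (by simp [*]) (by simp [*])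
  simp only [Set.mem_insert_iff, Set.mem_singleton_iff, forall_eq_or_imp, forall_eq] at hk
  obtain ⟨l1, l2, l3, l4⟩ := hk
  by_cases hxy : k • y = x
  · obtain ⟨u, hu, u1, u2, u3, u4, u5⟩ := hy
    exact ⟨k * u * k⁻¹, by rw [conj_mul, hu, mul_one, mul_inv_cancel], by
      simp [mul_smul, inv_smul_eq_iff.2 l1.symm, inv_smul_eq_iff.2 l2.symm,
        inv_smul_eq_iff.2 l3.symm, inv_smul_eq_iff.2 l4.symm, inv_smul_eq_iff.2 hxy.symm, *]⟩
  exfalso
  have hab2 : a * b * (a * b) = 1 := by rw [hab.symm.mul_mul_mul_comm, ha, hb, one_mul]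
  have fc := hodd.ncard_fix_le hab2 (fun e => h.1 (by
    have := congrArg (· • p) e
    simpa [mul_smul, b1, a2] using this.symm))
  obtain ⟨w, hw, hw'⟩ := exists_notMem_of_ncard {p, q, r, s} {w : α | (a * b) • w = w}
    (by have := Finset.card_le_four (a := p) (b := q) (c := r) (d := s); omega)
  simp only [Finset.mem_insert, Finset.mem_singleton, not_or, Set.mem_setOf_eq, mul_smul] at hw hw'
  have fa : ∀ z, a • z = z → z ≠ p → z ≠ q → z = x := fun z hz z1 z2 =>
    hodd.fix_uniq h.rot ha a3 a1 a2 hz a5 z1 z2 x1 x2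
  have fb : ∀ z, b • z = z → z ≠ r → z ≠ s → z = x := fun z hz z1 z2 =>
    hodd.fix_uniq h hb b1 b3 b4 hz b5 z1 z2 x3 x4
  have hwx : w ≠ x := by rintro rfl; exact hw' (by rw [b5, a5])
  have hd := d4_orbit ha hb hab (fun e => hwx (fa w e hw.1 hw.2.1))
    (fun e => hwx (fb w e hw.2.2.1 hw.2.2.2)) hw'
  obtain ⟨m, m1, m2⟩ := exists_conj_four h4 hodd hc hv hcv ha hb hab (w := p)
    (by rw [c1, v1, c3]; exact h) hd
  have key : ∀ z, c • z = z → v • z = z → m • z = x := fun z z1 z2 => by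
    have f1 : a • m • z = m • z := by rw [← m1, mul_smul, mul_smul, inv_smul_smul, z1]
    have f2 : b • m • z = m • z := by rw [← m2, mul_smul, mul_smul, inv_smul_smul, z2]
    exact fa _ f1 (fun e => h.1 (by rw [e, b1] at f2; exact f2.symm))
      (fun e => h.1 (by rw [e, b2] at f2; exact f2))
  exact hxy (smul_left_cancel m ((key _ (by rw [← k1, mul_smul, mul_smul, inv_smul_smul, d5])
    (by rw [← k2, mul_smul, mul_smul, inv_smul_smul, w5])).trans (key x c5 v5).symm))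

/-- In even degree an involution fixing two points fixes exactly these. -/
theorem Odd4.fix_two [Finite α] (hodd : Odd4 G α) (hα : Even (Nat.card α)) {p q r s : α}
    (h : D4 p q r s) {u : G} (hu : u * u = 1) (u1 : u • p = q) (u3 : u • r = r) (u4 : u • s = s)
    {x : α} (hx : u • x = x) : x = r ∨ x = s := by
  by_contra h'
  push Not at h'
  have e := card_modEq_fix (α := α) hu
  have e1 := hodd.ncard_fix_le hu (by rintro rfl; exact h.1 (by simpa using u1))
  have e2 : 2 < {x : α | u • x = x}.ncard := (Set.two_lt_ncard_iff (Set.toFinite _)).2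
    ⟨r, s, x, u3, u4, hx, h.2.2.2.2.2, h'.1.symm, h'.2.symm⟩
  obtain ⟨m, hm⟩ := hα
  unfold Nat.ModEq at e
  omega

theorem exists_cent_smul (h4 : IsMultiplyPretransitive G α 4) (hodd : Odd4 G α) {z : G}
    (hz : z * z = 1) {p w p' w' : α} (h : D4 p (z • p) w (z • w)) (h' : D4 p' (z • p') w' (z • w')) :
    ∃ g : G, Commute g z ∧ g • p = p' ∧ g • w = w' := by
  obtain ⟨g, g1, g2, g3, g4⟩ := h.exists_smul h4 h'
  have e1 : ∀ x : α, z • z • x = x := fun x => by rw [← mul_smul, hz, one_smul]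
  obtain ⟨k, hk, hc⟩ := exists_commuting (hodd _ _ _ _ h') hz g (by
    simp [inv_smul_eq_iff.2 g1.symm, inv_smul_eq_iff.2 g2.symm, inv_smul_eq_iff.2 g3.symm,
      inv_smul_eq_iff.2 g4.symm, *])
  exact ⟨k * g, hc, by rw [mul_smul, g1, hk _ (by simp)], by rw [mul_smul, g3, hk _ (by simp)]⟩

theorem false_of_odd4_even [Finite G] [Finite α] (h4 : IsMultiplyPretransitive G α 4)
    (hodd : Odd4 G α) (hα : Even (Nat.card α)) (h7 : 7 ≤ Nat.card α)
    (h5 : ∀ p q r s x : α, D4 p q r s → x ≠ p → x ≠ q → x ≠ r → x ≠ s → ∀ g : G,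
      g • p = p → g • q = q → g • r = r → g • s = s → g • x = x → g = 1) : False := by
  classical
  have main : ∀ p q r s : α, D4 p q r s → ∀ z : G, z * z = 1 → z • p = q → z • q = p → z • r = r →
      z • s = s → (∀ g ∈ fixingSubgroup G {p, q, r, s}, Commute g z) ∧
        Nat.card α ≤ 2 * Nat.card (fixingSubgroup G {p, q, r, s}) + 4 := by
    intro p q r s h z hz z1 z2 z3 z4
    set H := fixingSubgroup G ({p, q, r, s} : Set α) with hH
    have mH : ∀ g, g ∈ H ↔ g • p = p ∧ g • q = q ∧ g • r = r ∧ g • s = s := fun g => by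
      simp [hH, mem_fixingSubgroup_iff]
    set M : Set α := {p, q, r, s}ᶜ with hM
    have mM : ∀ x, x ∈ M ↔ x ≠ p ∧ x ≠ q ∧ x ≠ r ∧ x ≠ s := fun x => by simp [hM]
    have cM : M.ncard + 4 = Nat.card α := by
      rw [← Set.ncard_add_ncard_compl {p, q, r, s}, add_comm, Set.ncard_insert_of_notMem
        (by simp [h.1, h.2.1, h.2.2.1]), Set.ncard_insert_of_notMem (by simp [h.2.2.2.1, h.2.2.2.2.1]),
        Set.ncard_pair h.2.2.2.2.2]
    have hsemi : ∀ x ∈ M, stabilizer H x = ⊥ := fun x hx => eq_bot_iff.2 fun g hg => by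
      obtain ⟨x1, x2, x3, x4⟩ := (mM x).1 hx
      obtain ⟨g1, g2, g3, g4⟩ := (mH g).1 g.2
      exact mem_bot.2 (Subtype.ext (h5 p q r s x h x1 x2 x3 x4 g g1 g2 g3 g4 hg))
    have hdvd : Nat.card H ∣ M.ncard := dvd_ncard_of_orbits (H := H) _ M (Set.toFinite _)
      (fun g x hx => by
        obtain ⟨x1, x2, x3, x4⟩ := (mM x).1 hx
        obtain ⟨g1, g2, g3, g4⟩ := (mH g).1 g.2
        exact (mM _).2 ⟨fun e => x1 (smul_left_cancel g (e.trans g1.symm)),
          fun e => x2 (smul_left_cancel g (e.trans g2.symm)),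
          fun e => x3 (smul_left_cancel g (e.trans g3.symm)),
          fun e => x4 (smul_left_cancel g (e.trans g4.symm))⟩)
      fun x hx => by rw [← ncard_orbit_mul_card_stabilizer (G := H) x, hsemi x hx, card_bot, mul_one]
    have hHo : ¬ 2 ∣ Nat.card H := fun h2 => by
      have : Fact (Nat.Prime 2) := ⟨Nat.prime_two⟩
      obtain ⟨g, hg⟩ := exists_prime_orderOf_dvd_card' 2 h2
      have := hodd p q r s h g ((mem_fixingSubgroup_iff _).1 g.2)
      rw [orderOf_coe, hg] at this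
      exact absurd this (by decide)
    have hle : 2 * Nat.card H ≤ M.ncard := Nat.le_of_dvd (by omega)
      ((Nat.coprime_two_left.2 (Nat.odd_iff.2 (by omega))).mul_dvd_of_dvd_of_dvd
        (by obtain ⟨m, hm⟩ := hα; omega) hdvd)
    set Y := H ⊓ centralizer {z}
    have hd : ∀ w ∈ M, D4 p (z • p) w (z • w) := fun w hw => by
      obtain ⟨x1, x2, x3, x4⟩ := (mM w).1 hw
      rw [z1]
      exact ⟨h.1, x1.symm, fun e => x2 (smul_left_cancel z (e.symm.trans z2.symm)), x2.symm,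
        fun e => x1 (smul_left_cancel z (e.symm.trans z1.symm)),
        fun e => (hodd.fix_two hα h hz z1 z3 z4 e.symm).elim x3 x4⟩
    obtain ⟨w₀, hw₀⟩ : M.Nonempty := Set.nonempty_of_ncard_ne_zero (by omega)
    have hg : ∀ w ∈ M, ∃ g : G, Commute g z ∧ g • p = p ∧ g • q = q ∧ g • w₀ = w ∧
        ((g • r = r ∧ g • s = s) ∨ (g • r = s ∧ g • s = r)) := fun w hw => by
      obtain ⟨g, g1, g2, g3⟩ := exists_cent_smul h4 hodd hz (hd w₀ hw₀) (hd w hw)
      refine ⟨g, g1, g2, by rw [← z1, ← mul_smul, g1.eq, mul_smul, g2], g3, ?_⟩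
      have n := (MulAction.injective g).ne h.2.2.2.2.2
      rcases hodd.fix_two hα h hz z1 z3 z4 (smul_fix_of_commute g1 z3) with e | e <;>
        rcases hodd.fix_two hα h hz z1 z3 z4 (smul_fix_of_commute g1 z4) with e' | e' <;> simp_all
    have horb : ∀ w : α, (orbit Y w).ncard ≤ Nat.card Y := fun w =>
      Nat.le_of_dvd Nat.card_pos (Dvd.intro _ (ncard_orbit_mul_card_stabilizer w))
    have hY : M.ncard ≤ 2 * Nat.card Y := by
      have key : ∀ g : G, Commute g z → g • p = p → g • q = q → g • r = r → g • s = s → g ∈ Y :=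
        fun g a b c d e => ⟨(mH g).2 ⟨b, c, d, e⟩, mem_centralizer_singleton_iff.2 a⟩
      by_cases hw : M ⊆ orbit Y w₀
      · have := (Set.ncard_le_ncard hw).trans (horb w₀)
        omega
      obtain ⟨w₁, hw₁, hw₁'⟩ := Set.not_subset.1 hw
      obtain ⟨k, k1, k2, k3, k4, k5⟩ := hg w₁ hw₁
      replace k5 := k5.resolve_left fun e => hw₁' ⟨⟨k, key k k1 k2 k3 e.1 e.2⟩, k4⟩
      have : M ⊆ orbit Y w₀ ∪ orbit Y w₁ := fun w hw => by
        obtain ⟨g, g1, g2, g3, g4, e | e⟩ := hg w hw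
        · exact Or.inl ⟨⟨g, key g g1 g2 g3 e.1 e.2⟩, g4⟩
        · refine Or.inr ⟨⟨g * k⁻¹, key _ (g1.mul_left k1.inv_left) ?_ ?_ ?_ ?_⟩, ?_⟩
          · rw [mul_smul, inv_smul_eq_iff.2 k2.symm, g2]
          · rw [mul_smul, inv_smul_eq_iff.2 k3.symm, g3]
          · rw [mul_smul, inv_smul_eq_iff.2 k5.2.symm, e.2]
          · rw [mul_smul, inv_smul_eq_iff.2 k5.1.symm, e.1]
          · change (g * k⁻¹) • w₁ = w
            rw [mul_smul, inv_smul_eq_iff.2 k4.symm, g4]
      have := (Set.ncard_le_ncard this).trans (Set.ncard_union_le _ _)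
      have := horb w₀
      have := horb w₁
      omega
    have hYH : Y = H := eq_of_le_of_card_ge inf_le_left (by omega)
    exact ⟨fun g hg => mem_centralizer_singleton_iff.1 (hYH.ge hg).2, by rw [← hYH]; omega⟩
  obtain ⟨p, q, r, s, h⟩ := exists_d4 (α := α) (by omega)
  obtain ⟨b, hb, b1, b2, b3, b4⟩ := exists_transp h4 hodd h
  obtain ⟨a, ha, hab, a1, a2, a3, a4⟩ := exists_transp_comm h4 hodd h hb b1 b2 b3 b4
  obtain ⟨hbH, hc⟩ := main p q r s h b hb b1 b2 b3 b4
  have haH := (main r s p q h.rot a ha a3 a4 a1 a2).1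
  rw [show ({r, s, p, q} : Set α) = {p, q, r, s} by ext; simp; tauto] at haH
  obtain ⟨w, hw⟩ := exists_notMem_finset ({p, q, r, s} : Finset α)
    (Finset.card_le_four.trans_lt (by omega))
  simp only [Finset.mem_insert, Finset.mem_singleton, not_or] at hw
  have hab2 : a * b * (a * b) = 1 := by rw [hab.symm.mul_mul_mul_comm, ha, hb, one_mul]
  have hd : D4 r s w (a • w) := ⟨h.2.2.2.2.2, Ne.symm hw.2.2.1,
    fun e => hw.2.2.2 (smul_left_cancel a (e.symm.trans a4.symm)), Ne.symm hw.2.2.2,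
    fun e => hw.2.2.1 (smul_left_cancel a (e.symm.trans a3.symm)),
    fun e => (hodd.fix_two hα h.rot ha a3 a1 a2 e.symm).elim hw.1 hw.2.1⟩
  obtain ⟨g, g1, g2, g3, g4⟩ := hd.exists_smul h4 h
  have e1 : a • a • w = w := by rw [← mul_smul, ha, one_smul]
  obtain ⟨k, -, -, hk⟩ := conj_single (hodd _ _ _ _ h) (a' := g * a * g⁻¹) hab2
    (by rw [conj_mul, ha, mul_one, mul_inv_cancel]) (by
      simp [mul_smul, inv_smul_eq_iff.2 g1.symm, inv_smul_eq_iff.2 g2.symm,
        inv_smul_eq_iff.2 g3.symm, inv_smul_eq_iff.2 g4.symm, *])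
  have f1 : (a * b) • (k * g) • p = (k * g) • p := by rw [← hk]; simp [mul_smul, a1]
  have f2 : (a * b) • (k * g) • q = (k * g) • q := by rw [← hk]; simp [mul_smul, a2]
  have f3 : (k * g) • p ≠ (k * g) • q := (MulAction.injective _).ne h.1
  generalize (k * g) • p = x at *
  generalize (k * g) • q = y at *
  have ne : ∀ t : α, (a * b) • t = t → t ≠ p ∧ t ≠ q ∧ t ≠ r ∧ t ≠ s := fun t ht => by
    refine ⟨?_, ?_, ?_, ?_⟩ <;> rintro rfl <;> unfold D4 at h <;> simp_all [mul_smul]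
  have hbot : fixingSubgroup G ({p, q, r, s} : Set α) = ⊥ := eq_bot_iff.2 fun m hm => by
    have hm' := (mem_fixingSubgroup_iff _).1 hm
    have hc := (haH m hm).mul_right (hbH m hm)
    have hd2 : D4 p q x y := ⟨h.1, (ne x f1).1.symm, (ne y f2).1.symm, (ne x f1).2.1.symm,
      (ne y f2).2.1.symm, f3⟩
    have hx : (m * m) • x = x := by
      have n := (MulAction.injective m).ne f3
      have c1 : (a * b) • p = q := by rw [mul_smul, b1, a2]
      rw [mul_smul]
      rcases hodd.fix_two hα hd2 hab2 c1 f1 f2 (smul_fix_of_commute hc f1) with e | e <;>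
        rcases hodd.fix_two hα hd2 hab2 c1 f1 f2 (smul_fix_of_commute hc f2) with e' | e' <;>
        simp_all
    simp only [Set.mem_insert_iff, Set.mem_singleton_iff, forall_eq_or_imp, forall_eq] at hm'
    exact mem_bot.2 (eq_one_of_odd (h5 p q r s x h (ne x f1).1 (ne x f1).2.1 (ne x f1).2.2.1
      (ne x f1).2.2.2 _ (by simp [mul_smul, hm']) (by simp [mul_smul, hm'])
      (by simp [mul_smul, hm']) (by simp [mul_smul, hm']) hx) (hodd p q r s h m (by simp [hm'])))
  rw [hbot, card_bot] at hc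
  omega

end H25
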