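import Mathlib
import Cfsg.Agent.H25.Zas4
import Cfsg.Agent.H9.NormalCyc

/-! Irreducible linear `p`-groups with a normal subgroup of type `(p, p)` are imprimitive. -/

set_option autoImplicit false

namespace H25

open Subgroup

variable {F V G : Type*} [Field F] [AddCommGroup V] [Module F V] [Group G]

/-- The vectors fixed by `g`. -/
def fixSp (ρ : G →* (V ≃ₗ[F] V)) (g : G) : Submodule F V :=
  LinearMap.eqLocus (ρ g : V →ₗ[F] V) LinearMap.id

theorem mem_fixSp {ρ : G →* (V ≃ₗ[F] V)} {g : G} {v : V} : v ∈ fixSp ρ g ↔ ρ g v = v := Iff.rfl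

theorem rho_mul (ρ : G →* (V ≃ₗ[F] V)) (g h : G) (v : V) : ρ (g * h) v = ρ g (ρ h v) := by
  rw [map_mul]; rfl

theorem map_fixSp (ρ : G →* (V ≃ₗ[F] V)) (g x : G) :
    (fixSp ρ x).map (ρ g : V →ₗ[F] V) = fixSp ρ (g * x * g⁻¹) := by
  ext v
  constructor
  · rintro ⟨w, hw, rfl⟩
    show ρ _ (ρ g w) = ρ g w
    rw [← rho_mul, inv_mul_cancel_right, rho_mul, mem_fixSp.1 hw]
  · intro hv
    refine ⟨ρ g⁻¹ v, ?_, ?_⟩
    · show ρ x (ρ g⁻¹ v) = ρ g⁻¹ v
      conv_rhs => rw [← mem_fixSp.1 hv]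
      rw [← rho_mul, ← rho_mul]
      congr 2
      group
    · show ρ g (ρ g⁻¹ v) = v
      rw [← rho_mul, mul_inv_cancel, map_one]; rfl

theorem indep_fixSp {ι : Type*} (ρ : G →* (V ≃ₗ[F] V)) (x : ι → G) (hc : ∀ i j, Commute (x i) (x j))
    (h : ∀ i j, i ≠ j → ∀ v, ρ (x i) v = v → ρ (x j) v = v → v = 0) :
    iSupIndep fun i => fixSp ρ (x i) := by
  classical
  rw [iSupIndep_iff_finsetSum_eq_zero_imp_eq_zero]
  intro s
  induction s using Finset.induction_on with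
  | empty => simp
  | insert j s hj ih =>
    intro v hv h0
    rw [Finset.sum_insert hj] at h0
    have h1 : ∀ i ∈ s, v i = 0 := fun i hi => by
      refine h i j (fun e => hj (e ▸ hi)) _ (hv i (Finset.mem_insert_of_mem hi)) (sub_eq_zero.1
        (ih (fun k => ρ (x j) (v k) - v k) (fun k hk => ?_) ?_ i hi))
      · have := mem_fixSp.1 (hv k (Finset.mem_insert_of_mem hk))
        rw [mem_fixSp, map_sub, this, ← rho_mul, (hc k j).eq, rho_mul, this]
      · rw [Finset.sum_sub_distrib, ← map_sum, eq_neg_of_add_eq_zero_right h0, map_neg,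
          mem_fixSp.1 (hv j (Finset.mem_insert_self j s)), sub_self]
    rw [Finset.sum_eq_zero h1, add_zero] at h0
    intro i hi
    rcases Finset.mem_insert.1 hi with rfl | hi
    exacts [h0, h1 i hi]

theorem fpf_of_central {ρ : G →* (V ≃ₗ[F] V)} (hρ : Function.Injective ρ)
    (hirr : ∀ W : Submodule F V, (∀ g : G, ∀ w ∈ W, ρ g w ∈ W) → W = ⊥ ∨ W = ⊤) {z : G}
    (hz : z ∈ center G) (hz1 : z ≠ 1) {v : V} (hv : ρ z v = v) : v = 0 := by
  rcases hirr (fixSp ρ z) (fun g w hw => by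
    rw [mem_fixSp, ← rho_mul, ← mem_center_iff.1 hz g, rho_mul, mem_fixSp.1 hw]) with h | h
  · exact (Submodule.eq_bot_iff _).1 h v hv
  · refine absurd (hρ (LinearEquiv.ext fun w => ?_)) hz1
    rw [map_one]
    exact (h ▸ Submodule.mem_top : w ∈ fixSp ρ z)

theorem imprim_of_normal_pp [Finite V] [Nontrivial V] [Finite G] {p : ℕ} [hp : Fact p.Prime]
    (hG : IsPGroup p G) (ρ : G →* (V ≃ₗ[F] V)) (hρ : Function.Injective ρ)
    (hirr : ∀ W : Submodule F V, (∀ g : G, ∀ w ∈ W, ρ g w ∈ W) → W = ⊥ ∨ W = ⊤)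
    (E : Subgroup G) [E.Normal] (hE : IsMulCommutative E) (hEp : ∀ x ∈ E, x ^ p = 1)
    (hc : Nat.card E = p ^ 2) :
    ∃ (H : Subgroup G) (W : Fin p → Submodule F V), H.index = p ∧
      iSup W = ⊤ ∧ iSupIndep W ∧
      (∀ h ∈ H, ∀ i, ∀ w ∈ W i, ρ h w ∈ W i) ∧
      (∀ i, ∃ h ∈ H, h ≠ 1 ∧ ∀ w ∈ W i, ρ h w = w) ∧
      ∀ g : G, g ∉ H → ∃ σ : Equiv.Perm (Fin p), orderOf σ = p ∧
        ∀ i, (W i).map (ρ g : V →ₗ[F] V) = W (σ i) := by
  have hp1 := hp.out.one_lt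
  have hlt : p < p ^ 2 := by nlinarith
  have : NeZero p := ⟨hp.out.ne_zero⟩
  obtain ⟨z, hzE, hz, hzp⟩ := H9.exists_mem_center_orderOf_eq hG (M := E) fun e => by
    rw [e, card_bot] at hc; omega
  have hZ : zpowers z ≤ center G := zpowers_le.2 hz
  have hn : (zpowers z).Normal := ⟨fun n hn g => by
    rw [mem_center_iff.1 (hZ hn) g]; simpa using hn⟩
  obtain ⟨e, heE, he1, v, hv0, hv⟩ : ∃ e ∈ E, e ≠ 1 ∧ ∃ v : V, v ≠ 0 ∧ ρ e v = v := by
    by_contra h
    push Not at h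
    have hfc : FC E := fc_of_lin (ρ.comp E.subtype) fun v hv g hg => by
      by_contra h1
      exact h g g.2 (fun e => h1 (Subtype.ext e)) v hv hg
    exact H9.not_isCyclic_of_elementary hEp (hc ▸ hlt)
      ((topEquiv : (⊤ : Subgroup E) ≃* E).isCyclic.1 (hfc.isCyclic ⊤ inferInstance))
  have heZ : e ∉ center G := fun h => hv0 (fpf_of_central hρ hirr h he1 hv)
  have hcomm : ∀ g, e⁻¹ * (g * e * g⁻¹) ∈ zpowers z := by
    have h1 : Nat.card (E.map (QuotientGroup.mk' (zpowers z))) ≤ p := by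
      have e1 := card_mul_index ((zpowers z).subgroupOf E)
      rw [Nat.card_congr (subgroupOfEquivOfLe (zpowers_le.2 hzE)).toEquiv, Nat.card_zpowers, hzp,
        hc, pow_two] at e1
      rw [← relIndex_ker, QuotientGroup.ker_mk']
      exact (Nat.eq_of_mul_eq_mul_left hp.out.pos e1).le
    intro g
    have := mem_center_iff.1 (H9.le_center_of_card_le_prime (hG.to_quotient _) h1 ⟨e, heE, rfl⟩) g
    rw [← QuotientGroup.eq_one_iff]
    simp only [QuotientGroup.mk'_apply] at this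
    simp only [QuotientGroup.mk_mul, QuotientGroup.mk_inv, this]
    group
  let ψ : G →* zpowers z := MonoidHom.mk' (fun g => ⟨_, hcomm g⟩) fun a b => Subtype.ext (by
    have := mem_center_iff.1 (hZ (hcomm b)) a
    show e⁻¹ * (a * b * e * (a * b)⁻¹) = e⁻¹ * (a * e * a⁻¹) * (e⁻¹ * (b * e * b⁻¹))
    calc _ = e⁻¹ * (a * e * a⁻¹) * (a * (e⁻¹ * (b * e * b⁻¹)) * a⁻¹) := by group
      _ = _ := by rw [this]; group)
  have hψ : ∀ g, g * e * g⁻¹ = e * ψ g := fun g => by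
    show _ = e * (e⁻¹ * (g * e * g⁻¹))
    group
  have hconj : ∀ g (i : ℕ), g * (e * z ^ i) * g⁻¹ = e * ψ g * z ^ i := fun g i => by
    rw [← hψ, mul_assoc (g * e), mem_center_iff.1 (pow_mem hz i) g⁻¹]
    group
  have hmod : ∀ k : ℕ, z ^ (k % p) = z ^ k := fun k => by rw [← hzp, pow_mod_orderOf]
  have hσ : ∀ g, ∃ c : Fin p, (ψ g : G) = z ^ c.val := fun g => by
    obtain ⟨k, hk⟩ := mem_powers_iff_mem_zpowers.2 (ψ g).2
    exact ⟨⟨k % p, Nat.mod_lt _ hp.out.pos⟩, by rw [← hk]; exact (hmod k).symm⟩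
  have hmap : ∀ g (c : Fin p), (ψ g : G) = z ^ c.val → ∀ i : Fin p,
      (fixSp ρ (e * z ^ i.val)).map (ρ g : V →ₗ[F] V) = fixSp ρ (e * z ^ (i + c).val) := by
    intro g c hc i
    rw [map_fixSp, hconj, hc, Fin.val_add, mul_assoc, ← pow_add, add_comm, hmod]
  refine ⟨ψ.ker, fun i => fixSp ρ (e * z ^ i.val), ?_, ?_, ?_, fun h hh i w hw => ?_,
    fun i => ⟨e * z ^ i.val, ?_, fun h => heZ ?_, fun w hw => hw⟩, fun g hg => ?_⟩
  · rw [index_ker]
    have h1 := card_subgroup_dvd_card ψ.range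
    rw [Nat.card_zpowers, hzp] at h1
    refine ((Nat.dvd_prime hp.out).1 h1).resolve_left fun h => heZ (mem_center_iff.2 fun g => ?_)
    have h2 : ψ g = 1 := mem_bot.1 (card_eq_one.1 h ▸ ⟨g, rfl⟩)
    have := hψ g
    rwa [h2, OneMemClass.coe_one, mul_one, mul_inv_eq_iff_eq_mul] at this
  · refine (hirr _ fun g w hw => ?_).resolve_left fun h => hv0 ?_
    · obtain ⟨c, hc⟩ := hσ g
      have : (⨆ i : Fin p, fixSp ρ (e * z ^ i.val)).map (ρ g : V →ₗ[F] V) ≤
          ⨆ i : Fin p, fixSp ρ (e * z ^ i.val) := by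
        rw [Submodule.map_iSup]
        exact iSup_le fun i => hmap g c hc i ▸ le_iSup (fun i : Fin p => fixSp ρ (e * z ^ i.val)) _
      exact this ⟨w, hw, rfl⟩
    · refine (Submodule.eq_bot_iff _).1 h v
        (le_iSup (fun i : Fin p => fixSp ρ (e * z ^ i.val)) 0 ?_)
      simpa [mem_fixSp] using hv
  · refine indep_fixSp ρ _ (fun i j => congrArg Subtype.val (hE.1.1
      ⟨_, mul_mem heE (pow_mem hzE _)⟩ ⟨_, mul_mem heE (pow_mem hzE _)⟩)) fun i j hij w h1 h2 => ?_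
    refine fpf_of_central hρ hirr (z := (z ^ i.val)⁻¹ * z ^ j.val)
      (mul_mem (inv_mem (pow_mem hz _)) (pow_mem hz _)) (fun h => hij (Fin.ext ?_)) ?_
    · exact pow_injOn_Iio_orderOf (hzp ▸ i.2) (hzp ▸ j.2) (inv_mul_eq_one.1 h)
    · rw [show (z ^ i.val)⁻¹ * z ^ j.val = (e * z ^ i.val)⁻¹ * (e * z ^ j.val) by group, rho_mul, h2,
        map_inv]
      exact (LinearEquiv.symm_apply_eq _).2 h1.symm
  · have := hmap h 0 (by simp [MonoidHom.mem_ker.1 hh]) i
    rw [add_zero] at this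
    exact this.le ⟨w, hw, rfl⟩
  · refine Subtype.ext ?_
    show e⁻¹ * (e * z ^ i.val * e * (e * z ^ i.val)⁻¹) = 1
    rw [mul_assoc e (z ^ i.val), ← mem_center_iff.1 (pow_mem hz _) e]
    group
  · rw [eq_inv_of_mul_eq_one_left h]
    exact inv_mem (pow_mem hz _)
  · obtain ⟨c, hc⟩ := hσ g
    have hc0 : c ≠ 0 := fun e => hg (Subtype.ext (by simpa [e] using hc))
    refine ⟨Equiv.addRight c, orderOf_eq_prime ?_ fun e => hc0 (by
      simpa using congrArg (fun σ : Equiv.Perm (Fin p) => σ 0) e), hmap g c hc⟩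
    have : p • c = 0 := by
      have := card_nsmul_eq_zero (x := c)
      rwa [Fintype.card_fin] at this
    simp [this]

end H25
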