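import Mathlib
import Cfsg.Agent.H25.W2p4
import Cfsg.Agent.H25.Stab
import Cfsg.Agent.H25.JSet
import Cfsg.Agent.H25.PrimeCyc

set_option autoImplicit false

namespace H25

open MulAction

/-- A fixed-point-free element of prime order `p` on `2p` points, in coordinates. -/
theorem exists_equiv_two_zmod {G α : Type*} [Group G] [MulAction G α] {p : ℕ} [hp : Fact p.Prime]
    (hα : Nat.card α = 2 * p) (c : G) (hc : orderOf c = p) (hf : ∀ a : α, c • a ≠ a) :
    ∃ e : Fin 2 × ZMod p ≃ α, ∀ r j, c • e (r, j) = e (r, j + 1) := by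
  have hp0 := hp.out.pos
  have : Finite α := Nat.finite_of_card_ne_zero (by omega)
  have hcard : Nat.card (Subgroup.zpowers c) = p := by rw [Nat.card_zpowers, hc]
  let c' : Subgroup.zpowers c := ⟨c, Subgroup.mem_zpowers c⟩
  have hgen : ∀ x : Subgroup.zpowers c, x ∈ Subgroup.zpowers c' := by
    rintro ⟨_, i, rfl⟩
    exact ⟨i, rfl⟩
  let φ := zmodMulEquivOfGenerator hgen hcard
  have hstab : ∀ a : α, stabilizer (Subgroup.zpowers c) a = ⊥ := by
    intro a
    have := Fact.mk (hcard ▸ hp.out)
    rcases (stabilizer (Subgroup.zpowers c) a).eq_bot_or_eq_top_of_prime_card with h | h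
    · exact h
    · have : c' ∈ stabilizer (Subgroup.zpowers c) a := h ▸ Subgroup.mem_top _
      exact absurd this (hf a)
  obtain ⟨a⟩ : Nonempty α := (Nat.card_pos_iff.1 (by omega)).1
  obtain ⟨b, hb⟩ : ∃ b, b ∉ orbit (Subgroup.zpowers c) a := by
    by_contra h
    push Not at h
    have h1 := ncard_orbit_mul_card_stabilizer (G := Subgroup.zpowers c) a
    rw [Set.eq_univ_of_forall h, Set.ncard_univ, hstab, Subgroup.card_bot, hcard, hα] at h1
    omega
  have hinj : Function.Injective fun j : Fin 2 × ZMod p =>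
      φ (Multiplicative.ofAdd j.2) • ![a, b] j.1 := by
    rintro ⟨r, i⟩ ⟨s, j⟩ hij
    simp only at hij
    have hrs : r = s := by
      by_contra hrs
      apply hb
      fin_cases r <;> fin_cases s
      · exact absurd rfl hrs
      · exact ⟨(φ (Multiplicative.ofAdd j))⁻¹ * φ (Multiplicative.ofAdd i), by
          simp only [mul_smul, inv_smul_eq_iff]; exact hij⟩
      · exact ⟨(φ (Multiplicative.ofAdd i))⁻¹ * φ (Multiplicative.ofAdd j), by
          simp only [mul_smul, inv_smul_eq_iff]; exact hij.symm⟩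
      · exact absurd rfl hrs
    subst hrs
    have : (φ (Multiplicative.ofAdd j))⁻¹ * φ (Multiplicative.ofAdd i) ∈
        stabilizer (Subgroup.zpowers c) (![a, b] r) := by
      rw [mem_stabilizer_iff, mul_smul, hij, inv_smul_smul]
    rw [hstab, Subgroup.mem_bot, inv_mul_eq_one] at this
    rw [Multiplicative.ofAdd.injective (φ.injective this)]
  refine ⟨Equiv.ofBijective _ (hinj.bijective_of_nat_card_le (by simp [hα])), fun r j => ?_⟩
  simp only [Equiv.ofBijective_apply]
  rw [add_comm, ofAdd_add, map_mul, mul_smul, zmodMulEquivOfGenerator_apply_ofAdd_one]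
  rfl

/-- Wielandt's theorem on primitive groups of degree `2p`. -/
theorem wielandt_two_prime {G Ω : Type*} [Group G] [Finite G] [MulAction G Ω] [FaithfulSMul G Ω]
    {p : ℕ} (hp : p.Prime) (hΩ : Nat.card Ω = 2 * p) (hG : IsPreprimitive G Ω) (a₀ : Ω) :
    IsMultiplyPretransitive G Ω 2 ∨ (Nat.card (orbitRel.Quotient (stabilizer G a₀) Ω) = 3 ∧
    ∃ a : ℕ, 0 < a ∧ p = 2 * a ^ 2 + 2 * a + 1 ∧ ∀ b : Ω, b ≠ a₀ →
      Nat.card (orbit (stabilizer G a₀) b) = a * (2 * a + 1) ∨
      Nat.card (orbit (stabilizer G a₀) b) = (a + 1) * (2 * a + 1)) := by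
  classical
  have := Fact.mk hp
  have hp0 := hp.pos
  have : Finite Ω := Nat.finite_of_card_ne_zero (by omega)
  have := Fintype.ofFinite Ω
  obtain ⟨x, hx⟩ : ∃ x : G, orderOf x = p := by
    apply exists_prime_orderOf_dvd_card'
    rw [card_eq_card_mul_card_stabilizer (G := G) a₀, hΩ]
    exact (dvd_mul_left _ _).mul_right _
  by_cases hf : ∀ a : Ω, x • a ≠ a
  · obtain ⟨e, he⟩ := exists_equiv_two_zmod hΩ x hx hf
    obtain ⟨E, h1, h2, h3, h4, h5, h6⟩ := exists_idemW (G := G) e he
    have hE : IdemW e G E := ⟨h1, h2, h3, h4, h5, h6⟩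
    refine (hE.trace_eq e he hG).imp_right fun ht => hE.final e he ht (fun a b hab hk => ?_) a₀
    have hle : stabilizer G a ≤ stabilizer G b := by
      intro g hg
      have := (Nat.card_eq_one_iff_unique.1 hk).1
      exact congrArg Subtype.val (this.elim (⟨_, ⟨g, hg⟩, rfl⟩ : orbit (stabilizer G a) b)
        ⟨b, mem_orbit_self b⟩)
    have h0 := stabilizer_eq_bot_of_le hab.symm hle
    have : Nontrivial Ω := ⟨a, b, hab.symm⟩
    have hc := IsPreprimitive.isCoatom_stabilizer_of_isPreprimitive G a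
    rw [h0] at hc
    have h7 := (prime_card_of_isCoatom_bot hc).2
    rw [card_eq_of_regular a h0, hΩ] at h7
    exact Nat.not_prime_mul (by norm_num) hp.one_lt.ne' h7
  · left
    push Not at hf
    obtain ⟨a, ha⟩ := hf
    have hσ : orderOf (toPermHom G Ω x) = p := by
      rw [orderOf_injective _ toPerm_injective, hx]
    obtain ⟨c, hc0, hc, hct⟩ := support_prime_order hp hσ
    have hlt : (toPermHom G Ω x).support.card < Fintype.card Ω :=
      Finset.card_lt_univ_of_notMem (x := a) (by simpa using ha)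
    rw [← Nat.card_eq_fintype_card, hΩ, hc] at hlt
    obtain rfl : c = 1 := by
      have := Nat.lt_of_mul_lt_mul_right hlt
      omega
    have hcyc : (toPermHom G Ω x).IsCycle := by
      rw [← Equiv.Perm.card_cycleType_eq_one, hct]; simp
    refine JSet.two_trans (Γ := ((toPermHom G Ω x).support : Set Ω)) ?_ hG ?_ ?_
    · intro u hu v hv
      obtain ⟨i, hi⟩ := hcyc.exists_pow_eq (Equiv.Perm.mem_support.1 hu)
        (Equiv.Perm.mem_support.1 hv)
      refine ⟨x ^ i, fun z hz => ?_, ?_⟩
      · have : toPermHom G Ω x z = z := by simpa using hz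
        have := Equiv.Perm.pow_apply_eq_self_of_apply_eq_self this i
        rwa [← map_pow] at this
      · rwa [← map_pow] at hi
    · rw [Set.ncard_coe_finset, hc]; have := hp.one_lt; omega
    · rw [Set.ncard_coe_finset, hc, hΩ]; omega

end H25
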