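import Cfsg.Agent.H25.PrimeSyl

/-! Odd order automorphisms of doubly transitive groups (Wielandt). -/

set_option autoImplicit false

namespace H25

open MulAction Subgroup Matrix

variable {G Ω : Type*} [Group G] [MulAction G Ω]

def TwEq (β : MulAut G) (M : Matrix Ω Ω ℤ) : Prop := ∀ (h : G) j i, M (β h • j) (h • i) = M j i

def onesM (Ω : Type*) : Matrix Ω Ω ℤ := Matrix.of fun _ _ => 1

theorem onesM_apply [DecidableEq Ω] (a b : ℤ) (i j : Ω) :
    (a • (1 : Matrix Ω Ω ℤ) + b • onesM Ω) i j = if i = j then a + b else b := by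
  rw [Matrix.add_apply, Matrix.smul_apply, Matrix.smul_apply, one_apply]; split_ifs <;> simp [onesM]

theorem TwEq.mul [Fintype Ω] {β γ : MulAut G} {M N : Matrix Ω Ω ℤ} (hM : TwEq β M)
    (hN : TwEq γ N) : TwEq (β * γ) (M * N) := fun h j i => by
  rw [mul_apply, mul_apply, ← Equiv.sum_comp (toPerm (γ h))]
  exact Finset.sum_congr rfl fun l _ => by
    rw [toPerm_apply, hN, MulAut.mul_apply, hM]

theorem TwEq.transpose {β : MulAut G} {M : Matrix Ω Ω ℤ} (hM : TwEq β M) : TwEq β⁻¹ Mᵀ :=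
  fun h j i => by simpa using hM (β⁻¹ h) i j

theorem TwEq.pow [Fintype Ω] [DecidableEq Ω] {β : MulAut G} {M : Matrix Ω Ω ℤ} (hM : TwEq β M)
    (n : ℕ) : TwEq (β ^ n) (M ^ n) := by
  induction n with
  | zero => intro h j i; simp [one_apply]
  | succ n ih => rw [pow_succ, pow_succ]; exact ih.mul hM

theorem TwEq.eq [DecidableEq Ω] (h2 : IsMultiplyPretransitive G Ω 2) [IsPretransitive G Ω]
    {M : Matrix Ω Ω ℤ} (hM : TwEq (1 : MulAut G) M) {p q : Ω} (hpq : p ≠ q) :
    ∃ a b : ℤ, M = a • 1 + b • onesM Ω := by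
  refine ⟨M p p - M p q, M p q, ?_⟩
  ext j i
  rw [onesM_apply]
  split_ifs with h
  · obtain ⟨g, hg⟩ := exists_smul_eq G p i
    have := hM g p p
    simp_all
  · obtain ⟨g, h1, h2⟩ := is_two_pretransitive_iff.1 h2 hpq h
    have := hM g p q
    simp_all

theorem onesM_indep [DecidableEq Ω] {p q : Ω} (hpq : p ≠ q) {a b c d : ℤ}
    (h : a • (1 : Matrix Ω Ω ℤ) + b • onesM Ω = c • 1 + d • onesM Ω) : a = c := by
  have h1 := congrFun (congrFun h p) p
  have h2 := congrFun (congrFun h p) q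
  simp only [onesM_apply, hpq, if_true, if_false] at h1 h2
  omega

theorem waut_arith {n k N l s : ℤ} (hn : 2 ≤ n) (hk : 0 ≤ k) (hkn : k < n) (h1 : N + l = k)
    (h2 : N + l * n = k * k) (h3 : s * s = N) (h0 : N ≠ 0) (h4 : n ∣ k - s) :
    k = 1 ∨ k = n - 1 := by
  obtain ⟨c, hc⟩ := h4
  have s0 : s ≠ 0 := by rintro rfl; omega
  have l0 : 0 ≤ l := by nlinarith [mul_self_nonneg k, mul_self_nonneg (k - 1)]
  have a1 : s ≤ s * s := by nlinarith [mul_self_nonneg (s - 1), mul_self_nonneg s]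
  have a2 : -s ≤ s * s := by nlinarith [mul_self_nonneg (s + 1), mul_self_nonneg s]
  have c0 : 0 ≤ c := by nlinarith
  have c1 : c < 2 := by nlinarith
  obtain rfl | rfl : c = 0 ∨ c = 1 := by omega
  · obtain rfl : k = s := by omega
    have : 1 ≤ k := by omega
    left; nlinarith
  · obtain rfl : s = k - n := by omega
    have : n * ((k - n) * (k - n + 1)) = 0 := by nlinarith
    rcases mul_eq_zero.1 this with h | h
    · omega
    · rcases mul_eq_zero.1 h with h | h <;> omega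

theorem waut_card [Fintype Ω] (h2 : IsMultiplyPretransitive G Ω 2) (o : Ω) (α : MulAut G)
    (hα : Odd (orderOf α)) (Δ : Set Ω) (hΔ : ∀ g : G, g • o = o → ∀ x ∈ Δ, α g • x ∈ Δ)
    (hk : Δ.ncard.Coprime (Fintype.card Ω)) : Δ.ncard = 1 ∨ Δ.ncard = Fintype.card Ω - 1 := by
  classical
  have hle : Δ.ncard ≤ Fintype.card Ω := by
    rw [← Nat.card_eq_fintype_card]; exact Set.ncard_le_card Δ
  by_cases hn : Fintype.card Ω ≤ 1
  · omega
  obtain ⟨p, q, hpq⟩ := Fintype.one_lt_card_iff.1 (not_le.1 hn)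
  have : IsPretransitive G Ω := is_one_pretransitive_iff.1
    (isMultiplyPretransitive_of_le (n := 2) (by omega) (by rw [Nat.card_eq_fintype_card]; omega))
  choose t ht using fun i => exists_smul_eq G o i
  let A : Matrix Ω Ω ℤ := Matrix.of fun j i => if (α (t i))⁻¹ • j ∈ Δ then 1 else 0
  have hA : TwEq α A := fun h j i => by
    have e : (α (t (h • i)))⁻¹ • α h • j = α ((t (h • i))⁻¹ * h * t i) • (α (t i))⁻¹ • j := by
      simp [mul_smul]
    have e1 : ((t (h • i))⁻¹ * h * t i) • o = o := by simp [mul_smul, ht, inv_smul_eq_iff]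
    refine if_congr ⟨fun hx => ?_, fun hx => e ▸ hΔ _ e1 _ hx⟩ rfl rfl
    have := hΔ _ (inv_smul_eq_iff.2 e1.symm) _ hx
    rwa [e, map_inv α (_ * _), inv_smul_smul] at this
  obtain ⟨k, hk'⟩ : ∃ k : ℤ, k = Δ.ncard := ⟨_, rfl⟩
  obtain ⟨n, hn'⟩ : ∃ n : ℤ, n = Fintype.card Ω := ⟨_, rfl⟩
  have col : ∀ i, ∑ j, A j i = k := fun i => by
    rw [← Equiv.sum_comp (toPerm (α (t i))), hk', Set.ncard_eq_toFinset_card']
    simp [A]
  have row : ∀ j, ∑ i, A j i = k := fun j => by
    have r : ∀ j', ∑ i, A j' i = ∑ i, A j i := fun j' => by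
      obtain ⟨g, rfl⟩ := exists_smul_eq G j j'
      rw [← Equiv.sum_comp (toPerm (α⁻¹ g))]
      exact Finset.sum_congr rfl fun i _ => by simpa using hA (α⁻¹ g) j i
    have := Finset.sum_comm (s := Finset.univ) (t := Finset.univ) (f := fun j i => A j i)
    simp only [r, col, Finset.sum_const, nsmul_eq_mul] at this
    exact mul_left_cancel₀ (by simp; omega) this
  set J := onesM Ω with hJ
  have AJ : A * J = k • J := by ext; simp [J, onesM, mul_apply, row]
  have JA : J * A = k • J := by ext; simp [J, onesM, mul_apply, col]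
  have BJ : Aᵀ * J = k • J := by ext; simp [J, onesM, mul_apply, col]
  have JJ : J * J = n • J := by ext; simp [J, onesM, mul_apply, hn']
  have pw : ∀ {M : Matrix Ω Ω ℤ}, M * J = k • J → ∀ r, M ^ r * J = k ^ r • J := fun h r => by
    induction r with
    | zero => simp
    | succ r ih => rw [pow_succ, mul_assoc, h, mul_smul_comm, ih, smul_smul, pow_succ']
  have JAr : ∀ r, J * A ^ r = k ^ r • J := fun r => by
    induction r with
    | zero => simp
    | succ r ih => rw [pow_succ, ← mul_assoc, ih, smul_mul_assoc, JA, smul_smul, pow_succ]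
  obtain ⟨N, l, hN⟩ := TwEq.eq h2 (by simpa using hA.transpose.mul hA) hpq
  rw [← hJ] at hN
  have e1 : N + l = k := by
    have := congrFun (congrFun hN p) p
    rw [mul_apply, Finset.sum_congr rfl (g := fun j => A j p) fun j _ => by
      simp only [transpose_apply, A, of_apply]; split_ifs <;> rfl, col, onesM_apply] at this
    simpa using this.symm
  have e2 : N + l * n = k * k := by
    have := congrArg (· * J) hN
    simp only [mul_assoc, AJ, mul_smul_comm, BJ, add_mul, smul_mul_assoc, one_mul, JJ,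
      smul_smul] at this
    simpa [J, onesM] using (congrFun (congrFun this p) p).symm
  have BA : ∀ r, ∃ c : ℤ, Aᵀ ^ r * A ^ r = N ^ r • 1 + c • J := fun r => by
    induction r with
    | zero => exact ⟨0, by simp⟩
    | succ r ih =>
      obtain ⟨c, hc⟩ := ih
      refine ⟨N ^ r * l + c * (k * k), ?_⟩
      rw [pow_succ', pow_succ, mul_assoc, ← mul_assoc (Aᵀ ^ r), hc, add_mul, mul_add,
        smul_mul_assoc, smul_mul_assoc, one_mul, mul_smul_comm, mul_smul_comm, JA, mul_smul_comm,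
        BJ, hN, smul_add, smul_smul, smul_smul, smul_smul, smul_smul, add_smul, pow_succ, add_assoc,
        mul_assoc c]
  obtain ⟨r, hr⟩ := hα
  obtain ⟨a, b, hab⟩ := TwEq.eq h2 (by simpa [pow_orderOf_eq_one] using hA.pow (orderOf α)) hpq
  rw [← hJ, hr] at hab
  have cop : IsCoprime k n := by rw [hk', hn']; exact Nat.isCoprime_iff_coprime.2 hk
  have n2 : 2 ≤ n := by omega
  have N0 : N ≠ 0 := by
    rintro rfl
    have := Int.isUnit_iff.1 ((cop.mul_left cop).symm.isUnit_of_dvd ⟨l, by linarith⟩)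
    omega
  have e3 : a * a = N ^ (2 * r + 1) := by
    obtain ⟨c, hc⟩ := BA (2 * r + 1)
    have JT : Jᵀ = J := rfl
    rw [← transpose_pow, hab, transpose_add, transpose_smul, transpose_smul, transpose_one, JT] at hc
    refine onesM_indep hpq (b := 2 * a * b + b * b * n) (d := c) (Eq.trans ?_ hc)
    simp only [add_mul, mul_add, smul_mul_assoc, mul_smul_comm, one_mul, mul_one, ← hJ, JJ]
    module
  obtain ⟨s, rfl⟩ : N ^ r ∣ a := (Int.pow_dvd_pow_iff two_ne_zero).1 ⟨N, by rw [sq, e3]; ring⟩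
  have e4 : s * s = N := mul_left_cancel₀ (pow_ne_zero (2 * r) N0) (by rw [← pow_succ, ← e3]; ring)
  have s0 : s ≠ 0 := by rintro rfl; exact N0 (by simpa using e4.symm)
  obtain ⟨c, hc⟩ := BA (r + 1)
  have e5 : (N ^ r * s) • (s • A ^ r - Aᵀ ^ (r + 1)) = (b * k ^ (r + 1) - c * k ^ r) • J := by
    have := congrArg (Aᵀ ^ (r + 1) * ·) hab
    simp only [show 2 * r + 1 = r + 1 + r by ring] at this
    rw [pow_add A, ← mul_assoc, hc] at this
    simp only [add_mul, mul_add, smul_mul_assoc, mul_smul_comm, one_mul, mul_one, JAr,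
      pw BJ] at this
    rw [pow_succ N] at this
    rw [← e4] at this ⊢
    linear_combination (norm := module) this
  have e6 : s • A ^ r - Aᵀ ^ (r + 1) = (s • A ^ r - Aᵀ ^ (r + 1)) p p • J := by
    ext i j
    have h1 := congrFun (congrFun e5 i) j
    have h2 := congrFun (congrFun e5 p) p
    simp only [Matrix.smul_apply, smul_eq_mul, J, onesM, of_apply, mul_one] at h1 h2 ⊢
    exact mul_left_cancel₀ (mul_ne_zero (pow_ne_zero _ N0) s0) (h1.trans h2.symm)
  generalize (s • A ^ r - Aᵀ ^ (r + 1)) p p = e at e6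
  have e7 := congrArg (· * J) e6
  simp only [sub_mul, smul_mul_assoc, pw AJ, pw BJ, JJ, smul_smul] at e7
  have e8 : s * k ^ r - k ^ (r + 1) = e * n := by
    simpa [J, onesM] using congrFun (congrFun e7 p) p
  have e9 : n ∣ k - s := cop.symm.pow_right.dvd_of_dvd_mul_left (y := k ^ r)
    ⟨-e, by linear_combination -e8⟩
  have kn : k ≠ n := by
    rintro rfl
    have := Int.isUnit_iff.1 (isCoprime_self.1 cop)
    omega
  have := waut_arith n2 (by omega) (by omega) e1 e2 e4 N0 e9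
  omega

theorem waut_perm [Fintype Ω] (h2 : IsMultiplyPretransitive G Ω 2) (o : Ω) (α : MulAut G)
    (hα : Odd (orderOf α)) (Δ : Set Ω) (hΔ : ∀ g : G, g • o = o → ∀ x ∈ Δ, α g • x ∈ Δ)
    (hk : Δ.ncard.Coprime (Fintype.card Ω)) :
    ∃ σ : Equiv.Perm Ω, ∀ (g : G) x, σ (g • x) = α g • σ x := by
  by_cases hn : Fintype.card Ω ≤ 1
  · have := Fintype.card_le_one_iff_subsingleton.1 hn
    exact ⟨1, fun _ _ => Subsingleton.elim _ _⟩
  have : IsPretransitive G Ω := is_one_pretransitive_iff.1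
    (isMultiplyPretransitive_of_le (n := 2) (by omega) (by rw [Nat.card_eq_fintype_card]; omega))
  obtain ⟨w, hw⟩ : ∃ w : Ω, ∀ g : G, g • o = o → α g • w = w := by
    rcases waut_card h2 o α hα Δ hΔ hk with h | h
    · obtain ⟨w, rfl⟩ := Set.ncard_eq_one.1 h
      exact ⟨w, fun g hg => hΔ g hg w rfl⟩
    · have := Set.ncard_add_ncard_compl Δ
      rw [Nat.card_eq_fintype_card] at this
      obtain ⟨w, hw⟩ := Set.ncard_eq_one.1 (show Δᶜ.ncard = 1 by omega)
      refine ⟨w, fun g hg => (hw.le fun hx => ?_ : _ ∈ ({w} : Set Ω))⟩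
      have := hΔ _ (inv_smul_eq_iff.2 hg.symm) _ hx
      rw [map_inv, inv_smul_smul] at this
      exact hw.ge rfl this
  choose t ht using fun i => exists_smul_eq G o i
  have key : ∀ (g : G) x, α (t (g • x)) • w = α g • α (t x) • w := fun g x => by
    have := hw ((t (g • x))⁻¹ * g * t x) (by simp [mul_smul, ht, inv_smul_eq_iff])
    rw [map_mul, map_mul, map_inv, mul_smul, mul_smul, inv_smul_eq_iff] at this
    exact this.symm
  refine ⟨Equiv.ofBijective (fun x => α (t x) • w) (Finite.surjective_iff_bijective.1 fun y => ?_),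
    key⟩
  obtain ⟨g, rfl⟩ := exists_smul_eq G (α (t o) • w) y
  exact ⟨α⁻¹ g • o, by simp [key]⟩

theorem waut_sub [Fintype Ω] (G : Subgroup (Equiv.Perm Ω)) (h2 : IsMultiplyPretransitive G Ω 2)
    (o : Ω) (α : MulAut G) (hα : Odd (orderOf α)) (ω : Ω) (hk : (Nat.card (orbit
      ((stabilizer G o).map α.toMonoidHom) ω)).Coprime (Fintype.card Ω)) :
    ∃ σ : Equiv.Perm Ω, σ ∈ normalizer (G : Set (Equiv.Perm Ω)) ∧
      ∀ g : G, ((α g : G) : Equiv.Perm Ω) = σ * (g : Equiv.Perm Ω) * σ⁻¹ := by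
  obtain ⟨σ, hσ⟩ := waut_perm h2 o α hα _ (fun g hg x hx =>
    mem_orbit_iff.2 (by
      obtain ⟨a, rfl⟩ := hx
      exact ⟨⟨_, mem_map_of_mem α.toMonoidHom hg⟩ * a, mul_smul _ _ _⟩)) hk
  have h : ∀ g : G, ((α g : G) : Equiv.Perm Ω) = σ * (g : Equiv.Perm Ω) * σ⁻¹ := fun g => by
    ext x; simpa using! (hσ g (σ⁻¹ x)).symm
  refine ⟨σ, mem_normalizer_iff.2 fun g => ⟨fun hg => h ⟨g, hg⟩ ▸ (α _).2, fun hg => ?_⟩, h⟩
  have := h (α⁻¹ ⟨_, hg⟩)
  simp only [MulAut.apply_inv_self, mul_left_inj, mul_right_inj] at this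
  exact this ▸ (α⁻¹ ⟨_, hg⟩).2

end H25
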