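import Cfsg.Agent.H2.G0
import Cfsg.Agent.S0516
import Cfsg.Agent.S1248
import Cfsg.Agent.H2.Sm7

/-! The wreathed Sylow 2-subgroup of a simple group of order 6048. -/

set_option autoImplicit false
open Subgroup Cfsg

namespace H25.Wc2
variable {G : Type*} [Group G] [Finite G]

theorem wc [IsSimpleGroup G] (h : Nat.card G = 6048) (hs : ∀ g : G, g^7 = 1 ∨ g^8 = 1 ∨ g^12 = 1) (hr : PRankLE 2 2 G) : ∃ (S : Sylow 2 G) (x y t c : G), H6.WR (S : Subgroup G) 0 x y t ∧ c^3 = 1 ∧ c*x*c⁻¹ = y ∧ c*y*c⁻¹ = (x*y)⁻¹ ∧ t*c*t*c = 1 := by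
  have hG : ¬ IsMulCommutative G := H2.sm_noncomm_of_card (by rw [h]; norm_num)
  obtain ⟨S⟩ : Nonempty (Sylow 2 G) := inferInstance
  have hS := H2.sm_card_sylow_eq S (k := 5) (m := 189) h (by norm_num)
  have n16 : ∀ g : (S : Subgroup G), orderOf g ≠ 16 := fun g e => by
    rw [← orderOf_coe] at e
    rcases hs g with a | a | a <;> have := e ▸ orderOf_dvd_of_pow_eq_one a <;> omega
  have hW : IsWreathed (S : Subgroup G) := by
    letI : Fintype (GaloisField 2 4) := Fintype.ofFinite _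
    have hF : Fintype.card (GaloisField 2 4) = 16 := by
      rw [← Nat.card_eq_fintype_card, GaloisField.card 2 4 (by norm_num)]; norm_num
    have : Finite (PSU 3 (GaloisField 2 4) 4) := inferInstance
    obtain ⟨P⟩ : Nonempty (Sylow 2 (PSU 3 (GaloisField 2 4) 4)) := inferInstance
    rcases Cfsg.Agent.S0516.result hG hr S hF P with ⟨n, -, ⟨e⟩⟩ | ⟨n, -, h1, a, b, h2, -⟩ | h1 | ⟨⟨e⟩⟩
    · have := Nat.card_congr e.toEquiv
      rw [hS, DihedralGroup.nat_card] at this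
      exact absurd (by rw [e.symm.orderOf_eq, DihedralGroup.orderOf_r_one]; omega) (n16 (e.symm (.r 1)))
    · obtain rfl : n = 4 := by have := Nat.pow_right_injective le_rfl (hS.symm.trans h1); omega
      exact absurd h2 (n16 a)
    · exact h1
    · have := (Cfsg.Agent.S1248.result hF P).1
      rw [← Nat.card_congr e.toEquiv, hS] at this
      omega
  obtain ⟨k, x, y, t, c, w⟩ := H2.G0.g0 S hW fun H e => by
    rcases (H.normal_of_index_eq_two e).eq_bot_or_eq_top with rfl | rfl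
    · rw [index_bot] at e; omega
    · simp at e
  obtain rfl : k = 0 := by
    have := Nat.pow_right_injective le_rfl (hS.symm.trans w.wr.card_S); omega
  have ti := w.wr.tinv
  have tx := w.wr.conj
  have xy := w.wr.xy.eq
  have ty : t * y * t⁻¹ = x := by rw [← tx, ti]; simp [← mul_assoc, w.wr.tt, mul_assoc _ t t]
  have tw : t * (x * y)⁻¹ * t⁻¹ = (x * y)⁻¹ := by
    rw [show t * (x * y)⁻¹ * t⁻¹ = (t * x * t⁻¹ * (t * y * t⁻¹))⁻¹ by group, tx, ty, xy]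
  have k3 : ∀ c : G, c * x * c⁻¹ = y → c * y * c⁻¹ = (x * y)⁻¹ → c * (x * y)⁻¹ * c⁻¹ = x := fun c a b => by
    rw [show c * (x * y)⁻¹ * c⁻¹ = (c * x * c⁻¹ * (c * y * c⁻¹))⁻¹ by group, a, b]; group
  have cw := k3 c w.cx w.cy
  obtain ⟨d, dx, dy, td⟩ : ∃ d : G, d * x * d⁻¹ = y ∧ d * y * d⁻¹ = (x * y)⁻¹ ∧ t * d * t⁻¹ = d⁻¹ := by
    refine ⟨t * c * t * c⁻¹, ?_, ?_, by rw [← ti]; nth_rw 1 [ti]; simp [ti, ← mul_assoc, w.wr.tt]⟩
    · calc _ = t * (c * (t * (c⁻¹ * (c * (x * y)⁻¹ * c⁻¹) * c) * t⁻¹) * c⁻¹) * t⁻¹ := by rw [cw]; group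
        _ = y := by rw [show c⁻¹ * (c * (x * y)⁻¹ * c⁻¹) * c = (x * y)⁻¹ by group, tw, cw, tx]
    · calc _ = t * (c * (t * (c⁻¹ * (c * x * c⁻¹) * c) * t⁻¹) * c⁻¹) * t⁻¹ := by rw [w.cx]; group
        _ = _ := by rw [show c⁻¹ * (c * x * c⁻¹) * c = x by group, tx, w.cy, tw]
  have dw := k3 d dx dy
  have x3 : d ^ 3 * x * (d ^ 3)⁻¹ = x := by
    rw [show d ^ 3 * x * (d ^ 3)⁻¹ = d * (d * (d * x * d⁻¹) * d⁻¹) * d⁻¹ by simp [pow_succ, mul_assoc], dx, dy, dw]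
  have y3 : d ^ 3 * y * (d ^ 3)⁻¹ = y := by
    rw [show d ^ 3 * y * (d ^ 3)⁻¹ = d * (d * (d * y * d⁻¹) * d⁻¹) * d⁻¹ by simp [pow_succ, mul_assoc], dy, dw, dx]
  have c3 : Commute (d ^ 3) x := mul_inv_eq_iff_eq_mul.1 x3
  have nc : ¬ Commute d x := fun e => by
    rw [e.eq, mul_inv_cancel_right] at dx
    have : x ∈ zpowers x ⊓ zpowers y := ⟨mem_zpowers x, dx ▸ mem_zpowers x⟩
    rw [w.wr.disj, mem_bot] at this
    have h1 := w.wr.ox
    rw [this, orderOf_one] at h1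
    omega
  refine ⟨S, x, y, t, d ^ 4, w.wr, ?_, ?_, ?_, ?_⟩
  · rcases hs d with a | a | a
    · refine absurd ?_ nc
      rw [show d = (d ^ 3) ^ 5 by rw [← pow_mul, show 3 * 5 = 7 + 7 + 1 from rfl, pow_succ, pow_add, a]; simp]
      exact c3.pow_left 5
    · refine absurd ?_ nc
      rw [show d = (d ^ 3) ^ 3 by rw [← pow_mul, show 3 * 3 = 8 + 1 from rfl, pow_succ, a, one_mul]]
      exact c3.pow_left 3
    · rw [← pow_mul, a]
  · rw [show d ^ 4 * x * (d ^ 4)⁻¹ = d * (d ^ 3 * x * (d ^ 3)⁻¹) * d⁻¹ by group, x3, dx]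
  · rw [show d ^ 4 * y * (d ^ 4)⁻¹ = d * (d ^ 3 * y * (d ^ 3)⁻¹) * d⁻¹ by group, y3, dy]
  · nth_rw 2 [← ti]
    rw [← conj_pow, td, inv_pow, inv_mul_cancel]

end H25.Wc2
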